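import Mathlib
import Cfsg.Agent.Lib.MinIndex.M6.Fix
import Cfsg.Agent.Lib.MinIndex.OCount
import Cfsg.Agent.Lib.MinIndex.OS9
import Cfsg.Agent.Lib.Classical.Witt.Index

/-!
# Minimal degree of the orthogonal groups in dimension six: the numbers of vectors with a given value of the form
-/

set_option autoImplicit false
set_option linter.unusedSectionVars false
set_option linter.unusedSimpArgs false
set_option linter.unusedVariables false

namespace Cfsg.Agent.Lib.MinIndex.M6.Count

open Matrix QuadraticMap Module Finset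
open Cfsg.Agent.Lib.Classical.Orth.Basic
open Cfsg.Agent.Lib.Classical.Orth.Models
open Cfsg.Agent.Lib.Classical.Witt.Hyp
open Cfsg.Agent.Lib.MinIndex.M6.Base Cfsg.Agent.Lib.MinIndex.M6.Vec Cfsg.Agent.Lib.MinIndex.M6.Good
open Cfsg.Agent.Lib.MinIndex.M6.Fix Cfsg.Agent.Lib.MinIndex.M6.Step Cfsg.Agent.Lib.MinIndex.M6.Reg

open Cfsg.Agent.Lib.MinIndex.OCount (cnt cnt_cons cntMinus_zero cntMinus_ge exists_squares_odd exists_squares_two)

variable {F : Type*} [Field F] [Fintype F]

section Sub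

variable {ι : Type} [Fintype ι] [DecidableEq ι] {Q : QuadraticForm F (ι → F)}

set_option quotPrecheck false in
local notation "𝔣" => polar (⇑Q)

/-- The number of vectors of a subspace with a given value. -/
noncomputable def cntU (Q : QuadraticForm F (ι → F)) (U : Submodule F (ι → F)) (κ : F) : ℕ := by
  classical
  exact (univ.filter fun x : ι → F => x ∈ U ∧ Q x = κ).card

theorem cntU_eq (U : Submodule F (ι → F)) (κ : F) [Fintype U] : cntU Q U κ = cnt (fun x : U => Q x.1) κ := by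
  classical
  unfold cntU cnt
  symm
  apply Finset.card_bij (fun (x : U) _ => x.1)
  · intro x hx
    simp only [Finset.mem_filter, Finset.mem_univ, true_and] at hx ⊢
    exact ⟨x.2, hx⟩
  · intro x _ y _ h
    exact Subtype.ext h
  · intro x hx
    simp only [Finset.mem_filter, Finset.mem_univ, true_and] at hx
    exact ⟨⟨x, hx.1⟩, by simpa using hx.2, rfl⟩

theorem cntU_top (κ : F) : cntU Q ⊤ κ = cnt (⇑Q) κ := by
  classical
  unfold cntU cnt
  simp

variable [OC Q]

/-- The decomposition of a subspace containing a hyperbolic pair. -/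
noncomputable def splitU {d d' : ι → F} (h : HP Q d d') {U : Submodule F (ι → F)} (hd : d ∈ U) (hd' : d' ∈ U) :
    F × F × ↥(U ⊓ WW Q d d') ≃ ↥U where
  toFun t := ⟨t.1 • d + t.2.1 • d' + t.2.2.1, U.add_mem (U.add_mem (U.smul_mem _ hd) (U.smul_mem _ hd')) t.2.2.2.1⟩
  invFun x := (𝔣 x.1 d', 𝔣 x.1 d, ⟨x.1 - 𝔣 x.1 d' • d - 𝔣 x.1 d • d', U.sub_mem (U.sub_mem x.2 (U.smul_mem _ hd)) (U.smul_mem _ hd'),
    mem_WW.2 ⟨by
      rw [polar_sub_right, polar_sub_right, polar_smul_right', polar_smul_right', h.cc, h.hp, polar_symm d x.1]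
      ring, by
      rw [polar_sub_right, polar_sub_right, polar_smul_right', polar_smul_right', h.cc', h.hp', polar_symm d' x.1]
      ring⟩⟩)
  left_inv := by
    rintro ⟨a, b, y, hyU, hy⟩
    have h1 : 𝔣 y d' = 0 := WW_right' hy
    have h2 : 𝔣 y d = 0 := WW_left' hy
    have e1 : 𝔣 (a • d + b • d' + y) d' = a := by
      rw [polar_add_left, polar_add_left, polar_smul_left', polar_smul_left', h.hp, h.cc', h1]
      ring
    have e2 : 𝔣 (a • d + b • d' + y) d = b := by
      rw [polar_add_left, polar_add_left, polar_smul_left', polar_smul_left', h.hp', h.cc, h2]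
      ring
    simp only [e1, e2]
    refine Prod.ext rfl (Prod.ext rfl (Subtype.ext ?_))
    simp only
    abel
  right_inv := by
    intro x
    apply Subtype.ext
    simp only
    abel

theorem Q_splitU {d d' : ι → F} (h : HP Q d d') {U : Submodule F (ι → F)} (hd : d ∈ U) (hd' : d' ∈ U)
    (t : F × F × ↥(U ⊓ WW Q d d')) : Q (splitU h hd hd' t).1 = t.1 * t.2.1 + Q t.2.2.1 := by
  have := Q_triple h t.2.2.2.2 t.1 t.2.1 1
  have e : (splitU h hd hd' t).1 = t.1 • d + t.2.1 • d' + t.2.2.1 := rfl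
  rw [e]
  simpa using this

/-- The size of a subspace containing a hyperbolic pair. -/
theorem card_splitU {d d' : ι → F} (h : HP Q d d') {U : Submodule F (ι → F)} (hd : d ∈ U) (hd' : d' ∈ U) :
    Nat.card U = Fintype.card F * Fintype.card F * Nat.card ↥(U ⊓ WW Q d d') := by
  rw [← Nat.card_congr (splitU h hd hd'), Nat.card_prod, Nat.card_prod, Nat.card_eq_fintype_card (α := F), mul_assoc]

/-- The recursion for the number of vectors in a subspace containing a hyperbolic pair. -/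
theorem cntU_rec {d d' : ι → F} (h : HP Q d d') {U : Submodule F (ι → F)} (hd : d ∈ U) (hd' : d' ∈ U) (κ : F) :
    cntU Q U κ = (Fintype.card F - 1) * Nat.card ↥(U ⊓ WW Q d d') + Fintype.card F * cntU Q (U ⊓ WW Q d d') κ := by
  classical
  let _ : Fintype U := Fintype.ofFinite _
  let _ : Fintype ↥(U ⊓ WW Q d d') := Fintype.ofFinite _
  rw [cntU_eq, cntU_eq, Nat.card_eq_fintype_card]
  exact cnt_cons (splitU h hd hd') _ _ (Q_splitU h hd hd') κ

/-- The number of nonzero singular vectors. -/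
theorem card_singOf (U : Submodule F (ι → F)) : (Cfsg.Agent.Lib.MinIndex.M6.Fix.singOf Q U).card + 1 = cntU Q U 0 := by
  classical
  have h1 : Cfsg.Agent.Lib.MinIndex.M6.Fix.singOf Q U = (univ.filter fun x : ι → F => x ∈ U ∧ Q x = 0).erase 0 := by
    ext x
    simp only [Cfsg.Agent.Lib.MinIndex.M6.Fix.mem_singOf, Finset.mem_erase, Finset.mem_filter, Finset.mem_univ, true_and]
    tauto
  rw [h1, Finset.card_erase_add_one]
  · rfl
  · simp [U.zero_mem]

/-- The set of singular vectors of the complement, in the two descriptions. -/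
theorem card_singW (c c' : ι → F) :
    (Cfsg.Agent.Lib.MinIndex.M6.Good.singW Q c c').card = (Cfsg.Agent.Lib.MinIndex.M6.Fix.singOf Q (WW Q c c')).card := by
  classical
  apply Finset.card_bij (fun (x : WW Q c c') _ => x.1)
  · intro x hx
    obtain ⟨h1, h2⟩ := Cfsg.Agent.Lib.MinIndex.M6.Good.mem_singW.1 hx
    exact Cfsg.Agent.Lib.MinIndex.M6.Fix.mem_singOf.2 ⟨fun h0 => h1 (Subtype.ext h0), h2, x.2⟩
  · intro x _ y _ h
    exact Subtype.ext h
  · intro x hx
    obtain ⟨h1, h2, h3⟩ := Cfsg.Agent.Lib.MinIndex.M6.Fix.mem_singOf.1 hx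
    exact ⟨⟨x, h3⟩, Cfsg.Agent.Lib.MinIndex.M6.Good.mem_singW.2 ⟨fun h0 => h1 (congrArg Subtype.val h0), h2⟩, rfl⟩

/-- A lower bound for the size of a class of nonsingular vectors. -/
theorem clsW_ge {c c' : ι → F} (u : WW Q c c') (hu : Q u.1 ≠ 0) {LB : ℕ} (hLB : ∀ κ : F, κ ≠ 0 → LB ≤ cntU Q (WW Q c c') κ)
    (T : Finset F) (hT : ∀ s ∈ T, ∃ l : F, l ≠ 0 ∧ s = l * l) : T.card * LB ≤ (Cfsg.Agent.Lib.MinIndex.M6.Good.clsW u).card := by
  classical
  set A : F → Finset (WW Q c c') := fun s => (Cfsg.Agent.Lib.MinIndex.M6.Good.clsW u).filter fun x => Q u.1 = s * Q x.1 with hA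
  have hdisj : (T : Set F).PairwiseDisjoint A := by
    intro s hs s' hs' hne
    rw [Function.onFun, Finset.disjoint_left]
    intro x hx hx'
    apply hne
    have h1 := (Finset.mem_filter.1 hx).2
    have h2 := (Finset.mem_filter.1 hx').2
    have h3 : Q x.1 ≠ 0 := by
      intro h0
      rw [h0, mul_zero] at h1
      exact hu h1
    rw [h1] at h2
    exact mul_right_cancel₀ h3 h2
  have hcard : ∀ s ∈ T, LB ≤ (A s).card := by
    intro s hs
    obtain ⟨l, hl, rfl⟩ := hT s hs
    have hl2 : l * l ≠ 0 := mul_ne_zero hl hl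
    have h1 := hLB (Q u.1 / (l * l)) (div_ne_zero hu hl2)
    refine h1.trans ?_
    unfold cntU
    apply Finset.card_le_card_of_injOn (fun x => if hx : x ∈ WW Q c c' then (⟨x, hx⟩ : WW Q c c') else u)
    · intro x hx
      have hx' := Finset.mem_filter.1 (Finset.mem_coe.1 hx)
      simp only [Finset.mem_univ, true_and] at hx'
      have hne : x ≠ 0 := by
        rintro rfl
        have := hx'.2
        simp only [QuadraticMap.map_zero] at this
        exact (div_ne_zero hu hl2) this.symm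
      simp only [dif_pos hx'.1]
      refine Finset.mem_coe.2 (Finset.mem_filter.2 ⟨Cfsg.Agent.Lib.MinIndex.M6.Good.mem_clsW.2 ⟨fun h0 => hne (congrArg Subtype.val h0), l, hl, ?_⟩, ?_⟩)
      · rw [hx'.2]
        field_simp
      · rw [hx'.2]
        field_simp
    · intro x hx y hy e
      have hx' := Finset.mem_filter.1 (Finset.mem_coe.1 hx)
      have hy' := Finset.mem_filter.1 (Finset.mem_coe.1 hy)
      simp only [Finset.mem_univ, true_and] at hx' hy'
      simp only [dif_pos hx'.1, dif_pos hy'.1] at e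
      exact congrArg Subtype.val e
  calc T.card * LB = ∑ s ∈ T, LB := by rw [Finset.sum_const, smul_eq_mul]
    _ ≤ ∑ s ∈ T, (A s).card := Finset.sum_le_sum hcard
    _ = (T.biUnion A).card := (Finset.card_biUnion hdisj).symm
    _ ≤ _ := Finset.card_le_card (Finset.biUnion_subset.2 (fun s _ => Finset.filter_subset _ _))

end Sub

/-- An element with a square different from one. -/
theorem exists_mu (hq : 4 ≤ Fintype.card F) : ∃ μ : F, μ ≠ 0 ∧ μ * μ ≠ 1 := by
  classical
  by_contra hcon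
  push Not at hcon
  have hsub : (Finset.univ : Finset F) ⊆ {0, 1, -1} := by
    intro t _
    by_cases ht : t = 0
    · simp [ht]
    · have h1 := hcon t ht
      have h2 : (t - 1) * (t + 1) = 0 := by linear_combination h1
      rcases mul_eq_zero.1 h2 with h3 | h3
      · simp [sub_eq_zero.1 h3]
      · simp [eq_neg_of_add_eq_zero_left h3]
  have h3 := Finset.card_le_card hsub
  rw [Finset.card_univ] at h3
  have h4 : ({0, 1, -1} : Finset F).card ≤ 3 := Finset.card_le_three
  omega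


variable {ι : Type} [Fintype ι] [DecidableEq ι] {Q : QuadraticForm F (ι → F)} [OC Q]

set_option quotPrecheck false in
local notation "𝔣" => polar (⇑Q)

/-- A hyperbolic pair. -/
theorem exists_HP (Q : QuadraticForm F (ι → F)) [OC Q] : ∃ c c' : ι → F, HP Q c c' := by
  have hdim := OC.dim (Q := Q)
  obtain ⟨s, hs0, hQs, -⟩ := exists_sing_orth_vec (Q := Q) ![] (by
    simp only [zero_add]
    omega)
  obtain ⟨x', hx1, hx2⟩ := exists_partner (OC.nd' (Q := Q)) hs0 hQs
  exact ⟨s, x', hQs, hx1, hx2⟩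

/-- The relations between the numbers of vectors. -/
theorem rels {c c' d d' : ι → F} (h : HP Q c c') (h' : HP Q d d') (hd : d ∈ WW Q c c') (hd' : d' ∈ WW Q c c') :
    (Fintype.card F * Fintype.card F * Nat.card (WW Q c c') = Fintype.card F ^ Fintype.card ι) ∧
    (Nat.card (WW Q c c') = Fintype.card F * Fintype.card F * Nat.card (WW2 Q c c' d d')) ∧
    (∀ κ, cnt (⇑Q) κ = (Fintype.card F - 1) * Nat.card (WW Q c c') + Fintype.card F * cntU Q (WW Q c c') κ) ∧
    (∀ κ, cntU Q (WW Q c c') κ = (Fintype.card F - 1) * Nat.card (WW2 Q c c' d d') + Fintype.card F * cntU Q (WW2 Q c c' d d') κ) := by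
  have h1 := card_splitU h (U := ⊤) Submodule.mem_top Submodule.mem_top
  rw [top_inf_eq] at h1
  have h2 : Nat.card (⊤ : Submodule F (ι → F)) = Fintype.card F ^ Fintype.card ι := by
    rw [Nat.card_congr Submodule.topEquiv.toEquiv, Nat.card_eq_fintype_card, Fintype.card_fun]
  refine ⟨by rw [← h1, h2], card_splitU h' hd hd', fun κ => ?_, fun κ => cntU_rec h' hd hd' κ⟩
  have h3 := cntU_rec h (U := ⊤) Submodule.mem_top Submodule.mem_top κ
  rw [top_inf_eq, cntU_top] at h3
  exact h3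


/-- The form as an instance of the setting. -/
theorem oc_minus6 {a b : F} (hab : ∀ z₁ z₂ : F, z₁ ^ 2 + a * z₁ * z₂ + b * z₂ ^ 2 = 0 → z₁ = 0 ∧ z₂ = 0) :
    OC (minusForm 2 F a b) :=
  ⟨minusForm_nondegenerate 2 a b hab, by
    simp only [Fintype.card_sum, Fintype.card_fin], fun X hX =>
    Cfsg.Agent.Lib.Classical.Witt.Index.finrank_le_of_ts_minus 2 hab X (fun w hw => by
      have h1 := hX w hw
      rw [coe_minusForm 2 F a b] at h1
      exact h1)⟩

/-- The numbers of vectors for the minus form in dimension six. -/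
theorem m6_data {a b : F} [OC (minusForm 2 F a b)] {y : ℕ} (hF : Fintype.card F = y + 1)
    (hab : ∀ z₁ z₂ : F, z₁ ^ 2 + a * z₁ * z₂ + b * z₂ ^ 2 = 0 → z₁ = 0 ∧ z₂ = 0)
    {c c' : (Fin 2 ⊕ Fin 2) ⊕ Fin 2 → F} (h : HP (minusForm 2 F a b) c c') :
    Nat.card (WW (minusForm 2 F a b) c c') = (y + 1) ^ 4 ∧
    cnt (⇑(minusForm 2 F a b)) 0 + y * (y + 1) ^ 2 = (y + 1) ^ 5 ∧
    cntU (minusForm 2 F a b) (WW (minusForm 2 F a b) c c') 0 + y * (y + 1) = (y + 1) ^ 3 ∧
    ∀ κ : F, (y + 1) ^ 3 ≤ cntU (minusForm 2 F a b) (WW (minusForm 2 F a b) c c') κ + (y + 1) ^ 2 := by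
  classical
  set Q := minusForm 2 F a b with hQ
  obtain ⟨d, d', h', hd, hd'⟩ := exists_HP_W h
  obtain ⟨hR1, -, hR3, -⟩ := rels h h' hd hd'
  have hcardι : Fintype.card ((Fin 2 ⊕ Fin 2) ⊕ Fin 2) = 6 := by
    simp only [Fintype.card_sum, Fintype.card_fin]
  rw [hF] at hR1 hR3
  rw [hcardι] at hR1
  simp only [Nat.add_sub_cancel] at hR3
  have hcoe : (⇑Q) = Cfsg.quadFormMinus 2 F a b := coe_minusForm 2 F a b
  have hW : Nat.card (WW Q c c') = (y + 1) ^ 4 := by
    apply Nat.eq_of_mul_eq_mul_left (show 0 < (y + 1) * (y + 1) by positivity)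
    rw [hR1]
    ring
  have hT₀ := cntMinus_zero hF 2 hab
  rw [← hcoe, Nat.add_sub_cancel] at hT₀
  have h0 : cnt (⇑Q) 0 + y * (y + 1) ^ 2 = (y + 1) ^ 5 := by
    apply Nat.eq_of_mul_eq_mul_left (show 0 < y + 1 by positivity)
    calc (y + 1) * (cnt (⇑Q) 0 + y * (y + 1) ^ 2) = (y + 1) * cnt (⇑Q) 0 + y * (y + 1) ^ (2 + 1) := by ring
      _ = (y + 1) ^ (2 * 2 + 2) := hT₀
      _ = (y + 1) * (y + 1) ^ 5 := by ring
  have h1 : cntU Q (WW Q c c') 0 + y * (y + 1) = (y + 1) ^ 3 := by
    have h2 := hR3 0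
    rw [hW] at h2
    apply Nat.eq_of_mul_eq_mul_left (show 0 < y + 1 by positivity)
    have e1 : (y + 1) ^ 5 = y * (y + 1) ^ 4 + (y + 1) ^ 4 := by ring
    have e2 : (y + 1) * (cntU Q (WW Q c c') 0 + y * (y + 1)) = (y + 1) * cntU Q (WW Q c c') 0 + y * (y + 1) ^ 2 := by ring
    have e3 : (y + 1) * (y + 1) ^ 3 = (y + 1) ^ 4 := by ring
    rw [e2, e3]
    omega
  refine ⟨hW, h0, h1, fun κ => ?_⟩
  have h2 := cntMinus_ge hF 2 a b κ
  rw [← hcoe] at h2
  have h3 := hR3 κ
  rw [hW] at h3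
  rw [h3] at h2
  apply Nat.le_of_mul_le_mul_left _ (show 0 < y + 1 by positivity)
  have e1 : (y + 1) ^ (2 * 2 + 1) = y * (y + 1) ^ 4 + (y + 1) ^ 4 := by ring
  have e2 : (y + 1) ^ (2 + 1) = (y + 1) * (y + 1) ^ 2 := by ring
  have e3 : (y + 1) * (y + 1) ^ 3 = (y + 1) ^ 4 := by ring
  rw [e1, e2] at h2
  rw [e3, Nat.mul_add]
  omega

open _root_.Classical in
/-- The nonsingular vectors of the complement. -/
theorem card_nonsing (U : Submodule F (ι → F)) [Fintype U] :
    (Finset.univ.filter fun x : U => Q x.1 ≠ 0).card + cntU Q U 0 = Fintype.card U := by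
  classical
  have h1 := Finset.card_filter_add_card_filter_not (s := (Finset.univ : Finset U)) (fun x : U => Q x.1 = 0)
  have h2 := cntU_eq (Q := Q) U 0
  rw [h2, Cfsg.Agent.Lib.MinIndex.OCount.cnt, add_comm]
  simp only [ne_eq]
  rw [← Finset.card_univ]
  exact h1

/-- In characteristic two every nonsingular vector is in the class of a nonsingular vector. -/
theorem clsW_even {c c' : ι → F} (h2 : (2 : F) = 0) (u : WW Q c c') (hu : Q u.1 ≠ 0) :
    Fintype.card (WW Q c c') ≤ (clsW u).card + cntU Q (WW Q c c') 0 := by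
  classical
  rw [← card_nonsing (Q := Q) (WW Q c c')]
  refine Nat.add_le_add_right (Finset.card_le_card ?_) _
  intro x hx
  have hQx : Q x.1 ≠ 0 := (Finset.mem_filter.1 hx).2
  refine mem_clsW.2 ⟨?_, ?_⟩
  · intro h0
    apply hQx
    rw [h0]
    simp
  · obtain ⟨l, hl⟩ := Cfsg.Agent.Lib.MinIndex.M6.Types.exists_sq h2 (Q u.1 / Q x.1)
    refine ⟨l, ?_, ?_⟩
    · rintro rfl
      rw [mul_zero] at hl
      exact (div_ne_zero hu hQx) hl.symm
    · rw [hl]
      field_simp

end Cfsg.Agent.Lib.MinIndex.M6.Count
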