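import Mathlib
import Cfsg.Agent.Lib.MinIndex.M6.Count
import Cfsg.Agent.Lib.Classical.Orth.Center

/-!
# The minimal index of a proper subgroup of the projective orthogonal groups of minus type in dimension six
-/

set_option autoImplicit false
set_option linter.unusedSectionVars false
set_option linter.unusedSimpArgs false
set_option linter.unusedVariables false

namespace Cfsg.Agent.Lib.MinIndex.M6.Final

open Matrix QuadraticMap Module
open Cfsg.Agent.Lib.Classical.Orth.Basic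
open Cfsg.Agent.Lib.Classical.Orth.Models
open Cfsg.Agent.Lib.Classical.Witt.Hyp
open Cfsg.Agent.Lib.MinIndex.M6.Base Cfsg.Agent.Lib.MinIndex.M6.Vec Cfsg.Agent.Lib.MinIndex.M6.Good
open Cfsg.Agent.Lib.MinIndex.M6.Step Cfsg.Agent.Lib.MinIndex.M6.Reg Cfsg.Agent.Lib.MinIndex.M6.Fix
open Cfsg.Agent.Lib.MinIndex.M6.Count

open Cfsg.Agent.Lib.MinIndex.OCount (cnt exists_squares_odd exists_squares_two)

section General

variable {ι : Type} [Fintype ι] [DecidableEq ι] {F : Type*} [Field F] [Fintype F]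
variable {Q : QuadraticForm F (ι → F)} [OC Q]

set_option quotPrecheck false in
local notation "𝔣" => polar (⇑Q)

/-- The action on the nonzero singular vectors. -/
@[instance_reducible] noncomputable def actSing : MulAction (GG Q) {v : ι → F // v ≠ 0 ∧ Q v = 0} where
  smul g v := ⟨act g.1 v.1, fun h0 => v.2.1 (by
    have := act_GG_inv_act g v.1
    rw [h0] at this
    rw [← this]
    simp), by rw [Q_act]; exact v.2.2⟩
  one_smul v := by
    apply Subtype.ext
    exact act_GG_one _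
  mul_smul g g' v := by
    apply Subtype.ext
    exact act_GG_mul _ _ _

/-- The stabilizer of a singular line. -/
def lineStab (Q : QuadraticForm F (ι → F)) [OC Q] (c : ι → F) : Subgroup (GG Q) where
  carrier := {g | ∃ l : F, l ≠ 0 ∧ act g.1 c = l • c}
  mul_mem' := by
    rintro a b ⟨l, hl, h1⟩ ⟨l', hl', h2⟩
    refine ⟨l * l', mul_ne_zero hl hl', ?_⟩
    rw [act_GG_mul, h2, act_smul, h1, smul_smul, mul_comm]
  one_mem' := ⟨1, one_ne_zero, by rw [act_GG_one, one_smul]⟩
  inv_mem' := by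
    rintro a ⟨l, hl, h1⟩
    refine ⟨l⁻¹, inv_ne_zero hl, ?_⟩
    have h2 := act_GG_inv_act a c
    rw [h1, act_smul] at h2
    have h3 := congrArg (fun x => l⁻¹ • x) h2
    simp only [smul_smul, inv_mul_cancel₀ hl, one_smul] at h3
    exact h3

/-- The center lies in the stabilizer of a singular line. -/
theorem center_le_lineStab {c : ι → F} (hc : c ≠ 0) : Subgroup.center (GG Q) ≤ lineStab Q c := by
  intro z hz
  obtain ⟨l, hl⟩ := Cfsg.Agent.Lib.Classical.Orth.Center.scalar_of_central (OC.nd (Q := Q)) (OC.five (Q := Q)) hz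
  refine ⟨l, ?_, hl c⟩
  rintro rfl
  have h1 := hl c
  rw [zero_smul] at h1
  apply hc
  have := act_GG_inv_act z c
  rw [show act z.1 c = 0 from h1] at this
  rw [← this]
  simp

/-- The index of the stabilizer of a singular line. -/
theorem index_lineStab {c c' : ι → F} (h : HP Q c c') {N : ℕ}
    (hV : (singOf Q ⊤).card = (Fintype.card F - 1) * N) : (lineStab Q c).index = N := by
  classical
  have hq : 2 ≤ Fintype.card F := Fintype.one_lt_card
  have hQ : 0 < Fintype.card F - 1 := by omega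
  have hc0 := h.ne_zero
  let _ := actSing (Q := Q)
  have htr : MulAction.IsPretransitive (GG Q) {v : ι → F // v ≠ 0 ∧ Q v = 0} := by
    refine ⟨fun x y => ?_⟩
    obtain ⟨g, hg⟩ := exists_omega_vec (Q := Q) x.2.1 y.2.1 x.2.2 y.2.2
    exact ⟨g, Subtype.ext hg⟩
  set c₀ : {v : ι → F // v ≠ 0 ∧ Q v = 0} := ⟨c, hc0, h.hc⟩ with hc₀
  set S₁ := MulAction.stabilizer (GG Q) c₀ with hS₁
  have hmem : ∀ g, g ∈ S₁ ↔ act g.1 c = c := by
    intro g
    rw [hS₁, MulAction.mem_stabilizer_iff]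
    exact Subtype.ext_iff
  have h1 : S₁.index = (singOf Q ⊤).card := by
    rw [MulAction.index_stabilizer_of_transitive, Nat.card_eq_fintype_card, Fintype.card_subtype]
    apply congrArg Finset.card
    ext v
    simp [mem_singOf]
  have hle : S₁ ≤ lineStab Q c := by
    intro g hg
    exact ⟨1, one_ne_zero, by rw [(hmem g).mp hg, one_smul]⟩
  have h2 := Subgroup.relIndex_mul_index hle
  -- the character
  have hl : ∀ g : lineStab Q c, act g.1.1 c = 𝔣 (act g.1.1 c) c' • c := by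
    rintro ⟨g, l, hl, h3⟩
    simp only
    rw [h3, polar_smul_left', h.hp, mul_one]
  have hl0 : ∀ g : lineStab Q c, 𝔣 (act g.1.1 c) c' ≠ 0 := by
    rintro ⟨g, l, hl, h3⟩
    simp only
    rw [h3, polar_smul_left', h.hp, mul_one]
    exact hl
  let φ : lineStab Q c →* Fˣ :=
    { toFun := fun g => Units.mk0 _ (hl0 g)
      map_one' := by
        apply Units.ext
        simp only [Units.val_mk0, Units.val_one]
        change 𝔣 (act (1 : GG Q).1 c) c' = 1
        rw [act_GG_one, h.hp]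
      map_mul' := by
        intro a b
        apply Units.ext
        simp only [Units.val_mk0, Units.val_mul]
        change 𝔣 (act (a.1 * b.1).1 c) c' = _
        rw [act_GG_mul]
        conv_lhs => rw [hl b]
        rw [act_smul, polar_smul_left', mul_comm] }
  have hker : S₁.subgroupOf (lineStab Q c) = φ.ker := by
    ext g
    rw [Subgroup.mem_subgroupOf, hmem, MonoidHom.mem_ker, Units.ext_iff]
    simp only [Units.val_one, φ]
    change _ ↔ 𝔣 (act g.1.1 c) c' = 1
    constructor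
    · intro h3
      rw [h3, h.hp]
    · intro h3
      rw [hl g, h3, one_smul]
  have hsurj : Function.Surjective φ := by
    intro u
    have hne : (u : F) • c ≠ 0 := smul_ne_zero u.ne_zero hc0
    have hiso : Q ((u : F) • c) = 0 := by rw [Q_smul, h.hc, mul_zero]
    obtain ⟨g, hg⟩ := exists_omega_vec (Q := Q) hc0 hne h.hc hiso
    refine ⟨⟨g, u, u.ne_zero, hg⟩, ?_⟩
    apply Units.ext
    simp only [φ]
    change 𝔣 (act g.1 c) c' = u
    rw [hg, polar_smul_left', h.hp, mul_one]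
  have h3 : S₁.relIndex (lineStab Q c) = Fintype.card F - 1 := by
    rw [Subgroup.relIndex, hker, Subgroup.index_ker, MonoidHom.range_eq_top.mpr hsurj, Subgroup.card_top,
      Nat.card_units, Nat.card_eq_fintype_card]
  rw [h3, h1, hV] at h2
  exact Nat.eq_of_mul_eq_mul_left hQ h2

/-- **The wrapper**: from a bound for the degree of transitive actions to the statement on the projective group. -/
theorem wrap {Q₀ : (ι → F) → F} (hQ : ⇑Q = Q₀) {N : ℕ} {c c' : ι → F} (h : HP Q c c')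
    (hL : (singOf Q ⊤).card = (Fintype.card F - 1) * N)
    (hmin : ∀ H' : Subgroup (GG Q), H' ≠ ⊤ → N ≤ H'.index) :
    (∀ H : Subgroup (Cfsg.POmega F Q₀), H ≠ ⊤ → N ≤ H.index) ∧ ∃ H : Subgroup (Cfsg.POmega F Q₀), H.index = N := by
  classical
  subst hQ
  constructor
  · intro H hH
    set f := QuotientGroup.mk' (Subgroup.center (GG Q)) with hf
    have hsurj : Function.Surjective f := QuotientGroup.mk'_surjective _
    set H' := H.comap f with hH'
    have hidx : H'.index = H.index := Subgroup.index_comap_of_surjective H hsurj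
    rw [← hidx]
    apply hmin
    intro h0
    apply hH
    rw [eq_top_iff]
    intro x _
    obtain ⟨y, rfl⟩ := hsurj x
    have : y ∈ H' := by rw [h0]; trivial
    exact this
  · have hidx := index_lineStab h hL
    refine ⟨(lineStab Q c).map (QuotientGroup.mk' (Subgroup.center (GG Q))), ?_⟩
    rw [Subgroup.index_map_eq _ (QuotientGroup.mk'_surjective _) (by
      rw [QuotientGroup.ker_mk']
      exact center_le_lineStab h.ne_zero), hidx]

/-- The bound for the degree of the action on cosets. -/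
theorem lower_of_min {N p : ℕ} {c c' d d' : ι → F} (h : HP Q c c') (h' : HP Q d d') (hd : d ∈ WW Q c c')
    (hd' : d' ∈ WW Q c c') (hA : ANum Q c c' N) (hB : ONum Q c c' N p) {μ : F} (hμ : μ ≠ 0) (hμ' : μ * μ ≠ 1)
    (hp : p.Prime) (hp0 : (p : F) = 0) (hq : (2 : F) ≠ 0 ∨ ∃ σ : F, σ ≠ 0 ∧ σ ≠ 1) (H' : Subgroup (GG Q)) (htop : H' ≠ ⊤) :
    N ≤ H'.index := by
  classical
  let _ : Fintype (GG Q ⧸ H') := Fintype.ofFinite _
  have hnt : Nontrivial (GG Q ⧸ H') := QuotientGroup.nontrivial_iff.mpr htop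
  have hmain := min_degree (Ω := GG Q ⧸ H') h h' hd hd' hA hB hμ hμ' hp hp0 hq
  rwa [Subgroup.index_eq_card, Nat.card_eq_fintype_card]

end General

section Minus

variable {F : Type*} [Field F] [Fintype F]

/-- A polynomial inequality. -/
theorem poly_h2 (y : ℕ) : (y + 1) ^ 2 ≤ (y + 1) ^ 3 - y * (y + 1) - 1 + 1 := by
  have h1 : y * (y + 1) + 1 ≤ (y + 1) ^ 3 := by
    have e : (y + 1) ^ 3 = y * (y + 1) + 1 + (y * (y + 1) * (y + 1) + y) := by ring
    omega
  have e : (y + 1) ^ 3 = y * (y + 1) + ((y + 1) ^ 2 + (y * (y + 1) ^ 2 - y * (y + 1))) := by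
    have e1 : y * (y + 1) ≤ y * (y + 1) ^ 2 := Nat.mul_le_mul_left _ (Nat.le_self_pow (by norm_num) _)
    have e2 : (y + 1) ^ 3 = y * (y + 1) ^ 2 + (y + 1) ^ 2 := by ring
    omega
  omega

/-- The numbers for the first case. -/
theorem m6_anum {a b : F} [OC (minusForm 2 F a b)] {y : ℕ} (hF : Fintype.card F = y + 1)
    (hab : ∀ z₁ z₂ : F, z₁ ^ 2 + a * z₁ * z₂ + b * z₂ ^ 2 = 0 → z₁ = 0 ∧ z₂ = 0)
    {c c' : (Fin 2 ⊕ Fin 2) ⊕ Fin 2 → F} (h : HP (minusForm 2 F a b) c c') :
    ANum (minusForm 2 F a b) c c' ((y + 2) * ((y + 1) ^ 3 + 1)) := by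
  classical
  obtain ⟨a1, a2, a3, a4⟩ := m6_data hF hab h
  set Q := minusForm 2 F a b with hQ
  have hz1 := card_singOf (Q := Q) (WW Q c c')
  have hz3 := card_singOf (Q := Q) (⊤ : Submodule F ((Fin 2 ⊕ Fin 2) ⊕ Fin 2 → F))
  rw [cntU_top] at hz3
  suffices hS : ANum Q c c' ((y + 2) * ((y + 1) ^ 3 + 1)) from hS
  refine ⟨?_, ?_⟩
  · rw [hF, Nat.add_sub_cancel]
    have e : y * ((y + 2) * ((y + 1) ^ 3 + 1)) + 1 + y * (y + 1) ^ 2 = (y + 1) ^ 5 := by
      ring_nf
    omega
  · rw [hF]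
    have := poly_h2 y
    have e : (y + 1) ^ 2 ≤ (y + 1) ^ 3 - y * (y + 1) - 1 + 1 := this
    omega

/-- Polynomial inequalities for characteristic two. -/
theorem poly_even1 (z : ℕ) :
    (z + 3 + 2) * ((z + 3 + 1) ^ 3 + 1) + 2 * (z + 3 + 1) ^ 3 ≤ 2 * (z + 3 + 1) ^ 4 + 2 * ((z + 3) * (z + 3 + 1)) := by
  zify
  rw [← sub_nonneg]
  ring_nf
  positivity

theorem poly_n2 (y : ℕ) : y * (y + 1) ≤ (y + 1) ^ 3 := by
  have e : (y + 1) ^ 3 = y * (y + 1) + (y * (y + 1) * (y + 1) + y + 1) := by ring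
  omega

theorem poly_n5 {y : ℕ} (hy : 1 ≤ y) : (y + 2) * ((y + 1) ^ 3 + 1) ≤ 2 * (y + 1) ^ 4 := by
  obtain ⟨z, rfl⟩ : ∃ z, y = z + 1 := ⟨y - 1, by omega⟩
  zify
  rw [← sub_nonneg]
  ring_nf
  positivity

/-- Polynomial inequalities for odd characteristic. -/
theorem poly_odd5 (z : ℕ) : 2 * ((z + 4 + 2) * ((z + 4 + 1) ^ 3 + 1)) ≤ 5 * (z + 4) * (z + 4) * (z + 4 + 1) ^ 2 := by
  zify
  rw [← sub_nonneg]
  ring_nf
  positivity

theorem poly_odd3 (z : ℕ) : 2 * ((z + 8 + 2) * ((z + 8 + 1) ^ 3 + 1)) ≤ 3 * (z + 8) * (z + 8) * (z + 8 + 1) ^ 2 := by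
  zify
  rw [← sub_nonneg]
  ring_nf
  positivity

theorem poly_odd2 (z : ℕ) : 2 * ((z + 4 + 2) * ((z + 4 + 1) ^ 3 + 1)) ≤ 2 * (z + 4 + 1) ^ 4 + (z + 4) * (z + 4) * (z + 4 + 1) ^ 2 := by
  zify
  rw [← sub_nonneg]
  ring_nf
  positivity

/-- **The minimal index for the minus form in dimension six over fields with at least four elements.** -/
theorem m6_large {q : ℕ} (hF : Fintype.card F = q) (hq : 4 ≤ q) (a b : F)
    (hab : ∀ z₁ z₂ : F, z₁ ^ 2 + a * z₁ * z₂ + b * z₂ ^ 2 = 0 → z₁ = 0 ∧ z₂ = 0) :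
    (∀ H : Subgroup (Cfsg.POmega F (Cfsg.quadFormMinus 2 F a b)), H ≠ ⊤ → (q + 1) * (q ^ 3 + 1) ≤ H.index) ∧
      ∃ H : Subgroup (Cfsg.POmega F (Cfsg.quadFormMinus 2 F a b)), H.index = (q + 1) * (q ^ 3 + 1) := by
  classical
  obtain ⟨y, rfl⟩ : ∃ y, q = y + 1 := ⟨q - 1, by omega⟩
  have hy3 : 3 ≤ y := by omega
  haveI := oc_minus6 (F := F) hab
  obtain ⟨c, c', h⟩ := exists_HP (minusForm 2 F a b)
  obtain ⟨d, d', h', hd, hd'⟩ := exists_HP_W h
  have hA := m6_anum hF hab h
  obtain ⟨a1, a2, a3, a4⟩ := m6_data hF hab h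
  have hcoe := coe_minusForm 2 F a b
  set Q := minusForm 2 F a b with hQ
  have e : y + 1 + 1 = y + 2 := rfl
  rw [e]
  have hW : Fintype.card (WW Q c c') = (y + 1) ^ 4 := by rw [← a1, Nat.card_eq_fintype_card]
  refine wrap hcoe h hA.hL (fun H' htop => ?_)
  obtain ⟨μ, hμ, hμ'⟩ := exists_mu (F := F) (by omega)
  obtain ⟨p, hchar⟩ := CharP.exists F
  haveI := hchar
  have hp : p.Prime := CharP.char_is_prime F p
  have hp0 : (p : F) = 0 := CharP.cast_eq_zero F p
  haveI : Fact p.Prime := ⟨hp⟩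
  by_cases h2 : (2 : F) = 0
  · -- characteristic two
    have hp2 : p = 2 := by
      have h3 : (p : ℕ) ∣ 2 := (CharP.cast_eq_zero_iff F p 2).1 (by exact_mod_cast h2)
      exact (Nat.prime_dvd_prime_iff_eq hp Nat.prime_two).1 h3
    obtain ⟨z, rfl⟩ : ∃ z, y = z + 3 := ⟨y - 3, by omega⟩
    have hP1 := poly_even1 z
    have hP2 := poly_n2 (z + 3)
    have hP3 := poly_n5 (y := z + 3) (by omega)
    have hB : ONum Q c c' ((z + 3 + 2) * ((z + 3 + 1) ^ 3 + 1)) p := by
      refine ⟨fun u hu => ?_, fun u hu => ?_, ?_⟩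
      · have hc := clsW_even h2 u hu
        rw [hW] at hc
        rw [hp2]
        omega
      · have hc := clsW_even h2 u hu
        rw [hW] at hc ⊢
        omega
      · rw [hW]
        exact hP3
    refine lower_of_min h h' hd hd' hA hB hμ hμ' hp hp0 (Or.inr ?_) H' htop
    exact ⟨μ, hμ, fun e => hμ' (by rw [e, mul_one])⟩
  · -- odd characteristic
    have hp3 : p ≠ 2 := by
      rintro rfl
      apply h2
      exact_mod_cast hp0
    have hp4 : 3 ≤ p := by
      have := hp.two_le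
      omega
    obtain ⟨n, hn, hn'⟩ := FiniteField.card F p
    have hodd : Odd (y + 1) := by
      rw [← hF, hn']
      exact (hp.odd_of_ne_two hp3).pow
    have hy4 : 4 ≤ y := by
      obtain ⟨r, hr⟩ := hodd
      omega
    obtain ⟨T, hT, hTc⟩ := exists_squares_odd (F := F)
    rw [hF, Nat.add_sub_cancel] at hTc
    -- the lower bound for the classes
    obtain ⟨LB, hLB⟩ : ∃ LB, LB = y * (y + 1) ^ 2 := ⟨_, rfl⟩
    have hLb : ∀ κ : F, κ ≠ 0 → LB ≤ cntU Q (WW Q c c') κ := by
      intro κ _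
      have h3 := a4 κ
      have e1 : (y + 1) ^ 3 = y * (y + 1) ^ 2 + (y + 1) ^ 2 := by ring
      omega
    have hcls : ∀ u : WW Q c c', Q u.1 ≠ 0 → T.card * LB ≤ (clsW u).card := fun u hu => clsW_ge u hu hLb T hT
    have hTL : y * (y * (y + 1) ^ 2) ≤ 2 * (T.card * LB) := by
      rw [hLB]
      have h3 := Nat.mul_le_mul_right (y * (y + 1) ^ 2) hTc
      rwa [mul_assoc] at h3
    have hpN : 2 * ((y + 2) * ((y + 1) ^ 3 + 1)) ≤ p * (y * (y * (y + 1) ^ 2)) := by
      rcases Nat.lt_or_ge p 5 with h5 | h5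
      · have hp5 : p = 3 := by
          have := hp.eq_one_or_self_of_dvd
          interval_cases p
          · rfl
          · exact absurd hp (by norm_num)
        have hy8 : 8 ≤ y := by
          rw [hp5] at hn'
          rw [hF] at hn'
          have hn2 : 2 ≤ (n : ℕ) := by
            by_contra hlt
            have : (n : ℕ) = 1 := by
              have := n.pos
              omega
            rw [this] at hn'
            omega
          have : 3 ^ 2 ≤ 3 ^ (n : ℕ) := Nat.pow_le_pow_right (by norm_num) hn2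
          omega
        obtain ⟨z, rfl⟩ : ∃ z, y = z + 8 := ⟨y - 8, by omega⟩
        rw [hp5]
        have := poly_odd3 z
        calc _ ≤ _ := this
          _ = _ := by ring
      · obtain ⟨z, rfl⟩ : ∃ z, y = z + 4 := ⟨y - 4, by omega⟩
        have h6 := poly_odd5 z
        calc _ ≤ _ := h6
          _ = 5 * ((z + 4) * ((z + 4) * (z + 4 + 1) ^ 2)) := by ring
          _ ≤ _ := Nat.mul_le_mul_right _ h5
    have hB : ONum Q c c' ((y + 2) * ((y + 1) ^ 3 + 1)) p := by
      refine ⟨fun u hu => ?_, fun u hu => ?_, ?_⟩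
      · have hc := hcls u hu
        have h7 : p * (y * (y * (y + 1) ^ 2)) ≤ p * (2 * (T.card * LB)) := Nat.mul_le_mul_left _ hTL
        have h8 : p * (T.card * LB) ≤ p * (clsW u).card := Nat.mul_le_mul_left _ hc
        have e1 : p * (2 * (T.card * LB)) = 2 * (p * (T.card * LB)) := by ring
        omega
      · have hc := hcls u hu
        rw [hW]
        obtain ⟨z, rfl⟩ : ∃ z, y = z + 4 := ⟨y - 4, by omega⟩
        have h6 := poly_odd2 z
        have e1 : (z + 4) * (z + 4) * (z + 4 + 1) ^ 2 = (z + 4) * ((z + 4) * (z + 4 + 1) ^ 2) := by ring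
        rw [e1] at h6
        omega
      · rw [hW]
        exact poly_n5 (by omega)
    exact lower_of_min h h' hd hd' hA hB hμ hμ' hp hp0 (Or.inl h2) H' htop

end Minus

end Cfsg.Agent.Lib.MinIndex.M6.Final
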