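import Mathlib
import Cfsg.Agent.Lib.MinIndex.M6.Base

/-!
# Minimal degree of the orthogonal groups: existence of vectors, Witt's theorem inside `Ω`
-/

set_option autoImplicit false
set_option linter.unusedSectionVars false
set_option linter.unusedSimpArgs false
set_option linter.unusedVariables false

namespace Cfsg.Agent.Lib.MinIndex.M6.Vec

open Matrix QuadraticMap Module
open Cfsg.Agent.Lib.Classical.Orth.Basic
open Cfsg.Agent.Lib.Classical.Orth.Siegel
open Cfsg.Agent.Lib.Classical.Orth.Generation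
open Cfsg.Agent.Lib.Classical.Orth.Simple
open Cfsg.Agent.Lib.Classical.Orth.Spinor
open Cfsg.Agent.Lib.Classical.Orth.Dickson
open Cfsg.Agent.Lib.Classical.Orth.Adjust
open Cfsg.Agent.Lib.Classical.Witt.Hyp
open Cfsg.Agent.Lib.MinIndex.M6.Base

variable {ι : Type} [Fintype ι] [DecidableEq ι] {F : Type*} [Field F] [Fintype F]
variable {Q : QuadraticForm F (ι → F)}

set_option quotPrecheck false in
local notation "𝔣" => polar (⇑Q)

/-- The orthogonal complement. -/
noncomputable abbrev perpS (Q : QuadraticForm F (ι → F)) (U : Submodule F (ι → F)) : Submodule F (ι → F) :=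
  LinearMap.BilinForm.orthogonal (polarBilin Q) U

section Vec

variable [OC Q]

/-- The orthogonal complement has the expected dimension. -/
theorem finrank_orth (U : Submodule F (ι → F)) :
    finrank F (perpS Q U) + finrank F U = Fintype.card ι := by
  have hBnd : LinearMap.BilinForm.Nondegenerate (polarBilin Q) := OC.nd
  rw [LinearMap.BilinForm.finrank_orthogonal hBnd, Module.finrank_fintype_fun_eq_card]
  have : finrank F U ≤ finrank F (ι → F) := Submodule.finrank_le U
  rw [Module.finrank_fintype_fun_eq_card] at this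
  omega

theorem mem_orth {U : Submodule F (ι → F)} {x : ι → F} :
    x ∈ perpS Q U ↔ ∀ u ∈ U, 𝔣 u x = 0 := by
  rw [LinearMap.BilinForm.mem_orthogonal_iff]
  rfl

/-- A vector perpendicular to a family and outside of a small subspace. -/
theorem exists_orth_vec {k : ℕ} (v : Fin k → ι → F) (U' : Submodule F (ι → F))
    (h : k + finrank F U' < Fintype.card ι) : ∃ b, (∀ i, 𝔣 (v i) b = 0) ∧ b ∉ U' := by
  set U := Submodule.span F (Set.range v) with hU
  have h1 : finrank F U ≤ k := by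
    have : Set.finrank F (Set.range v) ≤ Fintype.card (Fin k) := finrank_range_le_card v
    simpa [Set.finrank] using this
  have h2 := finrank_orth (Q := Q) U
  have hnle : ¬ perpS Q U ≤ U' := fun hle => by
    have := Submodule.finrank_mono hle
    omega
  obtain ⟨b, hb, hb'⟩ := SetLike.not_le_iff_exists.1 hnle
  exact ⟨b, fun i => mem_orth.1 hb _ (Submodule.subset_span ⟨i, rfl⟩), hb'⟩

/-- A nonzero singular vector perpendicular to a family. -/
theorem exists_sing_orth_vec {k : ℕ} (v : Fin k → ι → F) (h : k + 3 ≤ Fintype.card ι) :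
    ∃ s, s ≠ 0 ∧ Q s = 0 ∧ ∀ i, 𝔣 (v i) s = 0 := by
  set U := Submodule.span F (Set.range v) with hU
  have h1 : finrank F U ≤ k := by
    have : Set.finrank F (Set.range v) ≤ Fintype.card (Fin k) := finrank_range_le_card v
    simpa [Set.finrank] using this
  have h2 := finrank_orth (Q := Q) U
  obtain ⟨⟨y, hy⟩, hy0, hQy⟩ := exists_singular_of_three_le (Q.comp (perpS Q U).subtype) (by omega)
  refine ⟨y, fun h0 => hy0 (Subtype.ext h0), hQy, fun i => mem_orth.1 hy _ (Submodule.subset_span ⟨i, rfl⟩)⟩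

/-- Separation by the polar form. -/
theorem exists_sep {x : ι → F} {U : Submodule F (ι → F)} (hx : x ∉ U) :
    ∃ y, 𝔣 x y = 1 ∧ ∀ u ∈ U, 𝔣 u y = 0 := by
  have hB : (polarBilin Q : LinearMap.BilinForm F (ι → F)).Nondegenerate := OC.nd
  obtain ⟨g, hge, hgU⟩ := Submodule.exists_le_ker_of_notMem hx
  let y : ι → F := (LinearMap.BilinForm.toDual (polarBilin Q : LinearMap.BilinForm F (ι → F)) hB).symm g
  have hy : ∀ n, 𝔣 y n = g n := fun n =>
    LinearMap.BilinForm.apply_toDual_symm_apply (B := (polarBilin Q : LinearMap.BilinForm F (ι → F))) (hB := hB) g n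
  refine ⟨(g x)⁻¹ • y, ?_, fun u hu => ?_⟩
  · rw [polar_smul_right', polar_symm, hy]
    exact inv_mul_cancel₀ hge
  · rw [polar_smul_right', polar_symm, hy, LinearMap.mem_ker.mp (hgU hu), mul_zero]

/-- A nonsingular vector perpendicular to a subspace, if the perp is not inside the subspace. -/
theorem exists_nonsing_of_perp {U : Submodule F (ι → F)} {b : ι → F} (hb : ∀ u ∈ U, 𝔣 u b = 0) (hbU : b ∉ U) :
    ∃ v, Q v ≠ 0 ∧ ∀ u ∈ U, 𝔣 u v = 0 := by
  obtain ⟨y, hy1, hy2⟩ := exists_sep (Q := Q) hbU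
  by_cases h1 : Q b = 0
  · by_cases h2 : Q y = 0
    · refine ⟨b + y, ?_, fun u hu => ?_⟩
      · rw [Q_add, h1, h2, hy1]
        simp
      · rw [polar_add_right, hb u hu, hy2 u hu, add_zero]
    · exact ⟨y, h2, hy2⟩
  · exact ⟨b, h1, hb⟩

/-- A vector in the complement of a pair, with prescribed pairing. -/
theorem exists_partner_W {c c' v : ι → F} (h : HP Q c c') (hv : v ∈ WW Q c c') (hv0 : v ≠ 0) :
    ∃ y ∈ WW Q c c', 𝔣 v y = 1 := by
  obtain ⟨y, hy⟩ : ∃ y ∈ WW Q c c', 𝔣 v y ≠ 0 := by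
    by_contra hcon
    push Not at hcon
    exact hv0 (h.nondeg hv hcon)
  obtain ⟨hy, hy0⟩ := hy
  refine ⟨(𝔣 v y)⁻¹ • y, Submodule.smul_mem _ _ hy, ?_⟩
  rw [polar_smul_right', inv_mul_cancel₀ hy0]

/-- A hyperbolic pair from a singular vector in a complement. -/
theorem exists_partner_W_sing {c c' v : ι → F} (h : HP Q c c') (hv : v ∈ WW Q c c') (hv0 : v ≠ 0) (hQ : Q v = 0) :
    ∃ y ∈ WW Q c c', HP Q v y := by
  obtain ⟨y, hy, hy1⟩ := exists_partner_W h hv hv0
  have hvv := polar_zero_self hQ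
  refine ⟨y - Q y • v, Submodule.sub_mem _ hy (Submodule.smul_mem _ _ hv), hQ, ?_, ?_⟩
  · rw [Q_sub, Q_smul, hQ, polar_smul_right', polar_symm y v, hy1]
    ring
  · rw [polar_sub_right, polar_smul_right', hvv, hy1]
    ring

/-- Vectors in the complement of a pair lying in the span of the pair and others. -/
theorem room_aux {c c' v s : ι → F} (h : HP Q c c') (hs : 𝔣 c s = 0) (hs' : 𝔣 c' s = 0)
    (hv : v ∈ WW Q c c') (hm : s ∈ Submodule.span F (Set.range ![c, c', v])) : ∃ γ : F, s = γ • v := by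
  obtain ⟨t, ht⟩ := (Submodule.mem_span_range_iff_exists_fun F).1 hm
  simp only [Fin.sum_univ_three, Matrix.cons_val_zero, Matrix.cons_val_one, Matrix.cons_val] at ht
  have h1 := congrArg (𝔣 c') ht
  have h2 := congrArg (𝔣 c) ht
  simp only [polar_add_right, polar_smul_right', h.cc, h.cc', h.hp, h.hp', hs, hs', WW_left hv, WW_right hv] at h1 h2
  simp only [mul_zero, mul_one, add_zero, zero_add] at h1 h2
  rw [h1, h2] at ht
  simp only [zero_smul, zero_add] at ht
  exact ⟨t 2, ht.symm⟩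

theorem Q_triple' {c c' u : ι → F} (h : HP Q c c') (hu : u ∈ WW Q c c') (a b t : F) :
    Q (a • c + b • c' + t • u) = a * b + t * t * Q u := by
  rw [Q_add, Q_add, Q_smul, Q_smul, Q_smul, h.hc, h.hc', polar_smul_left', polar_smul_right', h.hp, polar_add_left,
    polar_smul_left', polar_smul_left', polar_smul_right', polar_smul_right', WW_left hu, WW_right hu]
  ring

/-- **Room**: a hyperbolic pair perpendicular to a hyperbolic pair and one more nonsingular (or zero) vector. -/
theorem exists_room {c c' v : ι → F} (h : HP Q c c') (hv : v ∈ WW Q c c') (hQv : Q v ≠ 0 ∨ v = 0) :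
    ∃ a a', HP Q a a' ∧ a ∈ WW Q c c' ∧ a' ∈ WW Q c c' ∧ 𝔣 v a = 0 ∧ 𝔣 v a' = 0 := by
  classical
  have hdim := OC.dim (Q := Q)
  obtain ⟨s, hs0, hQs, hs⟩ := exists_sing_orth_vec (Q := Q) ![c, c', v] (by omega)
  have hs1 : 𝔣 c s = 0 := hs 0
  have hs2 : 𝔣 c' s = 0 := hs 1
  have hs3 : 𝔣 v s = 0 := hs 2
  have hnot : s ∉ Submodule.span F (Set.range ![c, c', v]) := by
    intro hm
    obtain ⟨γ, hγ⟩ := room_aux h hs1 hs2 hv hm
    rcases hQv with hQv | hv0
    · have h1 : Q s = γ * γ * Q v := by rw [hγ, Q_smul]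
      rw [hQs] at h1
      have hγ0 : γ = 0 := by
        by_contra hγ0
        exact (mul_ne_zero (mul_ne_zero hγ0 hγ0) hQv) h1.symm
      apply hs0
      rw [hγ, hγ0, zero_smul]
    · apply hs0
      rw [hγ, hv0, smul_zero]
  obtain ⟨y, hy1, hy2⟩ := exists_sep (Q := Q) hnot
  have hy3 : 𝔣 c y = 0 := hy2 _ (Submodule.subset_span ⟨0, rfl⟩)
  have hy4 : 𝔣 c' y = 0 := hy2 _ (Submodule.subset_span ⟨1, rfl⟩)
  have hy5 : 𝔣 v y = 0 := hy2 _ (Submodule.subset_span ⟨2, rfl⟩)
  have hss := polar_zero_self hQs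
  refine ⟨s, y - Q y • s, ⟨hQs, ?_, ?_⟩, mem_WW.2 ⟨hs1, hs2⟩, mem_WW.2 ⟨?_, ?_⟩, hs3, ?_⟩
  · rw [Q_sub, Q_smul, hQs, polar_smul_right', polar_symm y s, hy1]
    ring
  · rw [polar_sub_right, polar_smul_right', hss, hy1]
    ring
  · rw [polar_sub_right, polar_smul_right', hs1, hy3]
    ring
  · rw [polar_sub_right, polar_smul_right', hs2, hy4]
    ring
  · rw [polar_sub_right, polar_smul_right', hs3, hy5]
    ring

/-- There are no three independent perpendicular singular vectors. -/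
theorem no_ts3 {a b s : ι → F} (ha : Q a = 0) (hb : Q b = 0) (hs : Q s = 0) (hab : 𝔣 a b = 0) (has : 𝔣 a s = 0)
    (hbs : 𝔣 b s = 0) (hli : LinearIndependent F ![a, b, s]) : False := by
  have h1 := OC.ts (Q := Q) (Submodule.span F (Set.range ![a, b, s])) (by
    intro x hx
    obtain ⟨t, rfl⟩ := (Submodule.mem_span_range_iff_exists_fun F).1 hx
    simp only [Fin.sum_univ_three, Matrix.cons_val_zero, Matrix.cons_val_one, Matrix.cons_val]
    rw [Q_add, Q_add, Q_smul, Q_smul, Q_smul, ha, hb, hs]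
    simp only [polar_add_left, polar_smul_left', polar_smul_right', hab, has, hbs]
    ring)
  rw [finrank_span_eq_card hli] at h1
  simp at h1

/-- Perpendicular singular vectors of a complement are proportional. -/
theorem prop_of_perp {c c' x y : ι → F} (h : HP Q c c') (hx : x ∈ WW Q c c') (hy : y ∈ WW Q c c') (hQx : Q x = 0)
    (hQy : Q y = 0) (hxy : 𝔣 x y = 0) (hx0 : x ≠ 0) : ∃ t : F, y = t • x := by
  by_contra hcon
  push Not at hcon
  apply no_ts3 (Q := Q) h.hc hQx hQy (WW_left hx) (WW_left hy) hxy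
  rw [Fintype.linearIndependent_iff]
  intro t ht i
  simp only [Fin.sum_univ_three, Matrix.cons_val_zero, Matrix.cons_val_one, Matrix.cons_val] at ht
  have h1 := congrArg (𝔣 c') ht
  simp only [polar_add_right, polar_smul_right', h.hp', WW_right hx, WW_right hy] at h1
  have h0 : 𝔣 c' 0 = 0 := by simp [polar]
  rw [h0] at h1
  simp only [mul_zero, mul_one, add_zero] at h1
  rw [h1, zero_smul, zero_add] at ht
  have h2 : t 2 = 0 := by
    by_contra h2
    apply hcon (-(t 1) / t 2)
    have e : t 2 • y = -(t 1 • x) := eq_neg_of_add_eq_zero_right ht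
    have e2 : (t 2)⁻¹ • (t 2 • y) = y := by rw [smul_smul, inv_mul_cancel₀ h2, one_smul]
    rw [← e2, e, div_eq_mul_inv, mul_comm, mul_smul, neg_smul]
  rw [h2, zero_smul, add_zero] at ht
  have h3 : t 1 = 0 := (smul_eq_zero.1 ht).resolve_right hx0
  fin_cases i
  · exact h1
  · exact h3
  · exact h2

/-- Perpendicular to two perpendicular hyperbolic pairs the form takes each nonzero value. -/
theorem exists_univ {c c' v v' : ι → F} (h : HP Q c c') (h₂ : HP Q v v') (hv : v ∈ WW Q c c') (hv' : v' ∈ WW Q c c') {t : F}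
    (ht : t ≠ 0) : ∃ y, Q y = t ∧ 𝔣 c y = 0 ∧ 𝔣 c' y = 0 ∧ 𝔣 v y = 0 ∧ 𝔣 v' y = 0 := by
  classical
  have hdim := OC.dim (Q := Q)
  obtain ⟨z, hz0, hQz, hz⟩ := exists_sing_orth_vec (Q := Q) ![c, c', v + t • v'] (by omega)
  have hz1 : 𝔣 c z = 0 := hz 0
  have hz2 : 𝔣 c' z = 0 := hz 1
  have hz3 : 𝔣 (v + t • v') z = 0 := hz 2
  set a := 𝔣 v' z with ha
  set b := 𝔣 v z with hb
  have hbt : b = -(t * a) := by
    rw [polar_add_left, polar_smul_left'] at hz3
    linear_combination hz3
  set p := z - a • v - b • v' with hp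
  have hpW : p ∈ WW Q v v' := h₂.sub_mem z
  have hz_eq : z = a • v + b • v' + (1 : F) • p := by
    rw [hp, one_smul]
    abel
  have hQp : Q p = t * (a * a) := by
    have h1 := Q_triple' h₂ hpW a b 1
    rw [← hz_eq, hQz] at h1
    rw [hbt] at h1
    linear_combination -h1
  have hpc : 𝔣 c p = 0 := by
    rw [hp, polar_sub_right, polar_sub_right, polar_smul_right', polar_smul_right', hz1, WW_left hv, WW_left hv']
    ring
  have hpc' : 𝔣 c' p = 0 := by
    rw [hp, polar_sub_right, polar_sub_right, polar_smul_right', polar_smul_right', hz2, WW_right hv, WW_right hv']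
    ring
  have ha0 : a ≠ 0 := by
    intro ha0
    have hb0 : b = 0 := by rw [hbt, ha0]; ring
    have hzp : z = p := by
      rw [hp, ha0, hb0]
      simp
    have hv'z : 𝔣 v' z = 0 := ha0
    have hvz : 𝔣 v z = 0 := hb0
    apply no_ts3 (Q := Q) h.hc h₂.hc hQz (WW_left hv) hz1 hvz
    rw [Fintype.linearIndependent_iff]
    intro s hs i
    simp only [Fin.sum_univ_three, Matrix.cons_val_zero, Matrix.cons_val_one, Matrix.cons_val] at hs
    have h1 := congrArg (𝔣 c') hs
    have h2 := congrArg (𝔣 v') hs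
    have h0 : ∀ w : ι → F, 𝔣 w 0 = 0 := fun w => by simp [polar]
    simp only [polar_add_right, polar_smul_right', h.hp', WW_right hv, hz2, h₂.hp', hv'z, WW_left' hv', h0] at h1 h2
    simp only [mul_zero, mul_one, add_zero, zero_add] at h1 h2
    have h3 : s 2 = 0 := by
      rw [h1, h2, zero_smul, zero_smul, zero_add, zero_add] at hs
      exact (smul_eq_zero.1 hs).resolve_right hz0
    fin_cases i
    · exact h1
    · exact h2
    · exact h3
  refine ⟨a⁻¹ • p, ?_, ?_, ?_, ?_, ?_⟩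
  · rw [Q_smul, hQp]
    field_simp
  · rw [polar_smul_right', hpc, mul_zero]
  · rw [polar_smul_right', hpc', mul_zero]
  · rw [polar_smul_right', WW_left hpW, mul_zero]
  · rw [polar_smul_right', WW_right hpW, mul_zero]

/-- All singular vectors of a subspace with a hyperbolic pair perpendicular to `x` means the subspace is. -/
theorem perp_of_sing {Y : Submodule F (ι → F)} {a a' x : ι → F} (ha : HP Q a a') (haY : a ∈ Y) (ha'Y : a' ∈ Y)
    (hx : ∀ e ∈ Y, Q e = 0 → 𝔣 x e = 0) {y : ι → F} (hy : y ∈ Y) : 𝔣 x y = 0 := by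
  have h1 : 𝔣 x a = 0 := hx a haY ha.hc
  have h2 : 𝔣 x a' = 0 := hx a' ha'Y ha.hc'
  set v := y - 𝔣 a' y • a - 𝔣 a y • a' with hv
  have hvY : v ∈ Y := Y.sub_mem (Y.sub_mem hy (Y.smul_mem _ haY)) (Y.smul_mem _ ha'Y)
  have hvW := ha.sub_mem y
  rw [← hv] at hvW
  set e := v + a - Q v • a' with he
  have heY : e ∈ Y := Y.sub_mem (Y.add_mem hvY haY) (Y.smul_mem _ ha'Y)
  have hQe : Q e = 0 := by
    rw [he, Q_sub, Q_add, Q_smul, ha.hc, ha.hc', polar_add_left]
    simp only [polar_smul_right', WW_right' hvW, WW_left' hvW, ha.hp]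
    ring
  have h3 := hx e heY hQe
  rw [he, polar_sub_right, polar_add_right, polar_smul_right', h1, h2] at h3
  simp only [add_zero, mul_zero, sub_zero] at h3
  have h4 : y = v + 𝔣 a' y • a + 𝔣 a y • a' := by
    rw [hv]
    abel
  rw [h4, polar_add_right, polar_add_right, polar_smul_right', polar_smul_right', h1, h2, h3]
  ring

/-- An additive subgroup containing the singular vectors of a subspace with a hyperbolic pair contains the subspace. -/
theorem mem_of_sing {Y : Submodule F (ι → F)} {a a' y : ι → F} (ha : HP Q a a') (haY : a ∈ Y) (ha'Y : a' ∈ Y)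
    (S : AddSubgroup (ι → F)) (hS : ∀ e ∈ Y, Q e = 0 → e ∈ S) (hy : y ∈ Y) : y ∈ S := by
  set v := y - 𝔣 a' y • a - 𝔣 a y • a' with hv
  have hvY : v ∈ Y := Y.sub_mem (Y.sub_mem hy (Y.smul_mem _ haY)) (Y.smul_mem _ ha'Y)
  have hvW := ha.sub_mem y
  rw [← hv] at hvW
  set e := v + a - Q v • a' with he
  have heY : e ∈ Y := Y.sub_mem (Y.add_mem hvY haY) (Y.smul_mem _ ha'Y)
  have hQe : Q e = 0 := by
    rw [he, Q_sub, Q_add, Q_smul, ha.hc, ha.hc', polar_add_left]
    simp only [polar_smul_right', WW_right' hvW, WW_left' hvW, ha.hp]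
    ring
  have h1 : ∀ t : F, t • a ∈ S := fun t => hS _ (Y.smul_mem _ haY) (by rw [Q_smul, ha.hc, mul_zero])
  have h2 : ∀ t : F, t • a' ∈ S := fun t => hS _ (Y.smul_mem _ ha'Y) (by rw [Q_smul, ha.hc', mul_zero])
  have h3 : v ∈ S := by
    have e1 : v = e - a + Q v • a' := by
      rw [he]
      abel
    rw [e1]
    have h4 := h1 1
    rw [one_smul] at h4
    exact S.add_mem (S.sub_mem (hS e heY hQe) h4) (h2 _)
  have h4 : y = v + 𝔣 a' y • a + 𝔣 a y • a' := by
    rw [hv]
    abel
  rw [h4]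
  exact S.add_mem (S.add_mem h3 (h1 _)) (h2 _)

/-- A vector perpendicular to the perp of `u` in a complement is a multiple of `u`. -/
theorem eq_smul_of_perp {c c' u x : ι → F} (h : HP Q c c') (hu : u ∈ WW Q c c') (hx : x ∈ WW Q c c')
    (hall : ∀ y ∈ WW Q c c', 𝔣 u y = 0 → 𝔣 x y = 0) : ∃ t : F, x = t • u := by
  by_cases hu0 : u = 0
  · refine ⟨0, ?_⟩
    rw [zero_smul]
    apply h.nondeg hx
    intro y hy
    exact hall y hy (by rw [hu0]; simp [polar])
  obtain ⟨y₀, hy₀, hy₁⟩ := exists_partner_W h hu hu0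
  refine ⟨𝔣 x y₀, sub_eq_zero.1 ?_⟩
  apply h.nondeg (Submodule.sub_mem _ hx (Submodule.smul_mem _ _ hu))
  intro y hy
  have h1 := hall (y - 𝔣 u y • y₀) (Submodule.sub_mem _ hy (Submodule.smul_mem _ _ hy₀)) (by
    rw [polar_sub_right, polar_smul_right', hy₁]
    ring)
  rw [polar_sub_right, polar_smul_right'] at h1
  rw [polar_sub_left, polar_smul_left']
  linear_combination h1

end Vec

/-! ### Witt's theorem in `Ω` -/

section Witt

variable [OC Q]

/-- Witt's theorem for independent families. -/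
theorem exists_iso_family {κ : Type} [Fintype κ] [DecidableEq κ] (b b' : κ → ι → F) (li : LinearIndependent F b)
    (li' : LinearIndependent F b') (hQ : ∀ t : κ → F, Q (∑ i, t i • b i) = Q (∑ i, t i • b' i)) :
    ∃ g : ↥(Cfsg.isometryGroup F (⇑Q)), ∀ i, act g (b i) = b' i := by
  have h1 : Function.Injective (Fintype.linearCombination F b) := linearIndependent_iff_injective_fintypeLinearCombination.1 li
  have h2 : Function.Injective (Fintype.linearCombination F b') := linearIndependent_iff_injective_fintypeLinearCombination.1 li'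
  let e₁ := LinearEquiv.ofInjective _ h1
  let e₂ := LinearEquiv.ofInjective _ h2
  obtain ⟨g, -, hg⟩ := exists_iso_of_witt (OC.nd (Q := Q)) _ _ (e₁.symm.trans e₂) (by
    intro x
    obtain ⟨t, rfl⟩ := e₁.surjective x
    simp only [LinearEquiv.trans_apply, LinearEquiv.symm_apply_apply]
    show Q (Fintype.linearCombination F b' t) = Q (Fintype.linearCombination F b t)
    simp only [Fintype.linearCombination_apply]
    exact (hQ t).symm)
  refine ⟨g, fun i => ?_⟩
  have h3 := hg (e₁ (Pi.single i 1))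
  simp only [LinearEquiv.trans_apply, LinearEquiv.symm_apply_apply] at h3
  have h4 : ((e₁ (Pi.single i 1) : LinearMap.range (Fintype.linearCombination F b)) : ι → F) = b i := by
    show Fintype.linearCombination F b (Pi.single i 1) = b i
    simp [Fintype.linearCombination_apply_single]
  have h5 : ((e₂ (Pi.single i 1) : LinearMap.range (Fintype.linearCombination F b')) : ι → F) = b' i := by
    show Fintype.linearCombination F b' (Pi.single i 1) = b' i
    simp [Fintype.linearCombination_apply_single]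
  rw [h4, h5] at h3
  exact h3

/-- Correction of an isometry into `Ω` by reflections in vectors perpendicular to what has to be fixed. -/
theorem exists_adjust (S : Set (ι → F)) (hU : ∀ t : F, t ≠ 0 → ∃ y, Q y = t ∧ ∀ x ∈ S, 𝔣 y x = 0)
    (g₀ : ↥(Cfsg.isometryGroup F (⇑Q))) :
    ∃ s : ↥(Cfsg.isometryGroup F (⇑Q)), (∀ x ∈ S, act s x = x) ∧ s * g₀ ∈ Cfsg.Omega F (⇑Q) := by
  classical
  have hrefl : ∀ (y : ι → F) (ht : Q y ≠ 0), (∀ x ∈ S, 𝔣 y x = 0) → ∀ x ∈ S, act (reflectionIso Q y ht) x = x := by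
    intro y ht hy x hx
    rw [reflectionIso_act, hy x hx]
    simp
  by_cases h2 : (2 : F) = 0
  · -- even characteristic
    haveI : CharP F 2 := CharTwo.of_one_ne_zero_of_two_eq_zero one_ne_zero h2
    have hdim := OC.dim (Q := Q)
    have hF : (∃ c : F, c ≠ 0 ∧ c ≠ 1) ∨ Fintype.card ι ≠ 4 := Or.inr (by omega)
    obtain ⟨y, hy1, hy2⟩ := hU 1 one_ne_zero
    have hne : Q y ≠ 0 := by rw [hy1]; exact one_ne_zero
    rcases Int.units_eq_one_or (dicksonHom OC.nd hF g₀) with h | h
    · refine ⟨1, fun x _ => act_one x, ?_⟩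
      rw [one_mul, mem_omega_iff_char_two OC.nd hF]
      exact h
    · refine ⟨_, hrefl y hne hy2, ?_⟩
      rw [mem_omega_iff_char_two OC.nd hF, map_mul, dicksonHom_reflection, h]
      rfl
  · -- odd characteristic
    set ν := nonsq h2 with hν
    obtain ⟨y₁, hy₁1, hy₁2⟩ := hU 1 one_ne_zero
    obtain ⟨y₂, hy₂1, hy₂2⟩ := hU ν (nonsq_ne_zero h2)
    have hne1 : Q y₁ ≠ 0 := by rw [hy₁1]; exact one_ne_zero
    have hne2 : Q y₂ ≠ 0 := by rw [hy₂1]; exact nonsq_ne_zero h2
    set r₁ := reflectionIso Q y₁ hne1 with hr₁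
    set r₂ := reflectionIso Q y₂ hne2 with hr₂
    have hS1 : IsSquare (Q y₁) := by rw [hy₁1]; exact IsSquare.one
    have hS2 : ¬ IsSquare (Q y₂) := by rw [hy₂1]; exact nonsq_spec h2
    have p1 : plusSign Q r₁ = -1 := by rw [hr₁, plusSign_reflection Q h2, if_pos hS1]
    have p2 : plusSign Q r₂ = 1 := by rw [hr₂, plusSign_reflection Q h2, if_neg hS2]
    have s1 : spinorSign Q h2 r₁ = 1 := by rw [hr₁, spinorSign_reflection Q h2, if_pos hS1]
    have s2 : spinorSign Q h2 r₂ = -1 := by rw [hr₂, spinorSign_reflection Q h2, if_neg hS2]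
    have hf1 : ∀ x ∈ S, act r₁ x = x := hrefl y₁ hne1 hy₁2
    have hf2 : ∀ x ∈ S, act r₂ x = x := hrefl y₂ hne2 hy₂2
    rcases Int.units_eq_one_or (plusSign Q g₀) with hp | hp <;>
      rcases Int.units_eq_one_or (spinorSign Q h2 g₀) with hs | hs
    · refine ⟨1, fun x _ => act_one x, ?_⟩
      rw [one_mul, mem_omega_iff Q OC.nd h2]
      exact ⟨hp, hs⟩
    · refine ⟨r₂, hf2, ?_⟩
      rw [mem_omega_iff Q OC.nd h2, map_mul, map_mul, p2, s2, hp, hs]
      exact ⟨rfl, rfl⟩
    · refine ⟨r₁, hf1, ?_⟩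
      rw [mem_omega_iff Q OC.nd h2, map_mul, map_mul, p1, s1, hp, hs]
      exact ⟨rfl, rfl⟩
    · refine ⟨r₁ * r₂, fun x h3 => ?_, ?_⟩
      · rw [act_mul, hf2 x h3, hf1 x h3]
      · rw [mem_omega_iff Q OC.nd h2, map_mul, map_mul, map_mul, map_mul, p1, p2, s1, s2, hp, hs]
        exact ⟨rfl, rfl⟩

theorem Q_triple {c c' u : ι → F} (h : HP Q c c') (hu : u ∈ WW Q c c') (a b t : F) :
    Q (a • c + b • c' + t • u) = a * b + t * t * Q u := Q_triple' h hu a b t

/-- **Witt's theorem in `Ω`**: hyperbolic pairs with a vector are conjugate. -/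
theorem exists_omega_triple {c c' d d' u v : ι → F} (h : HP Q c c') (h' : HP Q d d') (hu : u ∈ WW Q c c')
    (hv : v ∈ WW Q d d') (hu0 : u ≠ 0) (hv0 : v ≠ 0) (huv : Q u = Q v) :
    ∃ g : GG Q, act g.1 c = d ∧ act g.1 c' = d' ∧ act g.1 u = v := by
  have hli : ∀ {c c' u : ι → F}, HP Q c c' → u ∈ WW Q c c' → u ≠ 0 → LinearIndependent F ![c, c', u] := by
    intro c c' u h hu hu0
    rw [Fintype.linearIndependent_iff]
    intro t ht i
    simp only [Fin.sum_univ_three, Matrix.cons_val_zero, Matrix.cons_val_one, Matrix.cons_val] at ht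
    have h1 := congrArg (𝔣 c') ht
    have h2 := congrArg (𝔣 c) ht
    simp only [polar_add_right, polar_smul_right', h.cc, h.cc', h.hp, h.hp', WW_left hu, WW_right hu] at h1 h2
    have h0 : 𝔣 c' 0 = 0 := by simp [polar]
    have h0' : 𝔣 c 0 = 0 := by simp [polar]
    rw [h0] at h1
    rw [h0'] at h2
    simp only [mul_zero, mul_one, add_zero, zero_add] at h1 h2
    rw [h1, h2] at ht
    simp only [zero_smul, zero_add] at ht
    have h3 := (smul_eq_zero.mp ht).resolve_right hu0
    fin_cases i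
    · exact h1
    · exact h2
    · exact h3
  obtain ⟨g₀, hg₀⟩ := exists_iso_family (Q := Q) ![c, c', u] ![d, d', v] (hli h hu hu0) (hli h' hv hv0) (by
    intro t
    simp only [Fin.sum_univ_three, Matrix.cons_val_zero, Matrix.cons_val_one, Matrix.cons_val]
    rw [Q_triple h hu, Q_triple h' hv, huv])
  have hc := hg₀ 0
  have hc' := hg₀ 1
  have hu' := hg₀ 2
  simp only [Matrix.cons_val_zero, Matrix.cons_val_one, Matrix.cons_val] at hc hc' hu'
  obtain ⟨s, hs, hsg⟩ := exists_adjust ({d, d', v} : Set (ι → F)) (by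
    intro t ht
    by_cases hQv : Q v = 0
    · obtain ⟨w, hw, hHP⟩ := exists_partner_W_sing h' hv hv0 hQv
      obtain ⟨y, hy1, hy2, hy3, hy4, hy5⟩ := exists_univ h' hHP hv hw ht
      refine ⟨y, hy1, ?_⟩
      rintro x (rfl | rfl | rfl)
      · rw [polar_symm]
        exact hy2
      · rw [polar_symm]
        exact hy3
      · rw [polar_symm]
        exact hy4
    · obtain ⟨a, a', ha, ha1, ha2, ha3, ha4⟩ := exists_room h' hv (Or.inl hQv)
      refine ⟨a + t • a', ?_, ?_⟩
      · rw [Q_add, Q_smul, ha.hc, ha.hc', polar_smul_right', ha.hp]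
        ring
      · rintro x (rfl | rfl | rfl)
        · rw [polar_add_left, polar_smul_left', WW_left' ha1, WW_left' ha2]
          ring
        · rw [polar_add_left, polar_smul_left', WW_right' ha1, WW_right' ha2]
          ring
        · rw [polar_symm, polar_add_right, polar_smul_right', ha3, ha4]
          ring) g₀
  refine ⟨⟨s * g₀, hsg⟩, ?_, ?_, ?_⟩
  · show act (s * g₀) c = d
    rw [act_mul, hc]
    exact hs d (by simp)
  · show act (s * g₀) c' = d'
    rw [act_mul, hc']
    exact hs d' (by simp)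
  · show act (s * g₀) u = v
    rw [act_mul, hu']
    exact hs v (by simp)

/-- A hyperbolic pair exists in the complement of a hyperbolic pair. -/
theorem exists_HP_W {c c' : ι → F} (h : HP Q c c') : ∃ a a', HP Q a a' ∧ a ∈ WW Q c c' ∧ a' ∈ WW Q c c' := by
  obtain ⟨a, a', h1, h2, h3, -, -⟩ := exists_room h (Submodule.zero_mem _) (Or.inr rfl)
  exact ⟨a, a', h1, h2, h3⟩

/-- Hyperbolic pairs are conjugate. -/
theorem exists_omega_pair {c c' d d' : ι → F} (h : HP Q c c') (h' : HP Q d d') :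
    ∃ g : GG Q, act g.1 c = d ∧ act g.1 c' = d' := by
  obtain ⟨a, a', h1, h2, h3⟩ := exists_HP_W h
  obtain ⟨b, b', h4, h5, h6⟩ := exists_HP_W h'
  obtain ⟨g, hg1, hg2, -⟩ := exists_omega_triple h h' h2 h5 h1.ne_zero h4.ne_zero (by rw [h1.hc, h4.hc])
  exact ⟨g, hg1, hg2⟩

/-- Nonzero singular vectors are conjugate. -/
theorem exists_omega_vec {x y : ι → F} (hx : x ≠ 0) (hy : y ≠ 0) (hQx : Q x = 0) (hQy : Q y = 0) :
    ∃ g : GG Q, act g.1 x = y := by
  obtain ⟨x', hx1, hx2⟩ := exists_partner (OC.nd' (Q := Q)) hx hQx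
  obtain ⟨y', hy1, hy2⟩ := exists_partner (OC.nd' (Q := Q)) hy hQy
  obtain ⟨g, hg, -⟩ := exists_omega_pair (Q := Q) ⟨hQx, hx1, hx2⟩ ⟨hQy, hy1, hy2⟩
  exact ⟨g, hg⟩

end Witt

end Cfsg.Agent.Lib.MinIndex.M6.Vec
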