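import Mathlib
import Cfsg.Agent.Lib.MinIndex.M6.Vec

/-!
# Minimal degree of the orthogonal groups: points fixed by hyperplanes of all root groups

If a point is fixed by a hyperplane of every root group, then it is fixed by a whole root group.
-/

set_option autoImplicit false
set_option linter.unusedSectionVars false
set_option linter.unusedSimpArgs false
set_option linter.unusedVariables false

namespace Cfsg.Agent.Lib.MinIndex.M6.Line

open Matrix QuadraticMap Module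
open Cfsg.Agent.Lib.Classical.Orth.Basic
open Cfsg.Agent.Lib.Classical.Witt.Hyp
open Cfsg.Agent.Lib.MinIndex.M6.Base Cfsg.Agent.Lib.MinIndex.M6.Vec

variable {ι : Type} [Fintype ι] [DecidableEq ι] {F : Type*} [Field F] [Fintype F]
variable {Q : QuadraticForm F (ι → F)} [OC Q]

set_option quotPrecheck false in
local notation "𝔣" => polar (⇑Q)

variable {Ω : Type*} [MulAction (GG Q) Ω]

/-- A point is fixed by the hyperplane of the root group of `c` given by `u`. -/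
def LineAt (Q : QuadraticForm F (ι → F)) [OC Q] {Ω : Type*} [MulAction (GG Q) Ω] (ω : Ω) (c u : ι → F) : Prop :=
  ∃ hc : Q c = 0, ∀ (b : ι → F) (hb : polar (⇑Q) c b = 0), polar (⇑Q) u b = 0 → E hc hb • ω = ω

/-- A point is fixed by the root group of `c`. -/
def RFix (Q : QuadraticForm F (ι → F)) [OC Q] {Ω : Type*} [MulAction (GG Q) Ω] (ω : Ω) (c : ι → F) : Prop :=
  ∃ hc : Q c = 0, ∀ (b : ι → F) (hb : polar (⇑Q) c b = 0), E hc hb • ω = ω

variable {ω : Ω} {c u : ι → F}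

theorem LineAt.of_smul {s : F} (h : LineAt Q ω c (s • u)) : LineAt Q ω c u := by
  obtain ⟨hc, h⟩ := h
  refine ⟨hc, fun b hb hu => h b hb ?_⟩
  rw [polar_smul_left', hu, mul_zero]

theorem LineAt.smul {s : F} (hs : s ≠ 0) (h : LineAt Q ω c u) : LineAt Q ω c (s • u) := by
  have h1 : LineAt Q ω c (s⁻¹ • (s • u)) := by
    rwa [smul_smul, inv_mul_cancel₀ hs, one_smul]
  exact h1.of_smul

theorem LineAt.add_self (t : F) (h : LineAt Q ω c u) : LineAt Q ω c (u + t • c) := by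
  obtain ⟨hc, h⟩ := h
  refine ⟨hc, fun b hb hu => h b hb ?_⟩
  rw [polar_add_left, polar_smul_left', hb, mul_zero, add_zero] at hu
  exact hu

theorem LineAt.scale {s : F} (hs : s ≠ 0) (h : LineAt Q ω c u) : LineAt Q ω (s • c) u := by
  obtain ⟨hc, h⟩ := h
  have hc' : Q (s • c) = 0 := by rw [Q_smul, hc, mul_zero]
  refine ⟨hc', fun b hb hu => ?_⟩
  have hb' : 𝔣 c (s • b) = 0 := by
    rw [polar_smul_left'] at hb
    rw [polar_smul_right', hb]
  rw [E_smul_left s hc hc' hb hb']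
  exact h _ hb' (by rw [polar_smul_right', hu, mul_zero])

/-- Two independent hyperplanes give the whole root group. -/
theorem two_lines {e u₁ u₂ : ι → F} (h1 : LineAt Q ω e u₁) (h2 : LineAt Q ω e u₂)
    (hn : u₂ ∉ Submodule.span F (Set.range ![e, u₁])) : RFix Q ω e := by
  obtain ⟨s, hs1, hs2⟩ := exists_sep (Q := Q) hn
  have hse : 𝔣 e s = 0 := hs2 _ (Submodule.subset_span ⟨0, rfl⟩)
  have hsu : 𝔣 u₁ s = 0 := hs2 _ (Submodule.subset_span ⟨1, rfl⟩)
  obtain ⟨he, h1⟩ := h1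
  obtain ⟨he', h2⟩ := h2
  refine ⟨he, fun b hb => ?_⟩
  set b₁ := 𝔣 u₂ b • s with hb₁
  have hb1e : 𝔣 e b₁ = 0 := by rw [hb₁, polar_smul_right', hse, mul_zero]
  have hb1u : 𝔣 u₁ b₁ = 0 := by rw [hb₁, polar_smul_right', hsu, mul_zero]
  have hb2e : 𝔣 e (b - b₁) = 0 := by rw [polar_sub_right, hb, hb1e, sub_zero]
  have hb2u : 𝔣 u₂ (b - b₁) = 0 := by
    rw [polar_sub_right, hb₁, polar_smul_right', hs1]
    ring
  have e1 : E he hb = E he hb1e * E he hb2e := by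
    rw [E_mul]
    exact E_congr rfl (by abel) _ _ _ _
  rw [e1, mul_smul, h2 _ hb2e hb2u, h1 _ hb1e hb1u]

/-- The swap of a hyperbolic pair through a nonsingular vector. -/
theorem swap_act {x y v : ι → F} (hx : Q x = 0) (hy : Q y = 0) (hxy : 𝔣 x y = 1) (hxv : 𝔣 x v = 0) (hyv : 𝔣 y v = 0)
    (hκ : Q v ≠ 0) (hyv' : 𝔣 y ((Q v)⁻¹ • v) = 0) :
    act (E hx hxv * E hy hyv' * E hx hxv).1 x = -(Q v)⁻¹ • y := by
  set κ := Q v with hκd
  have hyx : 𝔣 y x = 1 := by rw [polar_symm]; exact hxy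
  have hvx : 𝔣 v x = 0 := by rw [polar_symm]; exact hxv
  have hxx := polar_zero_self hx
  have hvv : 𝔣 v v = 2 * κ := polar_self_eq _ _
  have hvy : 𝔣 v y = 0 := by rw [polar_symm]; exact hyv
  have s1 : act (E hx hxv).1 x = x := act_E_of_perp _ _ hxx hvx
  have s2 : act (E hy hyv').1 x = x + κ⁻¹ • v - κ⁻¹ • y := by
    rw [act_E, hyx, polar_smul_left', hvx, Q_smul, ← hκd]
    have e1 : κ⁻¹ * κ⁻¹ * κ * 1 = κ⁻¹ := by field_simp
    rw [e1]
    module
  have s3 : act (E hx hxv).1 v = v - (2 * κ) • x := by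
    rw [act_E, hxv, hvv]
    module
  have s4 : act (E hx hxv).1 y = y + v - κ • x := by
    rw [act_E, hxy, hvy, ← hκd]
    module
  rw [act_GG_mul, act_GG_mul, s1, s2, act_sub, act_add, act_smul, act_smul, s1, s3, s4]
  have e2 : κ⁻¹ • (κ • x) = x := by rw [smul_smul, inv_mul_cancel₀ hκ, one_smul]
  have e3 : κ⁻¹ • ((2 * κ) • x) = (2 : F) • x := by rw [smul_smul]; congr 1; field_simp
  simp only [smul_sub, smul_add, e2, e3]
  module

/-- A nonsingular vector of a complement perpendicular to two vectors. -/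
theorem exists_nonsing_W {c c' u₁ u₂ : ι → F} (h : HP Q c c') (hu₁ : u₁ ∈ WW Q c c') (hu₂ : u₂ ∈ WW Q c c') :
    ∃ b ∈ WW Q c c', Q b ≠ 0 ∧ 𝔣 u₁ b = 0 ∧ 𝔣 u₂ b = 0 := by
  classical
  have hdim := OC.dim (Q := Q)
  obtain ⟨b₁, hb₁, hb₁'⟩ := exists_orth_vec (Q := Q) ![c, c', u₁, u₂] (⊥ : Submodule F (ι → F)) (by
    rw [finrank_bot]
    omega)
  have hb₁0 : b₁ ≠ 0 := fun e => hb₁' (by rw [e]; exact Submodule.zero_mem _)
  obtain ⟨b₂, hb₂, hb₂'⟩ := exists_orth_vec (Q := Q) ![c, c', u₁, u₂] (Submodule.span F {b₁}) (by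
    rw [finrank_span_singleton hb₁0]
    omega)
  have hW₁ : b₁ ∈ WW Q c c' := mem_WW.2 ⟨hb₁ 0, hb₁ 1⟩
  have hW₂ : b₂ ∈ WW Q c c' := mem_WW.2 ⟨hb₂ 0, hb₂ 1⟩
  by_cases hQ₁ : Q b₁ = 0
  · by_cases hQ₂ : Q b₂ = 0
    · by_cases hp : 𝔣 b₁ b₂ = 0
      · obtain ⟨t, ht⟩ := prop_of_perp h hW₁ hW₂ hQ₁ hQ₂ hp hb₁0
        exfalso
        apply hb₂'
        rw [ht]
        exact Submodule.smul_mem _ _ (Submodule.mem_span_singleton_self b₁)
      · refine ⟨b₁ + b₂, Submodule.add_mem _ hW₁ hW₂, ?_, ?_, ?_⟩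
        · rw [Q_add, hQ₁, hQ₂]
          simpa using hp
        · have e1 : 𝔣 u₁ b₁ = 0 := hb₁ 2
          have e2 : 𝔣 u₁ b₂ = 0 := hb₂ 2
          rw [polar_add_right, e1, e2, add_zero]
        · have e1 : 𝔣 u₂ b₁ = 0 := hb₁ 3
          have e2 : 𝔣 u₂ b₂ = 0 := hb₂ 3
          rw [polar_add_right, e1, e2, add_zero]
    · exact ⟨b₂, hW₂, hQ₂, hb₂ 2, hb₂ 3⟩
  · exact ⟨b₁, hW₁, hQ₁, hb₁ 2, hb₁ 3⟩

/-- The swap lemma. -/
theorem line_swap {c₁ c₂ u₁ u₂ b : ι → F} (h : HP Q c₁ c₂) (hu₁ : u₁ ∈ WW Q c₁ c₂) (hbW : b ∈ WW Q c₁ c₂) (hQb : Q b ≠ 0)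
    (hb1 : 𝔣 u₁ b = 0) (hb2 : 𝔣 u₂ b = 0) (h1 : LineAt Q ω c₁ u₁) (h2 : LineAt Q ω c₂ u₂) : LineAt Q ω c₂ u₁ := by
  obtain ⟨hc₁, h1⟩ := h1
  obtain ⟨hc₂, h2⟩ := h2
  have hxv : 𝔣 c₁ b = 0 := WW_left hbW
  have hyv : 𝔣 c₂ b = 0 := WW_right hbW
  have hyv' : 𝔣 c₂ ((Q b)⁻¹ • b) = 0 := by rw [polar_smul_right', hyv, mul_zero]
  set g := E hc₁ hxv * E hc₂ hyv' * E hc₁ hxv with hg
  have hgc := swap_act hc₁ hc₂ h.hp hxv hyv hQb hyv'
  rw [← hg] at hgc
  have hgω : g • ω = ω := by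
    rw [hg, mul_smul, mul_smul, h1 _ hxv hb1, h2 _ hyv' (by rw [polar_smul_right', hb2, mul_zero]), h1 _ hxv hb1]
  have hgu : act g.1 u₁ = u₁ := by
    have hbu : 𝔣 b u₁ = 0 := by rw [polar_symm]; exact hb1
    rw [hg, act_GG_mul, act_GG_mul, act_E_of_perp hc₁ hxv (WW_left hu₁) hbu,
      act_E_of_perp hc₂ hyv' (WW_right hu₁) (by rw [polar_smul_left', hbu, mul_zero]),
      act_E_of_perp hc₁ hxv (WW_left hu₁) hbu]
  set κ := Q b with hκ
  refine ⟨hc₂, fun y hy hyu => ?_⟩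
  set x' := act (g⁻¹).1 ((-κ) • y) with hx'
  have hgx' : act g.1 x' = (-κ) • y := by rw [hx', act_GG_act_inv]
  have hx1 : 𝔣 c₁ x' = 0 := by
    rw [← polar_act g.1 c₁ x', hgc, hgx', polar_smul_left', polar_smul_right', hy]
    ring
  have hx2 : 𝔣 u₁ x' = 0 := by
    rw [← polar_act g.1 u₁ x', hgu, hgx', polar_smul_right', hyu, mul_zero]
  have h3 := h1 x' hx1 hx2
  have h4 := conj_E g hc₁ hx1
  have h5 : (g * E hc₁ hx1 * g⁻¹) • ω = ω := by
    rw [mul_smul, mul_smul, inv_smul_eq_iff.2 hgω.symm, h3, hgω]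
  rw [h4] at h5
  have hl : (-κ)⁻¹ ≠ 0 := inv_ne_zero (neg_ne_zero.2 hQb)
  have h6 : E hc₂ hy = E (by rwa [Q_act] : Q (act g.1 c₁) = 0) (by rwa [polar_act] : 𝔣 (act g.1 c₁) (act g.1 x') = 0) := by
    have hc' : Q ((-κ)⁻¹ • c₂) = 0 := by rw [Q_smul, hc₂, mul_zero]
    have e1 : 𝔣 ((-κ)⁻¹ • c₂) ((-κ) • y) = 0 := by
      rw [polar_smul_left', polar_smul_right', hy]
      ring
    have e2 : 𝔣 c₂ ((-κ)⁻¹ • ((-κ) • y)) = 0 := by
      rw [polar_smul_right', polar_smul_right', hy]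
      ring
    have e3 : E hc₂ hy = E hc₂ e2 := E_congr rfl (by
      rw [smul_smul, inv_mul_cancel₀ (neg_ne_zero.2 hQb), one_smul]) _ _ _ _
    rw [e3, ← E_smul_left _ hc₂ hc' e1 e2]
    refine E_congr ?_ ?_ _ _ _ _
    · rw [hgc, neg_smul, inv_neg, neg_smul]
    · rw [hgx']
  rw [h6]
  exact h5

/-- Propagation of a hyperplane along a hyperbolic pair. -/
theorem line_prop {c₁ c₂ u u₂ : ι → F} (h : HP Q c₁ c₂) (hu : u ∈ WW Q c₁ c₂) (hu₀ : u ≠ 0)
    (hu₂ : u₂ ∈ WW Q c₁ c₂) (hu₂₀ : u₂ ≠ 0) (h1 : LineAt Q ω c₁ u) (h2 : LineAt Q ω c₂ u₂)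
    (hno : ¬ RFix Q ω c₂) : LineAt Q ω c₂ u := by
  by_cases hp : ∃ s : F, u₂ = s • u
  · obtain ⟨s, rfl⟩ := hp
    exact h2.of_smul
  · obtain ⟨b, hbW, hQb, hb1, hb2⟩ := exists_nonsing_W (Q := Q) h hu hu₂
    have h3 := line_swap h hu hbW hQb hb1 hb2 h1 h2
    exfalso
    apply hno
    apply two_lines h3 h2
    intro hm
    obtain ⟨t, ht⟩ := (Submodule.mem_span_range_iff_exists_fun F).1 hm
    simp only [Fin.sum_univ_two, Matrix.cons_val_zero, Matrix.cons_val_one, Matrix.cons_val] at ht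
    have h4 := congrArg (𝔣 c₁) ht
    simp only [polar_add_right, polar_smul_right', h.hp, WW_left hu, WW_left hu₂] at h4
    simp only [mul_zero, mul_one, add_zero] at h4
    rw [h4] at ht
    apply hp
    exact ⟨t 1, by rw [← ht]; simp⟩

/-- A vector in general position. -/
theorem exists_general {c c' u : ι → F} (h : HP Q c c') (hu : u ∈ WW Q c c') (hu₀ : u ≠ 0) :
    ∃ y ∈ WW Q c c', Q y ≠ 0 ∧ 𝔣 u y ≠ 0 ∧ ∀ t : F, y ≠ t • u := by
  classical
  by_cases hQu : Q u = 0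
  · obtain ⟨u', hu', hp⟩ := exists_partner_W_sing h hu hu₀ hQu
    obtain ⟨b, hb, hbW, hQb, hb1, hb2⟩ : ∃ b, ∃ hb : b ∈ WW Q c c', b ∈ WW Q c c' ∧ Q b ≠ 0 ∧ 𝔣 u b = 0 ∧ 𝔣 u' b = 0 := by
      obtain ⟨b, hbW, hQb, hb1, hb2⟩ := exists_nonsing_W h hu hu'
      exact ⟨b, hbW, hbW, hQb, hb1, hb2⟩
    have hnd : 𝔣 u u' = 1 := hp.hp
    refine ⟨u' + b, Submodule.add_mem _ hu' hbW, ?_, ?_, ?_⟩
    · rw [Q_add, hp.hc', hb2]
      simpa using hQb
    · rw [polar_add_right, hb1, hnd, add_zero]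
      exact one_ne_zero
    · intro t ht
      have h1 := congrArg (𝔣 u) ht
      rw [polar_add_right, hb1, hnd, add_zero, polar_smul_right', polar_zero_self hQu, mul_zero] at h1
      exact one_ne_zero h1
  obtain ⟨a, a', ha, ha1, ha2, ha3, ha4⟩ := exists_room h hu (Or.inl hQu)
  obtain ⟨y₀, hy₀, hy₀1⟩ := exists_partner_W h hu hu₀
  set y₁ := y₀ - 𝔣 y₀ a' • a - 𝔣 y₀ a • a' with hy₁
  have hy₁W : y₁ ∈ WW Q c c' :=
    Submodule.sub_mem _ (Submodule.sub_mem _ hy₀ (Submodule.smul_mem _ _ ha1)) (Submodule.smul_mem _ _ ha2)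
  have h1 : 𝔣 u y₁ = 1 := by
    rw [hy₁, polar_sub_right, polar_sub_right, polar_smul_right', polar_smul_right', ha3, ha4, hy₀1]
    ring
  have h2 : 𝔣 a y₁ = 0 := by
    rw [hy₁, polar_sub_right, polar_sub_right, polar_smul_right', polar_smul_right', ha.hp, ha.cc, polar_symm a y₀]
    ring
  have h3 : 𝔣 a' y₁ = 0 := by
    rw [hy₁, polar_sub_right, polar_sub_right, polar_smul_right', polar_smul_right', ha.hp', ha.cc', polar_symm a' y₀]
    ring
  set t := 1 - Q y₁ with ht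
  refine ⟨y₁ + a + t • a', Submodule.add_mem _ (Submodule.add_mem _ hy₁W ha1) (Submodule.smul_mem _ _ ha2), ?_, ?_, ?_⟩
  · rw [Q_add, Q_add, Q_smul, ha.hc, ha.hc', polar_add_left, polar_smul_right', polar_smul_right', ha.hp,
      polar_symm y₁ a, h2, polar_symm y₁ a', h3]
    simp only [mul_zero, add_zero, zero_add, mul_one]
    rw [ht]
    ring_nf
    exact one_ne_zero
  · rw [polar_add_right, polar_add_right, polar_smul_right', h1, ha3, ha4]
    simp
  · intro s hs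
    have h4 := congrArg (𝔣 a') hs
    rw [polar_add_right, polar_add_right, polar_smul_right', polar_smul_right', h3, ha.hp', ha.cc', polar_symm a' u, ha4] at h4
    simp at h4

/-- **Hyperplanes of all root groups**: a point fixed by a hyperplane of every root group is fixed by a root group. -/
theorem no_lines {c c' : ι → F} (h : HP Q c c') (ω : Ω)
    (hN : ∀ e : ι → F, e ≠ 0 → Q e = 0 → ¬ RFix Q ω e)
    (hL : ∀ d d', HP Q d d' → ∃ u ∈ WW Q d d', u ≠ 0 ∧ LineAt Q ω d u) : False := by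
  -- the propagation
  have hP : ∀ c₁ c₂ u, HP Q c₁ c₂ → u ∈ WW Q c₁ c₂ → u ≠ 0 → LineAt Q ω c₁ u → LineAt Q ω c₂ u := by
    intro c₁ c₂ u hc hu hu₀ h1
    obtain ⟨u₂, hu₂, hu₂₀, h2⟩ := hL c₂ c₁ hc.symm
    rw [WW_symm] at hu₂
    exact line_prop hc hu hu₀ hu₂ hu₂₀ h1 h2 (hN c₂ hc.ne_zero' hc.hc')
  obtain ⟨u, hu, hu₀, h1⟩ := hL c c' h
  have h2 : LineAt Q ω c' u := hP c c' u h hu hu₀ h1
  obtain ⟨y, hyW, hQy, huy, hyu⟩ := exists_general h hu hu₀
  set e := c' + y - Q y • c with he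
  have hQe : Q e = 0 := by
    rw [he, Q_sub, Q_add, Q_smul, h.hc, h.hc', polar_add_left, polar_smul_right', polar_smul_right', h.hp', WW_right hyW,
      polar_symm y c, WW_left hyW]
    ring
  have hce : 𝔣 c e = 1 := by
    rw [he, polar_sub_right, polar_add_right, polar_smul_right', h.hp, WW_left hyW, h.cc]
    ring
  have hc'e : 𝔣 c' e = -Q y := by
    rw [he, polar_sub_right, polar_add_right, polar_smul_right', h.hp', WW_right hyW, h.cc']
    ring
  have hue : 𝔣 u e = 𝔣 u y := by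
    rw [he, polar_sub_right, polar_add_right, polar_smul_right', WW_right' hu, WW_left' hu]
    ring
  have hHP1 : HP Q c e := ⟨h.hc, hQe, hce⟩
  set κ := (-Q y)⁻¹ with hκ
  have hκ0 : κ ≠ 0 := inv_ne_zero (neg_ne_zero.2 hQy)
  have hHP2 : HP Q c' (κ • e) := ⟨h.hc', by rw [Q_smul, hQe, mul_zero], by
    rw [polar_smul_right', hc'e, hκ, inv_mul_cancel₀ (neg_ne_zero.2 hQy)]⟩
  -- the two vectors
  set u₁ := u + (-𝔣 u y) • c with hu₁
  set u₂ := u + (-(𝔣 u y * κ)) • c' with hu₂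
  have hu₁W : u₁ ∈ WW Q c e := mem_WW.2 ⟨by
    rw [hu₁, polar_add_right, polar_smul_right', WW_left hu, h.cc]
    ring, by
    rw [hu₁, polar_add_right, polar_smul_right', polar_symm e u, hue, polar_symm e c, hce]
    ring⟩
  have hu₂W : u₂ ∈ WW Q c' (κ • e) := mem_WW.2 ⟨by
    rw [hu₂, polar_add_right, polar_smul_right', WW_right hu, h.cc']
    ring, by
    rw [hu₂, polar_add_right, polar_smul_right', polar_smul_left', polar_smul_left', polar_symm e u, hue, polar_symm e c',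
      hc'e, hκ]
    field_simp
    ring⟩
  have hline1 : LineAt Q ω e u₁ := by
    apply hP c e u₁ hHP1 hu₁W ?_ (h1.add_self _)
    intro h0
    have h3 : 𝔣 c' u₁ = -𝔣 u y := by
      rw [hu₁, polar_add_right, polar_smul_right', WW_right hu, h.hp']
      ring
    rw [h0] at h3
    simp only [polar, QuadraticMap.map_zero, add_zero, sub_self] at h3
    exact huy (neg_eq_zero.1 h3.symm)
  have hline2 : LineAt Q ω (κ • e) u₂ := by
    apply hP c' (κ • e) u₂ hHP2 hu₂W ?_ (h2.add_self _)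
    intro h0
    have h3 : 𝔣 c u₂ = -(𝔣 u y * κ) := by
      rw [hu₂, polar_add_right, polar_smul_right', WW_left hu, h.hp]
      ring
    rw [h0] at h3
    simp only [polar, QuadraticMap.map_zero, add_zero, sub_self] at h3
    exact (mul_ne_zero huy hκ0) (neg_eq_zero.1 h3.symm)
  have hline2' : LineAt Q ω e u₂ := by
    have := hline2.scale (inv_ne_zero hκ0)
    rwa [smul_smul, inv_mul_cancel₀ hκ0, one_smul] at this
  apply hN e hHP1.ne_zero' hQe
  apply two_lines hline1 hline2'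
  intro hm
  obtain ⟨t, ht⟩ := (Submodule.mem_span_range_iff_exists_fun F).1 hm
  simp only [Fin.sum_univ_two, Matrix.cons_val_zero, Matrix.cons_val_one, Matrix.cons_val] at ht
  have h3 := congrArg (𝔣 c) ht
  rw [polar_add_right, polar_smul_right', polar_smul_right', hce, hu₁, polar_add_right, polar_smul_right', h.cc, WW_left hu,
    hu₂, polar_add_right, polar_smul_right', h.hp, WW_left hu] at h3
  have h4 := congrArg (𝔣 c') ht
  rw [polar_add_right, polar_smul_right', polar_smul_right', hc'e, hu₁, polar_add_right, polar_smul_right', h.hp',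
    WW_right hu, hu₂, polar_add_right, polar_smul_right', h.cc', WW_right hu] at h4
  have ht0 : t 0 = -(𝔣 u y * κ) := by linear_combination h3
  have ht0' : t 0 ≠ 0 := by
    rw [ht0]
    exact neg_ne_zero.2 (mul_ne_zero huy hκ0)
  apply hyu ((t 0)⁻¹ * (1 - t 1))
  have h5 : t 0 • y = (1 - t 1) • u := by
    have e1 : t 0 • e + t 1 • u₁ = u₂ := ht
    rw [he, hu₁, hu₂] at e1
    have e2 : t 0 * Q y + t 1 * 𝔣 u y = 0 := by linear_combination -h4
    have e3 : (t 0 * Q y + t 1 * 𝔣 u y) • c = (0 : ι → F) := by rw [e2, zero_smul]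
    have e4 : (t 0 + (𝔣 u y * κ)) • c' = (0 : ι → F) := by rw [ht0]; simp
    linear_combination (norm := module) e1 + e3 - e4
  rw [mul_smul, ← h5, smul_smul, inv_mul_cancel₀ ht0', one_smul]

end Cfsg.Agent.Lib.MinIndex.M6.Line
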