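import Mathlib
import Cfsg.Agent.Lib.MinIndex.M6.Final

/-!
# Minimal degree of the orthogonal groups in dimension six over small fields: general lemmas
-/

set_option autoImplicit false
set_option linter.unusedSectionVars false
set_option linter.unusedSimpArgs false
set_option linter.unusedVariables false

namespace Cfsg.Agent.Lib.MinIndex.M6.Small

open Matrix QuadraticMap Module
open Cfsg.Agent.Lib.Classical.Orth.Basic
open Cfsg.Agent.Lib.Classical.Witt.Hyp
open Cfsg.Agent.Lib.MinIndex.SpCount Cfsg.Agent.Lib.MinIndex.UCount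
open Cfsg.Agent.Lib.MinIndex.M6.Base Cfsg.Agent.Lib.MinIndex.M6.Vec Cfsg.Agent.Lib.MinIndex.M6.Good
open Cfsg.Agent.Lib.MinIndex.M6.Types Cfsg.Agent.Lib.MinIndex.M6.Line Cfsg.Agent.Lib.MinIndex.M6.Step
open Cfsg.Agent.Lib.MinIndex.M6.Reg Cfsg.Agent.Lib.MinIndex.M6.Fix Cfsg.Agent.Lib.MinIndex.M6.Count

/-- The bound for a subset all of whose annihilators are small, with a multiplicity. -/
theorem line_bound_m {W Y : Type*} [AddCommGroup W] [Fintype W] [Fintype Y] {A : WSet W Y} {Q : Pairing W}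
    {Y' : Finset Y} (h : Inv A Y') {b m : ℕ} (hb : ∀ y ∈ Y', Nat.card (SS A Q y) ≤ b)
    (C : Finset W) (h0 : (0 : W) ∉ C) (hC : ∀ u ∈ C, m ≤ mult A Q Y' u) :
    b * (C.card * m) ≤ (b - 1) * Y'.card := by
  classical
  have h1 := card_ge_classes (A := A) (Q := Q) h C ∅ h0 (by simp) (by simp) (m₁ := m) (m₂ := 0) hC (by simp)
  simp only [Finset.card_empty, zero_mul, add_zero] at h1
  have h2 : Y'.card ≤ b * mult A Q Y' 0 := by
    rw [card_eq_sum_orbs h, mult_zero_eq, mul_comm]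
    have := Finset.sum_le_card_nsmul (Orbs A Y') (fun O => O.card) b (by
      intro O hO
      obtain ⟨y, hy, rfl⟩ := mem_Orbs.mp hO
      rw [card_orb_eq (Q := Q)]
      exact hb y hy)
    simpa using this
  by_cases hb0 : b = 0
  · subst hb0
    simp
  obtain ⟨b', rfl⟩ : ∃ b', b = b' + 1 := ⟨b - 1, by omega⟩
  simp only [Nat.add_sub_cancel]
  have h3 := Nat.mul_le_mul_left (b' + 1) h1
  rw [mul_add] at h3
  have e : (b' + 1) * Y'.card = b' * Y'.card + Y'.card := by ring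
  omega

variable {ι : Type} [Fintype ι] [DecidableEq ι] {F : Type*} [Field F] [Fintype F]
variable {Q : QuadraticForm F (ι → F)} [OC Q]

set_option quotPrecheck false in
local notation "𝔣" => polar (⇑Q)

variable {c c' : ι → F}

section Act

variable {Ω : Type*} [MulAction (GG Q) Ω]

/-- Moving an Eichler transformation of `c` past an element fixing `c`. -/
theorem smul_E_of_fix {g : GG Q} (hg : act g.1 c = c) (hc : Q c = 0) {w : ι → F} (hw : 𝔣 c w = 0) (hw' : 𝔣 c (act g.1 w) = 0)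
    (y : Ω) : g • E hc hw • y = E hc hw' • g • y := by
  have h1 := conj_E g hc hw
  have h2 : g * E hc hw = E (by rw [Q_act]; exact hc : Q (act g.1 c) = 0) (by rw [polar_act]; exact hw : 𝔣 (act g.1 c) (act g.1 w) = 0) * g := by
    rw [← h1]
    group
  rw [← mul_smul, h2, mul_smul]
  congr 1
  rw [E_congr hg rfl _ _ hc hw']

/-- The product of two elements in terms of the translations. -/
theorem tau_mul {ω₀ : Ω} (hc : Q c = 0) {r r' : GG Q} (hr : act r.1 c = c) {τ τ' : ι → F} (hτ : 𝔣 c τ = 0)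
    (hτ' : 𝔣 c τ' = 0) (h1 : E hc hτ • ω₀ = r • ω₀) (h2 : E hc hτ' • ω₀ = r' • ω₀) (h3 : 𝔣 c (act r.1 τ' + τ) = 0) :
    (r * r') • ω₀ = E hc h3 • ω₀ := by
  have h4 : 𝔣 c (act r.1 τ') = 0 := by
    have := polar_act r.1 c τ'
    rw [hr, hτ'] at this
    exact this
  rw [mul_smul, ← h2, smul_E_of_fix hr hc hτ' h4, ← h1, ← mul_smul, E_mul]

end Act

section Free

variable {Ω : Type*} [MulAction (GG Q) Ω]

/-- The stabilizers are trivial, in terms of the vectors. -/
def FreeAt (Q : QuadraticForm F (ι → F)) [OC Q] (Ω : Type*) [MulAction (GG Q) Ω] (c c' : ι → F) : Prop :=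
  ∀ (hc : Q c = 0) (r : ι → F) (hr : r ∈ WW Q c c') (ω : Ω), E hc (WW_left hr) • ω = ω → r = 0

/-- Freeness at a pair gives freeness at all pairs. -/
theorem FreeAt.transfer (h : HP Q c c') (hF : FreeAt Q Ω c c') {d d' : ι → F} (h' : HP Q d d') : FreeAt Q Ω d d' := by
  intro hd r hr ω hfix
  obtain ⟨g, hg, hg'⟩ := exists_omega_pair h' h
  have hrW : act g.1 r ∈ WW Q c c' := mem_WW.2 ⟨by
    rw [← hg, polar_act]
    exact WW_left hr, by
    rw [← hg', polar_act]
    exact WW_right hr⟩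
  have h1 := conj_E g hd (WW_left hr)
  have h2 : E h.hc (WW_left hrW) • g • ω = g • ω := by
    have h3 : E h.hc (WW_left hrW) = g * E hd (WW_left hr) * g⁻¹ := by
      rw [h1]
      exact E_congr hg.symm rfl _ _ _ _
    rw [h3, ← mul_smul]
    have h4 : g * E hd (WW_left hr) * g⁻¹ * g = g * E hd (WW_left hr) := by group
    rw [h4, mul_smul, hfix]
  have h5 := hF h.hc _ hrW _ h2
  have h6 := act_GG_inv_act g r
  rw [h5] at h6
  rw [← h6]
  simp

/-- The end of the cocycle argument: the data of an element `E d b` with a translation perpendicular to the perp of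
`d`, `b` give a fixed point. -/
theorem coc_end (h : HP Q c c') {d d' : ι → F} (h' : HP Q d d') (hd : d ∈ WW Q c c') (hd' : d' ∈ WW Q c c')
    (hF : FreeAt Q Ω c c') {b τ : ι → F} (hb : b ∈ WW2 Q c c' d d') (hb0 : b ≠ 0) (hτW : τ ∈ WW Q c c') {ω₀ : Ω}
    (hτ : E h.hc (WW_left hτW) • ω₀ = E h'.hc (mem_WW2.1 hb).2.2.1 • ω₀) (h1 : 𝔣 d τ = 0)
    (h2 : ∀ y ∈ WW2 Q c c' d d', 𝔣 b y = 0 → 𝔣 y τ = 0) : False := by
  obtain ⟨hb1, hb2, hb3, hb4⟩ := mem_WW2.1 hb
  have hbW : b ∈ WW Q d d' := mem_WW.2 ⟨hb3, hb4⟩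
  set α := 𝔣 τ d' with hα
  set τ₂ := τ - α • d with hτ₂
  have hdd := h'.cc
  have hdd' := h'.hp
  have hd'd := h'.hp'
  have hdc : 𝔣 d c = 0 := WW_left' hd
  have hdc' : 𝔣 d c' = 0 := WW_right' hd
  have hd'c : 𝔣 d' c = 0 := WW_left' hd'
  have hd'c' : 𝔣 d' c' = 0 := WW_right' hd'
  have hτ₂W : τ₂ ∈ WW Q c c' := Submodule.sub_mem _ hτW (Submodule.smul_mem _ _ hd)
  have hτ₂W' : τ₂ ∈ WW Q d d' := mem_WW.2 ⟨by
    rw [hτ₂, polar_sub_right, polar_smul_right', h1, hdd]
    ring, by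
    rw [hτ₂, polar_sub_right, polar_smul_right', hd'd, hα, polar_symm τ d']
    ring⟩
  -- projection
  have hproj : ∀ y ∈ WW Q d d', y - 𝔣 y c' • c - 𝔣 y c • c' ∈ WW2 Q c c' d d' := by
    intro y hy
    rw [mem_WW2]
    refine ⟨?_, ?_, ?_, ?_⟩
    · rw [polar_sub_right, polar_sub_right, polar_smul_right', polar_smul_right', h.cc, h.hp, polar_symm c y]
      ring
    · rw [polar_sub_right, polar_sub_right, polar_smul_right', polar_smul_right', h.cc', h.hp', polar_symm c' y]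
      ring
    · rw [polar_sub_right, polar_sub_right, polar_smul_right', polar_smul_right', hdc, hdc', WW_left hy]
      ring
    · rw [polar_sub_right, polar_sub_right, polar_smul_right', polar_smul_right', hd'c, hd'c', WW_right hy]
      ring
  obtain ⟨β, hβ⟩ := eq_smul_of_perp h' hbW hτ₂W' (by
    intro y hy hby
    have hy₂ := hproj y hy
    set y₂ := y - 𝔣 y c' • c - 𝔣 y c • c' with hy₂def
    have e1 : 𝔣 b y₂ = 0 := by
      rw [hy₂def, polar_sub_right, polar_sub_right, polar_smul_right', polar_smul_right', hby, polar_symm b c, hb1,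
        polar_symm b c', hb2]
      ring
    have e2 := h2 y₂ hy₂ e1
    have e3 : y = y₂ + 𝔣 y c' • c + 𝔣 y c • c' := by
      rw [hy₂def]
      abel
    have e4 : 𝔣 d y₂ = 0 := (mem_WW2.1 hy₂).2.2.1
    rw [e3, polar_add_right, polar_add_right, polar_smul_right', polar_smul_right', WW_left' hτ₂W, WW_right' hτ₂W,
      hτ₂, polar_sub_left, polar_smul_left', polar_symm τ y₂, e2, e4]
    ring)
  -- a vector with the pairing
  obtain ⟨y, hyW, hy1⟩ := exists_partner_W h' hbW hb0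
  have hρ := hproj y hyW
  set ρ := y - 𝔣 y c' • c - 𝔣 y c • c' with hρdef
  have hbρ : 𝔣 b ρ = 1 := by
    rw [hρdef, polar_sub_right, polar_sub_right, polar_smul_right', polar_smul_right', hy1, polar_symm b c, hb1,
      polar_symm b c', hb2]
    ring
  obtain ⟨hρ1, hρ2, hρ3, hρ4⟩ := mem_WW2.1 hρ
  set γ := α + Q b * β with hγ
  set w := (-β) • d' + γ • ρ with hw
  have hwW : w ∈ WW Q c c' := Submodule.add_mem _ (Submodule.smul_mem _ _ hd') (Submodule.smul_mem _ _ (mem_WW.2 ⟨hρ1, hρ2⟩))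
  have hdw : 𝔣 d w = -β := by
    rw [hw, polar_add_right, polar_smul_right', polar_smul_right', hdd', hρ3]
    ring
  have hbw : 𝔣 b w = γ := by
    rw [hw, polar_add_right, polar_smul_right', polar_smul_right', hbρ, polar_symm b d', hb4]
    ring
  have hactw : act (E h'.hc hb3).1 w + τ = w := by
    rw [act_E, hdw, hbw]
    have e1 : τ = β • b + α • d := by
      rw [← hβ, hτ₂]
      abel
    rw [e1, hγ]
    module
  have hrc : act (E h'.hc hb3).1 c = c := act_E_of_perp _ _ hdc (by rw [polar_symm]; exact hb1)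
  have h3 : 𝔣 c (act (E h'.hc hb3).1 w) = 0 := by
    have := polar_act (E h'.hc hb3).1 c w
    rw [hrc, WW_left hwW] at this
    exact this
  have hfix : E h'.hc hb3 • (E h.hc (WW_left hwW) • ω₀) = E h.hc (WW_left hwW) • ω₀ := by
    rw [smul_E_of_fix hrc h.hc (WW_left hwW) h3, ← hτ, ← mul_smul, E_mul]
    congr 1
    exact E_congr rfl hactw _ _ _ _
  exact hb0 ((hF.transfer h h') h'.hc b hbW _ hfix)

/-- **No free single orbit over the field with two elements.** -/
theorem no_free_two (h : HP Q c c') (h2 : (2 : F) = 0) (hel : ∀ x : F, x = 0 ∨ x = 1) (hF : FreeAt Q Ω c c')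
    (horb : ∀ ω ω' : Ω, ∃ w, ∃ hw : w ∈ WW Q c c', E h.hc (WW_left hw) • ω = ω') (ω₀ : Ω) : False := by
  classical
  have hdim := OC.dim (Q := Q)
  have hvv : ∀ x : ι → F, x + x = 0 := by
    intro x
    rw [← two_smul F x, h2, zero_smul]
  have h11 : (1 : F) + 1 = 0 := by linear_combination h2
  obtain ⟨d, d', h', hd, hd'⟩ := exists_HP_W h
  -- a nonzero vector of the double complement
  obtain ⟨b, hb', hb0'⟩ := exists_orth_vec (Q := Q) ![c, c', d, d'] (⊥ : Submodule F (ι → F)) (by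
    rw [finrank_bot]
    omega)
  have hb0 : b ≠ 0 := fun e => hb0' (by rw [e]; exact Submodule.zero_mem _)
  have hb : b ∈ WW2 Q c c' d d' := mem_WW2.2 ⟨hb' 0, hb' 1, hb' 2, hb' 3⟩
  obtain ⟨hb1, hb2, hb3, hb4⟩ := mem_WW2.1 hb
  have hbW : b ∈ WW Q c c' := mem_WW.2 ⟨hb1, hb2⟩
  -- the vectors of the double complement are anisotropic
  have haniso : ∀ y ∈ WW2 Q c c' d d', Q y = 0 → y = 0 := by
    intro y hy hQy
    obtain ⟨hy1, hy2, hy3, hy4⟩ := mem_WW2.1 hy
    obtain ⟨t, ht⟩ := prop_of_perp h hd (mem_WW.2 ⟨hy1, hy2⟩) h'.hc hQy hy3 h'.ne_zero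
    have e := hy4
    rw [ht, polar_smul_right', h'.hp', mul_one] at e
    rw [ht, e, zero_smul]
  have hQb : Q b = 1 := by
    rcases hel (Q b) with e | e
    · exact absurd (haniso b hb e) hb0
    · exact e
  have hbb : 𝔣 b b = 0 := by
    rw [polar, hvv b]
    simp only [QuadraticMap.map_zero, hQb]
    linear_combination -h11
  obtain ⟨τ, hτW, hτ⟩ := horb ω₀ (E h'.hc hb3 • ω₀)
  -- a vector with the pairing
  obtain ⟨ρ, hρW, hρ⟩ : ∃ ρ ∈ WW2 Q c c' d d', 𝔣 b ρ = 1 := by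
    obtain ⟨y, hyW, hy1⟩ := exists_partner_W h' (mem_WW.2 ⟨hb3, hb4⟩) hb0
    refine ⟨y - 𝔣 y c' • c - 𝔣 y c • c', ?_, ?_⟩
    · rw [mem_WW2]
      refine ⟨?_, ?_, ?_, ?_⟩
      · rw [polar_sub_right, polar_sub_right, polar_smul_right', polar_smul_right', h.cc, h.hp, polar_symm c y]
        ring
      · rw [polar_sub_right, polar_sub_right, polar_smul_right', polar_smul_right', h.cc', h.hp', polar_symm c' y]
        ring
      · rw [polar_sub_right, polar_sub_right, polar_smul_right', polar_smul_right', WW_left' hd, WW_right' hd, WW_left hyW]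
        ring
      · rw [polar_sub_right, polar_sub_right, polar_smul_right', polar_smul_right', WW_left' hd', WW_right' hd', WW_right hyW]
        ring
    · rw [polar_sub_right, polar_sub_right, polar_smul_right', polar_smul_right', hy1, polar_symm b c, hb1,
        polar_symm b c', hb2]
      ring
  obtain ⟨hρ1, hρ2, hρ3, hρ4⟩ := mem_WW2.1 hρW
  -- the element has order two
  have hrc : act (E h'.hc hb3).1 c = c := act_E_of_perp _ _ (WW_left' hd) (by rw [polar_symm]; exact hb1)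
  have hact : act (E h'.hc hb3).1 τ = τ := by
    have ha : act (E h'.hc hb3).1 τ + τ ∈ WW Q c c' := Submodule.add_mem _ ((nrm_E h'.hc hb3 hd hbW).act_mem hτW) hτW
    have e1 := tau_mul h.hc hrc (WW_left hτW) (WW_left hτW) hτ hτ (WW_left ha)
    have e2 : E h'.hc hb3 * E h'.hc hb3 = 1 := by
      rw [E_mul]
      exact E_zero _ _ (hvv b)
    rw [e2, one_smul] at e1
    have h3 := hF h.hc _ ha ω₀ e1.symm
    have h4 : act (E h'.hc hb3).1 τ = act (E h'.hc hb3).1 τ + (τ + τ) := by rw [hvv, add_zero]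
    rw [h4, ← add_assoc, h3, zero_add]
  rw [act_E] at hact
  have hact2 : (𝔣 d τ) • b - (𝔣 b τ) • d - (Q b * 𝔣 d τ) • d = 0 := by
    linear_combination (norm := module) hact
  have h1 : 𝔣 d τ = 0 := by
    have e := congrArg (𝔣 ρ) hact2
    simp only [polar_sub_right, polar_smul_right'] at e
    have e1 : 𝔣 ρ b = 1 := by rw [polar_symm]; exact hρ
    have e2 : 𝔣 ρ d = 0 := by rw [polar_symm]; exact hρ3
    rw [e1, e2] at e
    simpa [polar] using e
  have h3 : 𝔣 b τ = 0 := by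
    rw [h1] at hact2
    simp only [zero_smul, mul_zero, zero_sub, sub_zero, neg_eq_zero] at hact2
    exact (smul_eq_zero.1 hact2).resolve_right h'.ne_zero
  have hperp : ∀ y ∈ WW2 Q c c' d d', 𝔣 b y = 0 → 𝔣 y τ = 0 := by
    intro y hy hby
    set s := y + Q y • b with hs
    have hsW : s ∈ WW2 Q c c' d d' := Submodule.add_mem _ hy (Submodule.smul_mem _ _ hb)
    have hyb : 𝔣 y b = 0 := by rw [polar_symm]; exact hby
    have hQs : Q s = 0 := by
      rw [hs, Q_add, Q_smul, hQb, polar_smul_right', hyb]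
      rcases hel (Q y) with e | e <;> rw [e]
      · ring
      · linear_combination h11
    have hs0 := haniso s hsW hQs
    have e : y = s - Q y • b := by
      rw [hs]
      abel
    rw [e, hs0, polar_sub_left, polar_smul_left', h3]
    simp [polar]
  exact coc_end h h' hd hd' hF hb hb0 hτW hτ h1 hperp

end Free

section Reg

variable {Ω : Type*} [MulAction (GG Q) Ω] [Fintype Ω] (h : HP Q c c') (ψ : AddChar F ℂ) (hψ : ψ ≠ 1)

/-- Regular points everywhere: freeness. -/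
theorem free_of_reg (hall : ∀ ω : Ω, AN h ψ hψ ω = ⊤) : FreeAt Q Ω c c' := by
  intro hc r hr ω hfix
  exact reg_stab h ψ hψ (hall ω) hr hfix

/-- The size of a regular orbit. -/
theorem card_orb_reg {ω : Ω} (hR : AN h ψ hψ ω = ⊤) : ((wS h Ω).orb ω).card = Fintype.card (WW Q c c') := by
  have e : ((wS h Ω).orb ω).card = Nat.card (AN h ψ hψ ω) := card_orb_eq (Q := pW h ψ hψ) ω
  rw [e, hR, AddSubgroup.card_top, Nat.card_eq_fintype_card]

/-- Distinct orbits are disjoint. -/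
theorem orb_disjoint {ω ω' : Ω} (hne : ω' ∉ (wS h Ω).orb ω) : Disjoint ((wS h Ω).orb ω) ((wS h Ω).orb ω') := by
  rw [Finset.disjoint_left]
  intro z hz hz'
  apply hne
  have h1 := (wS h Ω).orb_eq_of_mem hz
  have h2 := (wS h Ω).orb_eq_of_mem hz'
  rw [← h1, h2]
  exact (wS h Ω).self_mem_orb ω'

/-- Two points in distinct orbits, the numbers. -/
theorem card_two_orbs {ω ω' : Ω} (hne : ω' ∉ (wS h Ω).orb ω) :
    ((wS h Ω).orb ω).card + ((wS h Ω).orb ω').card ≤ Fintype.card Ω := by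
  classical
  rw [← Finset.card_union_of_disjoint (orb_disjoint h hne)]
  exact Finset.card_le_univ _

/-- Regular orbits are unique. -/
theorem reg_unique (hd : Fintype.card Ω < 2 * Fintype.card (WW Q c c')) {ω ω' : Ω} (hR : AN h ψ hψ ω = ⊤)
    (hR' : AN h ψ hψ ω' = ⊤) : ω' ∈ (wS h Ω).orb ω := by
  by_contra hne
  have h1 := card_two_orbs h hne
  rw [card_orb_reg h ψ hψ hR, card_orb_reg h ψ hψ hR'] at h1
  omega

/-- Not all points are regular, over the field with two elements. -/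
theorem not_all_reg_two (h2 : (2 : F) = 0) (hel : ∀ x : F, x = 0 ∨ x = 1)
    (hd : Fintype.card Ω < 2 * Fintype.card (WW Q c c')) (hall : ∀ ω : Ω, AN h ψ hψ ω = ⊤) (ω₀ : Ω) : False := by
  refine no_free_two h h2 hel (free_of_reg h ψ hψ hall) (fun ω ω' => ?_) ω₀
  obtain ⟨w, hw⟩ := (wS h Ω).mem_orb.1 (reg_unique h ψ hψ hd (hall ω) (hall ω'))
  exact ⟨w.1, w.2, hw⟩

end Reg

/-- The numerical facts of the assembly. -/
structure SNum (Q : QuadraticForm F (ι → F)) [OC Q] (c c' : ι → F) (N : ℕ) : Prop where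
  hNW : N ≤ 2 * Fintype.card (WW Q c c')
  hcls : ∀ u : WW Q c c', Q u.1 ≠ 0 → (Fintype.card F - 1) * N ≤
    (Fintype.card F - 1) * Fintype.card (WW Q c c') + Fintype.card F * (clsW u).card
  hz : (Fintype.card F - 1) * N ≤ (Fintype.card F - 1) * Fintype.card (WW Q c c') + Fintype.card F * (singW Q c c').card ∨
    ((Fintype.card F - 1) * N ≤ (Fintype.card F - 1) * Fintype.card (WW Q c c') + Fintype.card F * (singW Q c c').card +
      (Fintype.card F - 1) ∧ ¬ (N - 1) ∣ (Fintype.card F - 1) * Fintype.card (WW Q c c') ∧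
      (singOf Q ⊤).card = (Fintype.card F - 1) * N)

/-- Regularity of a point at a singular vector. -/
def RegV (Q : QuadraticForm F (ι → F)) [OC Q] {Ω : Type*} [MulAction (GG Q) Ω] (ω : Ω) (s : ι → F) : Prop :=
  ∀ (hs : Q s = 0) (b : ι → F) (hb : polar (⇑Q) s b = 0), E hs hb • ω = ω → ∃ t : F, b = t • s

section Main

variable {Ω : Type*} [MulAction (GG Q) Ω]

/-- Images of regular points. -/
theorem RegV.smul {ω : Ω} {s : ι → F} (hR : RegV Q ω s) (g : GG Q) : RegV Q (g • ω) (act g.1 s) := by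
  intro hs b hb hfix
  have hs' : Q s = 0 := by rwa [Q_act] at hs
  have hb' : 𝔣 s (act (g⁻¹).1 b) = 0 := by
    have h1 := polar_act g.1 s (act (g⁻¹).1 b)
    rw [act_GG_act_inv] at h1
    rw [← h1]
    exact hb
  have h2 := conj_E g hs' hb'
  have h3 : E hs hb = g * E hs' hb' * g⁻¹ := by
    rw [h2]
    exact E_congr rfl (act_GG_act_inv g b).symm _ _ _ _
  rw [h3, ← mul_smul] at hfix
  have h4 : g * E hs' hb' * g⁻¹ * g = g * E hs' hb' := by group
  rw [h4, mul_smul] at hfix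
  obtain ⟨t, ht⟩ := hR hs' _ hb' (smul_left_cancel _ hfix)
  refine ⟨t, ?_⟩
  have h5 := act_GG_act_inv g b
  rw [ht, act_smul] at h5
  exact h5.symm

variable [Fintype Ω] (h : HP Q c c') (ψ : AddChar F ℂ) (hψ : ψ ≠ 1)

/-- Regularity of the annihilator in terms of the vector. -/
theorem regV_of_AN {ω : Ω} (hR : AN h ψ hψ ω = ⊤) : RegV Q ω c := by
  intro hs b hb hfix
  set r := b + (-𝔣 c' b) • c with hr
  have hrW : r ∈ WW Q c c' := mem_WW.2 ⟨by
    rw [hr, polar_add_right, polar_smul_right', h.cc, hb]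
    ring, by
    rw [hr, polar_add_right, polar_smul_right', h.hp']
    ring⟩
  have e1 : E h.hc (WW_left hrW) = E hs hb := by
    have h1 : 𝔣 c (b + (-𝔣 c' b) • c) = 0 := WW_left hrW
    rw [← E_add_self hs (-𝔣 c' b) hb h1]
  have h3 := reg_stab h ψ hψ hR hrW (by rw [e1]; exact hfix)
  refine ⟨𝔣 c' b, ?_⟩
  rw [hr] at h3
  linear_combination (norm := module) h3

/-- The annihilator at a regular point. -/
theorem AN_of_regV {ω : Ω} (hR : RegV Q ω c) : AN h ψ hψ ω = ⊤ := by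
  rw [eq_top_iff]
  intro a _
  apply (mem_AN h ψ hψ).2
  intro r hr
  obtain ⟨t, ht⟩ := hR h.hc r.1 (WW_left r.2) hr
  have h1 : 𝔣 c' r.1 = 0 := WW_right r.2
  rw [ht, polar_smul_right', h.hp', mul_one] at h1
  have h2 : r.1 = 0 := by rw [ht, h1, zero_smul]
  rw [h2]
  simp [polar]

/-- A line has at most as many vectors as the field. -/
theorem card_AN_le_of_line {ω : Ω} {u : ι → F} (hu0 : u ≠ 0) (hline : ∀ x ∈ ANv h ψ hψ ω, ∃ s : F, x = s • u) :
    Nat.card (AN h ψ hψ ω) ≤ Fintype.card F := by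
  classical
  have h1 : ∀ x : AN h ψ hψ ω, ∃ s : F, x.1.1 = s • u := fun x => hline _ ((mem_ANv h ψ hψ).2 ⟨x.1.2, x.2⟩)
  choose f hf using h1
  rw [Nat.card_eq_fintype_card]
  apply Fintype.card_le_of_injective f
  intro a b e
  apply Subtype.ext
  apply Subtype.ext
  rw [hf a, hf b, e]

/-- All annihilators in a line give a contradiction. -/
theorem no_reg_case (hno : ∀ (ω : Ω) (e : ι → F), e ≠ 0 → Q e = 0 → ¬ RFix Q ω e)
    (hline : ∀ ω : Ω, ∃ u ∈ WW Q c c', u ≠ 0 ∧ ∀ x ∈ ANv h ψ hψ ω, ∃ s : F, x = s • u) (ω : Ω) : False := by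
  apply no_lines h ω (hno ω)
  intro d d' h'
  obtain ⟨g, hg, hg'⟩ := exists_omega_pair h' h
  obtain ⟨u, huW, hu0, hu⟩ := hline (g • ω)
  have hgi : act (g⁻¹).1 c = d := by rw [← hg, act_GG_inv_act]
  have hgi' : act (g⁻¹).1 c' = d' := by rw [← hg', act_GG_inv_act]
  have hu'W : act (g⁻¹).1 u ∈ WW Q d d' := mem_WW.2 ⟨by
    rw [← hgi, polar_act]
    exact WW_left huW, by
    rw [← hgi', polar_act]
    exact WW_right huW⟩
  refine ⟨act (g⁻¹).1 u, hu'W, ?_, lineAt_of_ANv h' ψ hψ hu'W ?_⟩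
  · intro h0
    apply hu0
    have := act_GG_act_inv g u
    rw [h0] at this
    rw [← this]
    simp
  · intro a ha
    obtain ⟨s, hs⟩ := hu _ (mem_ANv_transfer h ψ hψ h' hg hg' ha)
    refine ⟨s, ?_⟩
    have h1 := act_GG_inv_act g a
    rw [hs, act_smul] at h1
    exact h1.symm

/-- Nonregular annihilators are in lines. -/
theorem line_of_nreg (hno : ∀ (ω : Ω) (e : ι → F), e ≠ 0 → Q e = 0 → ¬ RFix Q ω e)
    (hT : ∀ (ω : Ω) (u : WW Q c c'), u ∈ AN h ψ hψ ω → Q u.1 ≠ 0 →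
      (∀ x ∈ AN h ψ hψ ω, ∃ t : F, x.1 = t • u.1) ∨ AN h ψ hψ ω = ⊤)
    {ω : Ω} (hω : AN h ψ hψ ω ≠ ⊤) : ∃ u ∈ WW Q c c', u ≠ 0 ∧ ∀ x ∈ ANv h ψ hψ ω, ∃ s : F, x = s • u := by
  obtain ⟨a₀, ha₀, ha₀0⟩ := exists_ne_ANv h ψ hψ (hno ω c h.ne_zero h.hc)
  obtain ⟨ha₀W, ha₀'⟩ := (mem_ANv h ψ hψ).1 ha₀
  by_cases hns : ∃ a ∈ ANv h ψ hψ ω, Q a ≠ 0
  · obtain ⟨a, ha, hQa⟩ := hns
    obtain ⟨haW, ha'⟩ := (mem_ANv h ψ hψ).1 ha
    have ha0 : a ≠ 0 := by
      rintro rfl
      simp at hQa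
    refine ⟨a, haW, ha0, ?_⟩
    rcases hT ω ⟨a, haW⟩ ha' hQa with h1 | h1
    · intro x hx
      obtain ⟨hxW, hx'⟩ := (mem_ANv h ψ hψ).1 hx
      exact h1 ⟨x, hxW⟩ hx'
    · exact (hω h1).elim
  · push Not at hns
    refine ⟨a₀, ha₀W, ha₀0, fun x hx => ?_⟩
    obtain ⟨hxW, hx'⟩ := (mem_ANv h ψ hψ).1 hx
    have h1 : 𝔣 a₀ x = 0 := by
      have h2 := hns _ (AddSubgroup.add_mem _ ha₀ hx)
      rw [Q_add, hns _ ha₀, hns _ hx] at h2
      simpa using h2
    exact prop_of_perp h ha₀W hxW (hns _ ha₀) (hns _ hx) h1 ha₀0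

/-- **The double count**: pairs of a singular vector and a point regular at it. -/
theorem count_reg [MulAction.IsPretransitive (GG Q) Ω] {N : ℕ} (hL : (singOf Q ⊤).card = (Fintype.card F - 1) * N) {ω_R : Ω}
    (hR : AN h ψ hψ ω_R = ⊤) (huniq : ∀ ω : Ω, AN h ψ hψ ω = ⊤ → ω ∈ (wS h Ω).orb ω_R) :
    (Fintype.card Ω) ∣ (Fintype.card F - 1) * N * Fintype.card (WW Q c c') := by
  classical
  have hbase : (Finset.univ.filter fun ω : Ω => RegV Q ω c).card = Fintype.card (WW Q c c') := by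
    rw [← card_orb_reg h ψ hψ hR]
    congr 1
    ext ω
    simp only [Finset.mem_filter, Finset.mem_univ, true_and]
    constructor
    · intro h1
      exact huniq ω (AN_of_regV h ψ hψ h1)
    · intro h1
      apply regV_of_AN h ψ hψ
      have h2 : AN h ψ hψ ω = AN h ψ hψ ω_R := SS_of_mem_orb h1
      rw [h2, hR]
  have h1 : ∀ s ∈ singOf Q ⊤, ((Finset.univ : Finset Ω).filter (fun ω => RegV Q ω s)).card = Fintype.card (WW Q c c') := by
    intro s hs
    obtain ⟨hs0, hQs, -⟩ := mem_singOf.1 hs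
    obtain ⟨g, hg⟩ := exists_omega_vec (Q := Q) h.ne_zero hs0 h.hc hQs
    rw [← hbase]
    symm
    apply card_move _ _ g
    · intro ω hω
      have := hω.smul g
      rwa [hg] at this
    · intro ω hω
      have := hω.smul g⁻¹
      rwa [← hg, act_GG_inv_act] at this
  obtain ⟨ω₀⟩ : Nonempty Ω := ⟨ω_R⟩
  have h2 : ∀ ω ∈ (Finset.univ : Finset Ω), ((singOf Q ⊤).filter (fun s => RegV Q ω s)).card =
      ((singOf Q ⊤).filter (fun s => RegV Q ω₀ s)).card := by
    intro ω _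
    obtain ⟨g, rfl⟩ := MulAction.exists_smul_eq (GG Q) ω₀ ω
    symm
    apply Finset.card_nbij' (fun s => act g.1 s) (fun s => act (g⁻¹).1 s)
    · intro s hs
      obtain ⟨hs1, hs2⟩ := Finset.mem_filter.1 (Finset.mem_coe.1 hs)
      obtain ⟨hs0, hQs, -⟩ := mem_singOf.1 hs1
      refine Finset.mem_coe.2 (Finset.mem_filter.2 ⟨mem_singOf.2 ⟨?_, by rw [Q_act]; exact hQs, Submodule.mem_top⟩, hs2.smul g⟩)
      intro h0
      replace h0 : act g.1 s = 0 := h0
      apply hs0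
      have := act_GG_inv_act g s
      rw [h0] at this
      rw [← this]
      simp
    · intro s hs
      obtain ⟨hs1, hs2⟩ := Finset.mem_filter.1 (Finset.mem_coe.1 hs)
      obtain ⟨hs0, hQs, -⟩ := mem_singOf.1 hs1
      refine Finset.mem_coe.2 (Finset.mem_filter.2 ⟨mem_singOf.2 ⟨?_, by rw [Q_act]; exact hQs, Submodule.mem_top⟩, ?_⟩)
      · intro h0
        replace h0 : act (g⁻¹).1 s = 0 := h0
        apply hs0
        have := act_GG_act_inv g s
        rw [h0] at this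
        rw [← this]
        simp
      · have := hs2.smul g⁻¹
        rwa [inv_smul_smul] at this
    · intro s _
      exact act_GG_inv_act g s
    · intro s _
      exact act_GG_act_inv g s
  have h3 := double_count (singOf Q ⊤) (Finset.univ : Finset Ω) (fun s ω => RegV Q ω s) h1 h2
  rw [hL, Finset.card_univ] at h3
  exact ⟨_, h3⟩

/-- **The assembly.** -/
theorem small_core [MulAction.IsPretransitive (GG Q) Ω] {N : ℕ} (hnum : SNum Q c c' N) (hd : Fintype.card Ω < N)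
    (hno : ∀ (ω : Ω) (e : ι → F), e ≠ 0 → Q e = 0 → ¬ RFix Q ω e)
    (hT : ∀ (ω : Ω) (u : WW Q c c'), u ∈ AN h ψ hψ ω → Q u.1 ≠ 0 →
      (∀ x ∈ AN h ψ hψ ω, ∃ t : F, x.1 = t • u.1) ∨ AN h ψ hψ ω = ⊤)
    (hnr : (∀ ω : Ω, AN h ψ hψ ω = ⊤) → False) (ω₀ : Ω) : False := by
  classical
  have hq2 : 2 ≤ Fintype.card F := Fintype.one_lt_card
  by_cases hreg : ∃ ω_R : Ω, AN h ψ hψ ω_R = ⊤
  · obtain ⟨ω_R, hR⟩ := hreg
    have hd2 : Fintype.card Ω < 2 * Fintype.card (WW Q c c') := lt_of_lt_of_le hd hnum.hNW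
    have huniq : ∀ ω : Ω, AN h ψ hψ ω = ⊤ → ω ∈ (wS h Ω).orb ω_R := fun ω hω => reg_unique h ψ hψ hd2 hR hω
    obtain ⟨ω₁, hω₁⟩ : ∃ ω₁ : Ω, AN h ψ hψ ω₁ ≠ ⊤ := by
      by_contra hcon
      push Not at hcon
      exact hnr hcon
    set Y := Yp (fun ω : Ω => AN h ψ hψ ω ≠ ⊤) with hY
    set R := Yp (fun ω : Ω => AN h ψ hψ ω = ⊤) with hRd
    have hmemY : ∀ y : Ω, y ∈ Y ↔ AN h ψ hψ y ≠ ⊤ := fun y => mem_Yp
    have hmemR : ∀ y : Ω, y ∈ R ↔ AN h ψ hψ y = ⊤ := fun y => mem_Yp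
    have hsum : R.card + Y.card = Fintype.card Ω := by
      rw [hY, hRd]
      unfold Yp
      rw [Finset.card_filter_add_card_filter_not]
      rfl
    have h9 : Fintype.card (WW Q c c') ≤ R.card := by
      rw [← card_orb_reg h ψ hψ hR]
      exact Finset.card_le_card (orb_subset (good_reg h ψ hψ (Ω := Ω)).inv ((hmemR _).2 hR))
    have hb : ∀ y ∈ Y, Nat.card (SS (wS h Ω) (pW h ψ hψ) y) ≤ Fintype.card F := by
      intro y hy
      obtain ⟨u, -, hu0, hu⟩ := line_of_nreg h ψ hψ hno hT ((hmemY y).1 hy)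
      exact card_AN_le_of_line h ψ hψ hu0 hu
    have hG : Good h Y := good_nreg h ψ hψ
    obtain ⟨a₀, ha₀, ha₀0⟩ := exists_ne_ANv h ψ hψ (hno ω₁ c h.ne_zero h.hc)
    obtain ⟨ha₀W, ha₀'⟩ := (mem_ANv h ψ hψ).1 ha₀
    have hne : ∀ a : WW Q c c', a.1 ≠ 0 → a ≠ 0 := fun a ha h0 => ha (by rw [h0]; rfl)
    -- the common arithmetic
    have harith : ∀ C : ℕ, Fintype.card F * (C * 1) ≤ (Fintype.card F - 1) * Y.card →
        (Fintype.card F - 1) * Fintype.card (WW Q c c') + Fintype.card F * C ≤ (Fintype.card F - 1) * Fintype.card Ω := by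
      intro C hC
      rw [mul_one] at hC
      rw [← hsum, mul_add]
      exact Nat.add_le_add (Nat.mul_le_mul_left _ h9) hC
    have hpos : 0 < Fintype.card F - 1 := by omega
    by_cases hns : ∃ a ∈ ANv h ψ hψ ω₁, Q a ≠ 0
    · obtain ⟨a, ha, hQa⟩ := hns
      obtain ⟨haW, ha'⟩ := (mem_ANv h ψ hψ).1 ha
      have ha0 : (⟨a, haW⟩ : WW Q c c') ≠ 0 := by
        intro h0
        apply hQa
        have e : a = 0 := congrArg Subtype.val h0
        rw [e]
        simp
      have h1 := line_bound_m (A := wS h Ω) (Q := pW h ψ hψ) (Y' := Y) hG.inv hb (clsW (⟨a, haW⟩ : WW Q c c')) (m := 1)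
        (fun h0 => (mem_clsW.1 h0).1 rfl) (by
        intro v hv
        obtain ⟨hv0, l, hl, e⟩ := mem_clsW.1 hv
        exact (one_le_mult ((hmemY _).2 hω₁) ha').trans (mu_le_class h ψ hψ hG ha0 hv0 hl e))
      have h2 := hnum.hcls ⟨a, haW⟩ hQa
      have h3 := harith _ h1
      have h4 := Nat.le_of_mul_le_mul_left (h2.trans h3) hpos
      omega
    · push Not at hns
      have hQa₀ := hns a₀ ha₀
      have ha0 : (⟨a₀, ha₀W⟩ : WW Q c c') ≠ 0 := hne _ ha₀0
      have h1 := line_bound_m (A := wS h Ω) (Q := pW h ψ hψ) (Y' := Y) hG.inv hb (singW Q c c') (m := 1)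
        (fun h0 => (mem_singW.1 h0).1 rfl) (by
        intro v hv
        obtain ⟨hv0, e⟩ := mem_singW.1 hv
        exact (one_le_mult ((hmemY _).2 hω₁) ha₀').trans (mu_le_sing h ψ hψ hG ha0 hv0 hQa₀ e))
      have h3 := harith _ h1
      rcases hnum.hz with h2 | ⟨h2, h5, hL⟩
      · have h4 := Nat.le_of_mul_le_mul_left (h2.trans h3) hpos
        omega
      · have h4 : (Fintype.card F - 1) * N ≤ (Fintype.card F - 1) * (Fintype.card Ω + 1) := by
          rw [mul_add, mul_one]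
          omega
        have h6 := Nat.le_of_mul_le_mul_left h4 hpos
        have hdN : Fintype.card Ω = N - 1 := by omega
        have h7 := count_reg h ψ hψ hL hR huniq
        rw [hdN] at h7
        apply h5
        have hcop : Nat.Coprime (N - 1) N := by
          obtain ⟨n, rfl⟩ : ∃ n, N = n + 1 := ⟨N - 1, by omega⟩
          simp
        have e : (Fintype.card F - 1) * N * Fintype.card (WW Q c c') =
            N * ((Fintype.card F - 1) * Fintype.card (WW Q c c')) := by ring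
        rw [e] at h7
        exact hcop.dvd_of_dvd_mul_left h7
  · push Not at hreg
    exact no_reg_case h ψ hψ hno (fun ω => line_of_nreg h ψ hψ hno hT (hreg ω)) ω₀

end Main

end Cfsg.Agent.Lib.MinIndex.M6.Small
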