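import Mathlib
import Cfsg.Agent.Lib.MinIndex.M6.Small

/-!
# Minimal degree of the orthogonal groups in dimension six: bounds for multiplicities through coverings
-/

set_option autoImplicit false
set_option linter.unusedSectionVars false
set_option linter.unusedSimpArgs false
set_option linter.unusedVariables false

namespace Cfsg.Agent.Lib.MinIndex.M6.Ratio

open Matrix QuadraticMap Module
open Cfsg.Agent.Lib.Classical.Orth.Basic
open Cfsg.Agent.Lib.Classical.Witt.Hyp
open Cfsg.Agent.Lib.MinIndex.SpCount Cfsg.Agent.Lib.MinIndex.UCount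
open Cfsg.Agent.Lib.MinIndex.M6.Base Cfsg.Agent.Lib.MinIndex.M6.Vec Cfsg.Agent.Lib.MinIndex.M6.Good
open Cfsg.Agent.Lib.MinIndex.M6.Types Cfsg.Agent.Lib.MinIndex.M6.Line Cfsg.Agent.Lib.MinIndex.M6.Step
open Cfsg.Agent.Lib.MinIndex.M6.Reg Cfsg.Agent.Lib.MinIndex.M6.Fix Cfsg.Agent.Lib.MinIndex.M6.Count
open Cfsg.Agent.Lib.MinIndex.M6.Small

open _root_.Classical in
/-- **The ratio bound**: a bound for the part of each annihilator in a set gives a bound for the multiplicities. -/
theorem ratio_bound {W Y : Type*} [AddCommGroup W] [Fintype W] [Fintype Y] {A : WSet W Y} {Q : Pairing W}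
    {Y1 : Finset Y} (h : Inv A Y1) (C : Finset W) {a b m : ℕ}
    (hper : ∀ y ∈ Y1, a * (C.filter (· ∈ SS A Q y)).card ≤ b * Nat.card (SS A Q y))
    (hC : ∀ u ∈ C, m ≤ mult A Q Y1 u) : a * (C.card * m) ≤ b * Y1.card := by
  have h1 : C.card * m ≤ ∑ u ∈ C, mult A Q Y1 u := by
    have := Finset.card_nsmul_le_sum C (mult A Q Y1) m hC
    simpa using this
  have hbip := Finset.sum_card_bipartiteAbove_eq_sum_card_bipartiteBelow
    (s := Orbs A Y1) (t := C) (fun O u => ∃ y ∈ O, u ∈ SS A Q y)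
  have h2 : ∑ u ∈ C, mult A Q Y1 u = ∑ O ∈ Orbs A Y1, (Finset.bipartiteAbove (fun O u => ∃ y ∈ O, u ∈ SS A Q y) C O).card := by
    rw [hbip]
    rfl
  calc a * (C.card * m) ≤ a * ∑ u ∈ C, mult A Q Y1 u := Nat.mul_le_mul_left _ h1
    _ = ∑ O ∈ Orbs A Y1, a * (Finset.bipartiteAbove (fun O u => ∃ y ∈ O, u ∈ SS A Q y) C O).card := by
      rw [h2, Finset.mul_sum]
    _ ≤ ∑ O ∈ Orbs A Y1, b * O.card := by
      apply Finset.sum_le_sum
      intro O hO
      obtain ⟨y, hy, rfl⟩ := mem_Orbs.mp hO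
      have e : Finset.bipartiteAbove (fun O u => ∃ y ∈ O, u ∈ SS A Q y) C (A.orb y) = C.filter (· ∈ SS A Q y) := by
        ext u
        simp only [Finset.mem_bipartiteAbove, Finset.mem_filter]
        rw [exists_SS_orb]
      rw [e, card_orb_eq (Q := Q)]
      exact hper y hy
    _ = b * Y1.card := by
      rw [card_eq_sum_orbs h, Finset.mul_sum]

open _root_.Classical in
/-- **The covering bound**: if every coset of a small subset of a subgroup leaves a set, then the set is a proper part of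
the subgroup. -/
theorem cover_bound {W : Type*} [AddCommGroup W] [Fintype W] (S : AddSubgroup W) (C D : Finset W) {a : ℕ} (ha : D.card ≤ a) (ha1 : 1 ≤ a)
    (hD : ∀ δ ∈ D, δ ∈ S) (hcov : ∀ z ∈ S, ∃ δ ∈ D, z + δ ∉ C) :
    a * (C.filter (· ∈ S)).card ≤ (a - 1) * Nat.card S := by
  set T := Finset.univ.filter (fun x : W => x ∈ S) with hT
  have hcardS : Nat.card S = T.card := by
    rw [Nat.card_eq_fintype_card, Fintype.card_subtype]
  set B := T.filter (fun x => x ∉ C) with hB
  have hsub : T ⊆ D.biUnion (fun δ => B.image (fun x => x - δ)) := by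
    intro z hz
    have hzS : z ∈ S := (Finset.mem_filter.1 hz).2
    obtain ⟨δ, hδ, h1⟩ := hcov z hzS
    refine Finset.mem_biUnion.2 ⟨δ, hδ, Finset.mem_image.2 ⟨z + δ, ?_, by abel⟩⟩
    exact Finset.mem_filter.2 ⟨Finset.mem_filter.2 ⟨Finset.mem_univ _, S.add_mem hzS (hD δ hδ)⟩, h1⟩
  have h1 : T.card ≤ a * B.card := by
    calc T.card ≤ (D.biUnion (fun δ => B.image (fun x => x - δ))).card := Finset.card_le_card hsub
      _ ≤ ∑ δ ∈ D, (B.image (fun x => x - δ)).card := Finset.card_biUnion_le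
      _ ≤ ∑ δ ∈ D, B.card := Finset.sum_le_sum (fun δ _ => Finset.card_image_le)
      _ = D.card * B.card := by rw [Finset.sum_const, smul_eq_mul]
      _ ≤ a * B.card := Nat.mul_le_mul_right _ ha
  have h2 : (C.filter (· ∈ S)).card + B.card = T.card := by
    have e : C.filter (· ∈ S) = T.filter (fun x => x ∈ C) := by
      ext x
      simp only [Finset.mem_filter, Finset.mem_univ, true_and, hT]
      tauto
    rw [e, hB]
    exact Finset.card_filter_add_card_filter_not _
  rw [hcardS]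
  obtain ⟨a', rfl⟩ : ∃ a', a = a' + 1 := ⟨a - 1, by omega⟩
  simp only [Nat.add_sub_cancel]
  rw [← h2] at h1 ⊢
  have e1 : (a' + 1) * (C.filter (· ∈ S)).card = a' * (C.filter (· ∈ S)).card + (C.filter (· ∈ S)).card := by ring
  have e2 : a' * ((C.filter (· ∈ S)).card + B.card) = a' * (C.filter (· ∈ S)).card + a' * B.card := by ring
  have e3 : (a' + 1) * B.card = a' * B.card + B.card := by ring
  omega

end Cfsg.Agent.Lib.MinIndex.M6.Ratio
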