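import Mathlib

/-!
# A group with an element of order seven and a small centralizer has no subgroup of index `81` containing it
-/

set_option autoImplicit false
set_option linter.unusedSectionVars false
set_option linter.unusedSimpArgs false
set_option linter.unusedVariables false

namespace Cfsg.Agent.Lib.MinIndex.M6.Seven

open scoped Pointwise

/-- Numbers. -/
theorem seven_num {n : ℕ} (h : n ∣ 6) (hm : 81 ≡ n [MOD 7]) : False := by
  have h1 : n ≤ 6 := Nat.le_of_dvd (by norm_num) h
  interval_cases n <;> revert h hm <;> decide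

/-- **The argument with an element of order seven.** -/
theorem seven_abstract {G : Type*} [Group G] [Finite G] (H' : Subgroup G) {g : G} (hg : g ∈ H') (hgo : orderOf g = 7)
    (h49 : ¬ 49 ∣ Nat.card G) (hidx : H'.index = 81)
    (hC : Nat.card (Subgroup.centralizer ((Subgroup.zpowers g : Subgroup G) : Set G)) ∣ 14)
    (hinv : ∀ y ∈ Subgroup.centralizer ((Subgroup.zpowers g : Subgroup G) : Set G), orderOf y = 2 → y ∈ H') : False := by
  classical
  haveI : Fact (Nat.Prime 7) := ⟨by norm_num⟩
  haveI : Fact (Nat.Prime 2) := ⟨by norm_num⟩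
  set P := Subgroup.zpowers g with hP
  have hcardP : Nat.card P = 7 := by rw [hP, Nat.card_zpowers, hgo]
  have hPH : P ≤ H' := Subgroup.zpowers_le.2 hg
  set N := Subgroup.normalizer (P : Set G) with hN
  set C := Subgroup.centralizer (P : Set G) with hCd
  have hCN : C ≤ N := by
    intro x hx
    rw [hN, Subgroup.mem_normalizer_iff]
    intro a
    rw [hCd, Subgroup.mem_centralizer_iff] at hx
    constructor
    · intro ha
      have e : x * a * x⁻¹ = a := by
        rw [← hx a ha]
        group
      rw [e]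
      exact ha
    · intro ha
      have e := hx _ ha
      have e' : a = x * a * x⁻¹ := by
        have e2 : x * (x * a * x⁻¹) = x * a := by
          rw [← e]
          group
        exact (mul_left_cancel e2).symm
      rw [e']
      exact ha
  have hPN : P ≤ N := Subgroup.le_normalizer
  -- the order of the normalizer
  obtain ⟨r, hr6, hNcard⟩ : ∃ r, r ∣ 6 ∧ Nat.card N = Nat.card C * r := by
    have hker := Subgroup.normalizerMonoidHom_ker P
    have h1 := Subgroup.card_mul_index (P.normalizerMonoidHom).ker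
    have h2 := Subgroup.index_ker (P.normalizerMonoidHom)
    have h3 : Nat.card (P.normalizerMonoidHom).ker = Nat.card C := by
      rw [hker]
      exact Nat.card_congr (Subgroup.subgroupOfEquivOfLe hCN).toEquiv
    refine ⟨Nat.card (P.normalizerMonoidHom).range, ?_, ?_⟩
    · have h4 := Subgroup.card_subgroup_dvd_card (P.normalizerMonoidHom).range
      have h5 : Nat.card (MulAut P) = 6 := by
        rw [IsCyclic.card_mulAut, hcardP]
        decide
      rwa [h5] at h4
    · rw [← h3, ← h2]
      exact h1.symm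
  -- the factorization
  have hcardH'G : Nat.card H' ∣ Nat.card G := Subgroup.card_subgroup_dvd_card H'
  have hGpos : Nat.card G ≠ 0 := Nat.card_pos.ne'
  have hH'pos : Nat.card H' ≠ 0 := Nat.card_pos.ne'
  have h7H' : 7 ∣ Nat.card H' := by
    rw [← hcardP]
    exact Subgroup.card_dvd_of_le hPH
  have hfac : (Nat.card H').factorization 7 = 1 := by
    have h1 : 1 ≤ (Nat.card H').factorization 7 :=
      ((Fact.out : Nat.Prime 7).pow_dvd_iff_le_factorization hH'pos).1 (by simpa using h7H')
    have h2 : ¬ 2 ≤ (Nat.card H').factorization 7 := by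
      intro h3
      have h4 := ((Fact.out : Nat.Prime 7).pow_dvd_iff_le_factorization hH'pos).2 h3
      apply h49
      exact (show (49 : ℕ) = 7 ^ 2 by norm_num) ▸ h4.trans hcardH'G
    omega
  -- fixed points are the orbit of the normalizer
  set ω₀ : G ⧸ H' := ((1 : G) : G ⧸ H') with hω₀
  have hfix : (MulAction.orbit N ω₀ : Set (G ⧸ H')) = MulAction.fixedPoints P (G ⧸ H') := by
    ext ω
    constructor
    · rintro ⟨n, rfl⟩ ⟨p, hp⟩
      show ((p * ((n : G) * 1) : G) : G ⧸ H') = (((n : G) * 1 : G) : G ⧸ H')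
      rw [QuotientGroup.eq]
      have h1 : (n : G)⁻¹ * p⁻¹ * (n : G) ∈ P := by
        have h2 := (Subgroup.mem_normalizer_iff.1 (N.inv_mem n.2) p⁻¹).1 (P.inv_mem hp)
        rwa [inv_inv] at h2
      have e : (p * ((n : G) * 1))⁻¹ * ((n : G) * 1) = (n : G)⁻¹ * p⁻¹ * (n : G) := by group
      rw [e]
      exact hPH h1
    · intro hω
      obtain ⟨k, rfl⟩ := QuotientGroup.mk_surjective ω
      have hk : ∀ p ∈ P, k⁻¹ * p * k ∈ H' := by
        intro p hp
        have h1 : ((⟨p⁻¹, P.inv_mem hp⟩ : P) : G) • ((k : G) : G ⧸ H') = ((k : G) : G ⧸ H') := hω ⟨p⁻¹, P.inv_mem hp⟩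
        have h2 : ((p⁻¹ * k : G) : G ⧸ H') = ((k : G) : G ⧸ H') := h1
        rw [QuotientGroup.eq] at h2
        have e : (p⁻¹ * k)⁻¹ * k = k⁻¹ * p * k := by group
        rwa [e] at h2
      set P' := P.map (MulAut.conj k⁻¹).toMonoidHom with hP'
      have hP'H : P' ≤ H' := by
        rintro _ ⟨p, hp, rfl⟩
        have e : (MulAut.conj k⁻¹).toMonoidHom p = k⁻¹ * p * k := by
          simp [MulAut.conj_apply]
        rw [e]
        exact hk p hp
      have hcardP' : Nat.card P' = 7 := by
        rw [hP', Subgroup.card_map_of_injective (MulEquiv.injective _), hcardP]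
      set S₁ := P'.subgroupOf H' with hS₁
      set S₂ := P.subgroupOf H' with hS₂
      have hc₁ : Nat.card S₁ = 7 ^ (Nat.card H').factorization 7 := by
        rw [hfac, pow_one, ← hcardP']
        exact Nat.card_congr (Subgroup.subgroupOfEquivOfLe hP'H).toEquiv
      have hc₂ : Nat.card S₂ = 7 ^ (Nat.card H').factorization 7 := by
        rw [hfac, pow_one, ← hcardP]
        exact Nat.card_congr (Subgroup.subgroupOfEquivOfLe hPH).toEquiv
      obtain ⟨h, hh⟩ := MulAction.exists_smul_eq H' (Sylow.ofCard S₁ hc₁) (Sylow.ofCard S₂ hc₂)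
      have hh' : MulAut.conj h • S₁ = S₂ := by
        have h1 := congrArg (fun s : Sylow 7 H' => (s : Subgroup H')) hh
        simpa [Sylow.coe_subgroup_smul, Sylow.coe_ofCard] using h1
      have key : ∀ p ∈ P, (h : G) * (k⁻¹ * p * k) * (h : G)⁻¹ ∈ P := by
        intro p hp
        have ha : (⟨k⁻¹ * p * k, hk p hp⟩ : H') ∈ S₁ := by
          rw [hS₁, Subgroup.mem_subgroupOf]
          refine ⟨p, hp, ?_⟩
          simp [MulAut.conj_apply]
        have h1 := Subgroup.smul_mem_pointwise_smul _ (MulAut.conj h) S₁ ha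
        rw [hh', hS₂, Subgroup.mem_subgroupOf] at h1
        simpa [MulAut.conj_apply] using h1
      set n := k * (h : G)⁻¹ with hn
      have hnmap : P.map (MulAut.conj n⁻¹).toMonoidHom ≤ P := by
        rintro _ ⟨p, hp, rfl⟩
        have e : (MulAut.conj n⁻¹).toMonoidHom p = (h : G) * (k⁻¹ * p * k) * (h : G)⁻¹ := by
          simp [MulAut.conj_apply, hn, mul_assoc]
        rw [e]
        exact key p hp
      have hneq : P.map (MulAut.conj n⁻¹).toMonoidHom = P := by
        apply Subgroup.eq_of_le_of_card_ge hnmap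
        rw [Subgroup.card_map_of_injective (MulEquiv.injective _)]
      have hnN : n⁻¹ ∈ N := by
        rw [hN, Subgroup.mem_normalizer_iff]
        intro a
        constructor
        · intro ha
          have h1 : (MulAut.conj n⁻¹).toMonoidHom a ∈ P := hnmap ⟨a, ha, rfl⟩
          simpa [MulAut.conj_apply] using h1
        · intro ha
          have ha' : n⁻¹ * a * n⁻¹⁻¹ ∈ P := ha
          rw [← hneq] at ha'
          obtain ⟨b, hb, e⟩ := ha'
          have e' : n⁻¹ * b * n = n⁻¹ * a * n := by
            have e2 : (MulAut.conj n⁻¹).toMonoidHom b = n⁻¹ * b * n := by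
              simp [MulAut.conj_apply]
            rw [← e2, e]
            simp
          have e3 : b = a := by
            have e4 := mul_right_cancel e'
            exact mul_left_cancel e4
          rw [← e3]
          exact hb
      have hnN' : n ∈ N := by
        have := N.inv_mem hnN
        rwa [inv_inv] at this
      refine ⟨⟨n, hnN'⟩, ?_⟩
      show ((n * 1 : G) : G ⧸ H') = ((k : G) : G ⧸ H')
      rw [QuotientGroup.eq, hn]
      have e : (k * (h : G)⁻¹ * 1)⁻¹ * k = (h : G) := by group
      rw [e]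
      exact h.2
  -- the count
  set S₀ := MulAction.stabilizer N ω₀ with hS₀
  have hcard1 : Nat.card S₀ * (MulAction.orbit N ω₀).ncard = Nat.card N := by
    rw [← MulAction.index_stabilizer, ← hS₀]
    exact Subgroup.card_mul_index S₀
  have hmem : ∀ (y : G) (hy : y ∈ N), y ∈ H' → (⟨y, hy⟩ : N) ∈ S₀ := by
    intro y hy hyH
    rw [hS₀, MulAction.mem_stabilizer_iff]
    show ((y * 1 : G) : G ⧸ H') = ((1 : G) : G ⧸ H')
    rw [QuotientGroup.eq]
    simpa using hyH
  have hgP : g ∈ P := Subgroup.mem_zpowers g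
  have h7 : 7 ∣ Nat.card S₀ := by
    have h1 := orderOf_dvd_natCard (⟨⟨g, hPN hgP⟩, hmem g _ hg⟩ : S₀)
    rw [Subgroup.orderOf_mk, Subgroup.orderOf_mk, hgo] at h1
    exact h1
  have hCS : Nat.card C ∣ Nat.card S₀ := by
    by_cases h2C : 2 ∣ Nat.card C
    · obtain ⟨y, hy⟩ := exists_prime_orderOf_dvd_card' (G := C) 2 h2C
      have hy' : orderOf (y : G) = 2 := by
        rw [← hy]
        exact (Subgroup.orderOf_coe y)
      have hyH := hinv y.1 y.2 hy'
      have h2 : 2 ∣ Nat.card S₀ := by
        have h1 := orderOf_dvd_natCard (⟨⟨y.1, hCN y.2⟩, hmem y.1 _ hyH⟩ : S₀)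
        rw [Subgroup.orderOf_mk, Subgroup.orderOf_mk, hy'] at h1
        exact h1
      have h14 : 14 ∣ Nat.card S₀ := by
        have e : (14 : ℕ) = 2 * 7 := by norm_num
        rw [e]
        exact Nat.Coprime.mul_dvd_of_dvd_of_dvd (by norm_num) h2 h7
      exact hC.trans h14
    · have hC7 : Nat.card C ∣ 7 := by
        have e : (14 : ℕ) = 2 * 7 := by norm_num
        rw [e] at hC
        exact (Nat.Coprime.dvd_of_dvd_mul_left ((Nat.Prime.coprime_iff_not_dvd (by norm_num)).2 h2C).symm hC)
      exact hC7.trans h7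
  obtain ⟨m, hm⟩ := hCS
  have hCpos : 0 < Nat.card C := Nat.card_pos
  have hOr : (MulAction.orbit N ω₀).ncard ∣ r := by
    refine ⟨m, ?_⟩
    apply Nat.eq_of_mul_eq_mul_left hCpos
    rw [← hNcard, ← hcard1, hm]
    ring
  have hO6 := hOr.trans hr6
  have hP7 : IsPGroup 7 P := IsPGroup.of_card (n := 1) (by rw [hcardP, pow_one])
  have hmod := hP7.card_modEq_card_fixedPoints (G ⧸ H')
  have e81 : Nat.card (G ⧸ H') = 81 := hidx
  rw [e81, ← hfix, Nat.card_coe_set_eq] at hmod
  exact seven_num hO6 hmod

end Cfsg.Agent.Lib.MinIndex.M6.Seven
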