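import Mathlib
import Cfsg.Agent.Lib.MinIndex.M6.Ratio

/-!
# Isometries squaring to minus the identity in dimension six over the field with three elements are not in `Ω`
-/

set_option autoImplicit false
set_option linter.unusedSectionVars false
set_option linter.unusedSimpArgs false
set_option linter.unusedVariables false

namespace Cfsg.Agent.Lib.MinIndex.M6.Spin

open Matrix QuadraticMap Module
open Cfsg.Agent.Lib.Classical.Orth.Basic
open Cfsg.Agent.Lib.Classical.Orth.Spinor
open Cfsg.Agent.Lib.MinIndex.M6.Base Cfsg.Agent.Lib.MinIndex.M6.Vec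

variable {ι : Type} [Fintype ι] [DecidableEq ι] {F : Type*} [Field F] [Fintype F]
variable {Q : QuadraticForm F (ι → F)} [OC Q]

set_option quotPrecheck false in
local notation "𝔣" => polar (⇑Q)

/-- A nonsingular vector perpendicular to pairwise perpendicular nonsingular vectors. -/
theorem exists_perp_list {k : ℕ} (hk : k < 6) (h2 : (2 : F) ≠ 0) (u : Fin k → ι → F) (hQ : ∀ i, Q (u i) ≠ 0)
    (hp : ∀ i j, i ≠ j → 𝔣 (u i) (u j) = 0) : ∃ w, Q w ≠ 0 ∧ ∀ i, 𝔣 (u i) w = 0 := by
  classical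
  have hdim := OC.dim (Q := Q)
  obtain ⟨b, hb, hb0⟩ := exists_orth_vec (Q := Q) u (⊥ : Submodule F (ι → F)) (by
    rw [finrank_bot]
    omega)
  have hb0' : b ≠ 0 := fun e => hb0 (by rw [e]; exact Submodule.zero_mem _)
  have hle : Submodule.span F (Set.range u) ≤ LinearMap.ker (polarBilin Q b) := by
    rw [Submodule.span_le]
    rintro _ ⟨i, rfl⟩
    show polar (⇑Q) b _ = 0
    rw [polar_symm]
    exact hb i
  have hnot : b ∉ Submodule.span F (Set.range u) := by
    intro hm
    obtain ⟨t, ht⟩ := (Submodule.mem_span_range_iff_exists_fun F).1 hm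
    have hzero : ∀ j, t j = 0 := by
      intro j
      have h1 : polarBilin Q (u j) b = 0 := hb j
      rw [← ht, map_sum, Finset.sum_eq_single j] at h1
      · rw [map_smul, smul_eq_mul] at h1
        have h3 : polarBilin Q (u j) (u j) = 2 * Q (u j) := polar_self_eq Q (u j)
        rw [h3] at h1
        exact (mul_eq_zero.1 h1).resolve_right (mul_ne_zero h2 (hQ j))
      · intro i _ hij
        rw [map_smul, smul_eq_mul]
        have h3 : polarBilin Q (u j) (u i) = 0 := hp j i hij.symm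
        rw [h3, mul_zero]
      · simp
    apply hb0'
    rw [← ht]
    simp [hzero]
  obtain ⟨v, hv1, hv2⟩ := exists_nonsing_of_perp (Q := Q) (U := Submodule.span F (Set.range u)) (by
    intro z hz
    have h3 : polar (⇑Q) b z = 0 := hle hz
    rw [polar_symm]
    exact h3) hnot
  exact ⟨v, hv1, fun i => hv2 _ (Submodule.subset_span ⟨i, rfl⟩)⟩

section Sq

variable (x : ↥(Cfsg.isometryGroup F (⇑Q))) (hx : ∀ v, act x (act x v) = -v) (h2 : (2 : F) ≠ 0)

include hx h2

theorem polar_self_x (v : ι → F) : 𝔣 v (act x v) = 0 := by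
  have h1 := polar_act x v (act x v)
  rw [hx, polar_neg_right, polar_symm] at h1
  have h3 : 2 * 𝔣 v (act x v) = 0 := by linear_combination -h1
  exact (mul_eq_zero.1 h3).resolve_left h2

omit hx h2 in
theorem Q_x (v : ι → F) : Q (act x v) = Q v := Q_act x v

theorem Q_w (v : ι → F) : Q (v - act x v) = 2 * Q v := by
  rw [Q_sub, Q_act, polar_self_x x hx h2]
  ring

/-- The product of two reflections for a plane. -/
noncomputable def RR (x : ↥(Cfsg.isometryGroup F (⇑Q))) (v : ι → F) (hv : Q v ≠ 0) (hw : Q (v - act x v) ≠ 0) :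
    ↥(Cfsg.isometryGroup F (⇑Q)) := reflectionIso Q v hv * reflectionIso Q (v - act x v) hw

theorem RR_self {v : ι → F} (hv : Q v ≠ 0) (hw : Q (v - act x v) ≠ 0) : act (RR x v hv hw) v = act x v := by
  have h0 := polar_self_x x hx h2 v
  have e1 : 𝔣 (v - act x v) v = 2 * Q v := by
    rw [polar_sub_left, polar_self_eq, polar_symm (act x v) v, h0]
    ring
  rw [RR, act_mul, reflectionIso_act (v - act x v) hw, e1, Q_w x hx h2, inv_mul_cancel₀ (mul_ne_zero h2 hv), one_smul, sub_sub_cancel,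
    reflectionIso_act, h0]
  simp

theorem RR_x {v : ι → F} (hv : Q v ≠ 0) (hw : Q (v - act x v) ≠ 0) : act (RR x v hv hw) (act x v) = -v := by
  have h0 := polar_self_x x hx h2 v
  have e1 : 𝔣 (v - act x v) (act x v) = -(2 * Q v) := by
    rw [polar_sub_left, h0, polar_self_eq, Q_act]
    ring
  have e2 : (Q (v - act x v))⁻¹ * -(2 * Q v) = -1 := by
    rw [Q_w x hx h2]
    field_simp
  rw [RR, act_mul, reflectionIso_act (v - act x v) hw, e1, e2, reflectionIso_act]
  have e3 : act x v - (-1 : F) • (v - act x v) = v := by module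
  rw [e3, polar_self_eq]
  have e4 : (Q v)⁻¹ * (2 * Q v) = 2 := by field_simp
  rw [e4, two_smul]
  abel

omit hx h2 in
theorem RR_fix {v z : ι → F} (hv : Q v ≠ 0) (hw : Q (v - act x v) ≠ 0) (h1 : 𝔣 v z = 0) (h3 : 𝔣 (act x v) z = 0) :
    act (RR x v hv hw) z = z := by
  rw [RR, act_mul, reflectionIso_act (v - act x v) hw, polar_sub_left, h1, h3, reflectionIso_act, sub_zero]
  simp [h1]

/-- The sign of the product of two reflections. -/
theorem RR_sign (hsq : ∀ t : F, t ≠ 0 → (IsSquare t ↔ ¬ IsSquare (2 * t))) {v : ι → F} (hv : Q v ≠ 0) (hw : Q (v - act x v) ≠ 0) :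
    spinorSign Q h2 (RR x v hv hw) = -1 := by
  classical
  rw [RR, map_mul, spinorSign_reflection, spinorSign_reflection, Q_w x hx h2]
  by_cases h : IsSquare (Q v)
  · rw [if_pos h, if_neg ((hsq _ hv).1 h)]
    rfl
  · have h3 : IsSquare (2 * Q v) := by
      by_contra h4
      exact h ((hsq _ hv).2 h4)
    rw [if_neg h, if_pos h3]
    rfl

/-- The relations for two planes. -/
theorem perp_x {v z : ι → F} (h1 : 𝔣 v z = 0) (h3 : 𝔣 (act x v) z = 0) :
    𝔣 v (act x z) = 0 ∧ 𝔣 (act x v) (act x z) = 0 := by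
  constructor
  · have h4 := polar_act x (act x v) z
    rw [hx, polar_neg_left, h3] at h4
    have h5 := neg_eq_zero.1 h4
    exact h5
  · rw [polar_act]
    exact h1

/-- **An isometry squaring to minus one is not in `Ω`.** -/
theorem sqrt_neg_one_not_mem (hsq : ∀ t : F, t ≠ 0 → (IsSquare t ↔ ¬ IsSquare (2 * t))) : x ∉ Cfsg.Omega F (⇑Q) := by
  classical
  have hdim := OC.dim (Q := Q)
  intro hmem
  have hQw : ∀ v, Q v ≠ 0 → Q (v - act x v) ≠ 0 := by
    intro v hv
    rw [Q_w x hx h2]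
    exact mul_ne_zero h2 hv
  have hp0 := polar_self_x x hx h2
  have hp0' : ∀ v, 𝔣 (act x v) v = 0 := fun v => by rw [polar_symm]; exact hp0 v
  obtain ⟨v₁, hv₁, -⟩ := exists_perp_list (Q := Q) (k := 0) (by norm_num) h2 ![] (fun i => i.elim0) (fun i => i.elim0)
  obtain ⟨v₂, hv₂, h12⟩ := exists_perp_list (Q := Q) (k := 2) (by norm_num) h2 ![v₁, act x v₁] (by
    intro i
    fin_cases i
    · exact hv₁
    · simpa [Q_act] using hv₁) (by
    intro i j hij
    fin_cases i <;> fin_cases j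
    · exact absurd rfl hij
    · exact hp0 v₁
    · exact hp0' v₁
    · exact absurd rfl hij)
  have h1a : 𝔣 v₁ v₂ = 0 := h12 0
  have h1b : 𝔣 (act x v₁) v₂ = 0 := h12 1
  obtain ⟨h1c, h1d⟩ := perp_x x hx h2 h1a h1b
  obtain ⟨v₃, hv₃, h123⟩ := exists_perp_list (Q := Q) (k := 4) (by norm_num) h2 ![v₁, act x v₁, v₂, act x v₂] (by
    intro i
    fin_cases i
    · exact hv₁
    · simpa [Q_act] using hv₁
    · exact hv₂
    · simpa [Q_act] using hv₂) (by
    intro i j hij
    have s1 : 𝔣 v₂ v₁ = 0 := by rw [polar_symm]; exact h1a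
    have s2 : 𝔣 v₂ (act x v₁) = 0 := by rw [polar_symm]; exact h1b
    have s3 : 𝔣 (act x v₂) v₁ = 0 := by rw [polar_symm]; exact h1c
    have s4 : 𝔣 (act x v₂) (act x v₁) = 0 := by rw [polar_symm]; exact h1d
    fin_cases i <;> fin_cases j
    · exact absurd rfl hij
    · exact hp0 v₁
    · exact h1a
    · exact h1c
    · exact hp0' v₁
    · exact absurd rfl hij
    · exact h1b
    · exact h1d
    · exact s1
    · exact s2
    · exact absurd rfl hij
    · exact hp0 v₂
    · exact s3
    · exact s4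
    · exact hp0' v₂
    · exact absurd rfl hij)
  have h3a : 𝔣 v₁ v₃ = 0 := h123 0
  have h3b : 𝔣 (act x v₁) v₃ = 0 := h123 1
  have h3c : 𝔣 v₂ v₃ = 0 := h123 2
  have h3d : 𝔣 (act x v₂) v₃ = 0 := h123 3
  obtain ⟨h3e, h3f⟩ := perp_x x hx h2 h3a h3b
  obtain ⟨h3g, h3h⟩ := perp_x x hx h2 h3c h3d
  set R₁ := RR x v₁ hv₁ (hQw _ hv₁) with hR₁
  set R₂ := RR x v₂ hv₂ (hQw _ hv₂) with hR₂
  set R₃ := RR x v₃ hv₃ (hQw _ hv₃) with hR₃
  -- the symmetric relations
  have s1 : 𝔣 v₂ v₁ = 0 := by rw [polar_symm]; exact h1a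
  have s2 : 𝔣 (act x v₂) v₁ = 0 := by rw [polar_symm]; exact h1c
  have s3 : 𝔣 v₂ (act x v₁) = 0 := by rw [polar_symm]; exact h1b
  have s4 : 𝔣 (act x v₂) (act x v₁) = 0 := by rw [polar_symm]; exact h1d
  have s5 : 𝔣 v₃ v₁ = 0 := by rw [polar_symm]; exact h3a
  have s6 : 𝔣 (act x v₃) v₁ = 0 := by rw [polar_symm]; exact h3e
  have s7 : 𝔣 v₃ (act x v₁) = 0 := by rw [polar_symm]; exact h3b
  have s8 : 𝔣 (act x v₃) (act x v₁) = 0 := by rw [polar_symm]; exact h3f
  have s9 : 𝔣 v₃ v₂ = 0 := by rw [polar_symm]; exact h3c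
  have s10 : 𝔣 (act x v₃) v₂ = 0 := by rw [polar_symm]; exact h3g
  have s11 : 𝔣 v₃ (act x v₂) = 0 := by rw [polar_symm]; exact h3d
  have s12 : 𝔣 (act x v₃) (act x v₂) = 0 := by rw [polar_symm]; exact h3h
  -- the action on the six vectors
  have r3v1 : act R₃ v₁ = v₁ := RR_fix x _ _ s5 s6
  have r3x1 : act R₃ (act x v₁) = act x v₁ := RR_fix x _ _ s7 s8
  have r3v2 : act R₃ v₂ = v₂ := RR_fix x _ _ s9 s10
  have r3x2 : act R₃ (act x v₂) = act x v₂ := RR_fix x _ _ s11 s12
  have r2v1 : act R₂ v₁ = v₁ := RR_fix x _ _ s1 s2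
  have r2x1 : act R₂ (act x v₁) = act x v₁ := RR_fix x _ _ s3 s4
  have r2v3 : act R₂ v₃ = v₃ := RR_fix x _ _ h3c h3d
  have r2x3 : act R₂ (act x v₃) = act x v₃ := RR_fix x _ _ h3g h3h
  have r1v2 : act R₁ v₂ = v₂ := RR_fix x _ _ h1a h1b
  have r1x2 : act R₁ (act x v₂) = act x v₂ := RR_fix x _ _ h1c h1d
  have r1v3 : act R₁ v₃ = v₃ := RR_fix x _ _ h3a h3b
  have r1x3 : act R₁ (act x v₃) = act x v₃ := RR_fix x _ _ h3e h3f
  have r1s := RR_self x hx h2 hv₁ (hQw _ hv₁)
  have r1t := RR_x x hx h2 hv₁ (hQw _ hv₁)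
  have r2s := RR_self x hx h2 hv₂ (hQw _ hv₂)
  have r2t := RR_x x hx h2 hv₂ (hQw _ hv₂)
  have r3s := RR_self x hx h2 hv₃ (hQw _ hv₃)
  have r3t := RR_x x hx h2 hv₃ (hQw _ hv₃)
  rw [← hR₁] at r1s r1t
  rw [← hR₂] at r2s r2t
  rw [← hR₃] at r3s r3t
  have hneg : ∀ (g : ↥(Cfsg.isometryGroup F (⇑Q))) (z : ι → F), act g (-z) = -act g z := fun g z => act_neg g z
  -- the agreement
  set b : Fin 6 → ι → F := ![v₁, act x v₁, v₂, act x v₂, v₃, act x v₃] with hb
  have hagree : ∀ i, act (R₁ * R₂ * R₃) (b i) = act x (b i) := by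
    intro i
    rw [act_mul, act_mul]
    fin_cases i
    · show act R₁ (act R₂ (act R₃ v₁)) = act x v₁
      rw [r3v1, r2v1, r1s]
    · show act R₁ (act R₂ (act R₃ (act x v₁))) = act x (act x v₁)
      rw [r3x1, r2x1, r1t, hx]
    · show act R₁ (act R₂ (act R₃ v₂)) = act x v₂
      rw [r3v2, r2s, r1x2]
    · show act R₁ (act R₂ (act R₃ (act x v₂))) = act x (act x v₂)
      rw [r3x2, r2t, hneg, r1v2, hx]
    · show act R₁ (act R₂ (act R₃ v₃)) = act x v₃
      rw [r3s, r2x3, r1x3]
    · show act R₁ (act R₂ (act R₃ (act x v₃))) = act x (act x v₃)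
      rw [r3t, hneg, r2v3, hneg, r1v3, hx]
  -- the vectors are independent
  have hQb : ∀ i, Q (b i) ≠ 0 := by
    intro i
    fin_cases i
    · exact hv₁
    · simpa [hb, Q_act] using hv₁
    · exact hv₂
    · simpa [hb, Q_act] using hv₂
    · exact hv₃
    · simpa [hb, Q_act] using hv₃
  have hbp : ∀ i j, i ≠ j → 𝔣 (b i) (b j) = 0 := by
    intro i j hij
    fin_cases i <;> fin_cases j
    · exact absurd rfl hij
    · exact hp0 v₁
    · exact h1a
    · exact h1c
    · exact h3a
    · exact h3e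
    · exact hp0' v₁
    · exact absurd rfl hij
    · exact h1b
    · exact h1d
    · exact h3b
    · exact h3f
    · exact s1
    · exact s3
    · exact absurd rfl hij
    · exact hp0 v₂
    · exact h3c
    · exact h3g
    · exact s2
    · exact s4
    · exact hp0' v₂
    · exact absurd rfl hij
    · exact h3d
    · exact h3h
    · exact s5
    · exact s7
    · exact s9
    · exact s11
    · exact absurd rfl hij
    · exact hp0 v₃
    · exact s6
    · exact s8
    · exact s10
    · exact s12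
    · exact hp0' v₃
    · exact absurd rfl hij
  have hli : LinearIndependent F b := by
    rw [Fintype.linearIndependent_iff]
    intro t ht j
    have h1 : polarBilin Q (b j) (∑ i, t i • b i) = 0 := by
      rw [ht, map_zero]
    rw [map_sum, Finset.sum_eq_single j] at h1
    · rw [map_smul, smul_eq_mul] at h1
      have h3 : polarBilin Q (b j) (b j) = 2 * Q (b j) := polar_self_eq Q (b j)
      rw [h3] at h1
      exact (mul_eq_zero.1 h1).resolve_right (mul_ne_zero h2 (hQb j))
    · intro i _ hij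
      rw [map_smul, smul_eq_mul]
      have h3 : polarBilin Q (b j) (b i) = 0 := hbp j i hij.symm
      rw [h3, mul_zero]
    · simp
  have hspan : Submodule.span F (Set.range b) = ⊤ :=
    hli.span_eq_top_of_card_eq_finrank' (by
      rw [Fintype.card_fin, finrank_fintype_fun_eq_card, hdim])
  have heq : R₁ * R₂ * R₃ = x := by
    have hall : ∀ z : ι → F, act (R₁ * R₂ * R₃) z = act x z := by
      intro z
      have hz : z ∈ Submodule.span F (Set.range b) := by
        rw [hspan]
        exact Submodule.mem_top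
      induction hz using Submodule.span_induction with
      | mem y hy =>
        obtain ⟨i, rfl⟩ := hy
        exact hagree i
      | zero => rw [act_zero, act_zero]
      | add y y' _ _ h5 h6 => rw [act_add, act_add, h5, h6]
      | smul s y _ h5 => rw [act_smul, act_smul, h5]
    apply Subtype.ext
    apply Units.ext
    apply Matrix.ext_of_mulVec_single
    intro j
    exact hall _
  have hs := ((mem_omega_iff Q OC.nd h2 x).1 hmem).2
  rw [← heq, map_mul, map_mul, hR₁, hR₂, hR₃, RR_sign x hx h2 hsq, RR_sign x hx h2 hsq, RR_sign x hx h2 hsq] at hs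
  exact absurd hs (by decide)

end Sq

end Cfsg.Agent.Lib.MinIndex.M6.Spin
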