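import Mathlib
import Cfsg.Agent.Lib.MinIndex.M6.Ratio
import Cfsg.Agent.Lib.MinIndex.M6.Spin
import Cfsg.Agent.Lib.MinIndex.M6.Seven
import Cfsg.Agent.Lib.MinIndex.OT8

/-!
# Minimal degree of the orthogonal group of minus type in dimension six over the field with three elements
-/

set_option autoImplicit false
set_option linter.unusedSectionVars false
set_option linter.unusedSimpArgs false
set_option linter.unusedVariables false

namespace Cfsg.Agent.Lib.MinIndex.M6.Three

open Matrix QuadraticMap Module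
open Cfsg.Agent.Lib.Classical.Orth.Basic
open Cfsg.Agent.Lib.Classical.Orth.Models
open Cfsg.Agent.Lib.Classical.Witt.Hyp
open Cfsg.Agent.Lib.MinIndex.SpCount Cfsg.Agent.Lib.MinIndex.UCount
open Cfsg.Agent.Lib.MinIndex.M6.Base Cfsg.Agent.Lib.MinIndex.M6.Vec Cfsg.Agent.Lib.MinIndex.M6.Good
open Cfsg.Agent.Lib.MinIndex.M6.Types Cfsg.Agent.Lib.MinIndex.M6.Line Cfsg.Agent.Lib.MinIndex.M6.Step
open Cfsg.Agent.Lib.MinIndex.M6.Reg Cfsg.Agent.Lib.MinIndex.M6.Fix Cfsg.Agent.Lib.MinIndex.M6.Count
open Cfsg.Agent.Lib.MinIndex.M6.Final Cfsg.Agent.Lib.MinIndex.M6.Small Cfsg.Agent.Lib.MinIndex.M6.Ratio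
open Cfsg.Agent.Lib.MinIndex.M6.Seven
open Cfsg.Agent.Lib.MinIndex.OT8 (three_eq_zero two_ne_zero_of_three elts_three not_sq_neg_one)

/-- A free action of a finite group: its order divides the number of points. -/
theorem card_dvd_of_free {C X : Type*} [Group C] [Finite C] [MulAction C X] [Finite X]
    (hfree : ∀ (c : C) (x : X), c • x = x → c = 1) : Nat.card C ∣ Nat.card X := by
  classical
  haveI : Fintype (MulAction.orbitRel.Quotient C X) := Fintype.ofFinite _
  rw [Nat.card_congr (MulAction.selfEquivSigmaOrbitsQuotientStabilizer C X), Nat.card_sigma]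
  apply Finset.dvd_sum
  intro ω _
  have hb : MulAction.stabilizer C (Quotient.out ω) = ⊥ := by
    rw [eq_bot_iff]
    intro c hc
    exact hfree c _ hc
  rw [hb]
  exact (Nat.card_congr (QuotientGroup.quotientBot (G := C)).toEquiv).symm.dvd

/-- Numbers. -/
theorem pow_three_mod {k : ℕ} (hk : k ≤ 6) (h : 3 ^ k ≡ 1 [MOD 7]) : k = 0 ∨ k = 6 := by
  interval_cases k <;> revert h <;> decide

/-- Numbers. -/
theorem dvd_14 {n : ℕ} (h : n ∣ 224) (h4 : ¬ 4 ∣ n) : n ∣ 14 := by
  have h1 : n ≤ 224 := Nat.le_of_dvd (by norm_num) h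
  interval_cases n <;> omega

variable {ι : Type} [Fintype ι] [DecidableEq ι] {F : Type*} [Field F] [Fintype F]
variable {Q : QuadraticForm F (ι → F)} [OC Q]

set_option quotPrecheck false in
local notation "𝔣" => polar (⇑Q)

variable {c c' : ι → F}

/-- The subspace of vectors fixed by an isometry. -/
def fixS (x : GG Q) : Submodule F (ι → F) where
  carrier := {v | act x.1 v = v}
  add_mem' := by
    intro a b ha hb
    have ha' : act x.1 a = a := ha
    have hb' : act x.1 b = b := hb
    show act x.1 (a + b) = a + b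
    rw [act_add, ha', hb']
  zero_mem' := act_zero _
  smul_mem' := by
    intro t a ha
    have ha' : act x.1 a = a := ha
    show act x.1 (t • a) = t • a
    rw [act_smul, ha']

theorem mem_fixS {x : GG Q} {v : ι → F} : v ∈ fixS x ↔ act x.1 v = v := Iff.rfl

theorem fixS_top {x : GG Q} (h : fixS x = ⊤) : x = 1 := by
  apply ext_GG
  intro v
  rw [act_GG_one]
  have : v ∈ fixS x := by
    rw [h]
    trivial
  exact this

/-- Counting fixed points of an element of order seven. -/
theorem fix_modEq (g : GG Q) (h7 : g ^ 7 = 1) (U : Submodule F (ι → F)) (hU : ∀ u ∈ U, act g.1 u ∈ U) :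
    Nat.card U ≡ Nat.card (U ⊓ fixS g : Submodule F (ι → F)) [MOD 7] := by
  classical
  haveI : Fact (Nat.Prime 7) := ⟨by norm_num⟩
  let f : Function.End U := fun u => ⟨act g.1 u.1, hU _ u.2⟩
  have hpow : ∀ (k : ℕ) (u : U), ((f ^ k) u).1 = act (g ^ k).1 u.1 := by
    intro k u
    induction k with
    | zero =>
      rw [pow_zero, pow_zero]
      exact (act_GG_one _).symm
    | succ n ih =>
      rw [pow_succ', pow_succ', act_GG_mul, ← ih]
      rfl
  have hf : f ^ 7 ^ 1 = 1 := by
    funext u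
    apply Subtype.ext
    rw [pow_one, hpow, h7]
    exact act_GG_one _
  have h1 := Equiv.Perm.card_fixedPoints_modEq (f := f) (p := 7) (n := 1) hf
  have e1 : Nat.card U = Fintype.card U := Nat.card_eq_fintype_card
  have e2 : Nat.card (U ⊓ fixS g : Submodule F (ι → F)) = Fintype.card f.fixedPoints := by
    rw [← Nat.card_eq_fintype_card]
    refine Nat.card_congr ⟨fun x => ⟨⟨x.1, (Submodule.mem_inf.1 x.2).1⟩, ?_⟩,
      fun x => ⟨x.1.1, Submodule.mem_inf.2 ⟨x.1.2, ?_⟩⟩, ?_, ?_⟩
    · apply Subtype.ext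
      exact (Submodule.mem_inf.1 x.2).2
    · exact congrArg Subtype.val x.2
    · intro x
      rfl
    · intro x
      rfl
  rw [e1, e2]
  exact h1

section Seven

variable (hF : Fintype.card F = 3)

include hF

/-- The number of vectors of a subspace. -/
theorem card_sub (U : Submodule F (ι → F)) : Nat.card U = 3 ^ finrank F U := by
  rw [Module.natCard_eq_pow_finrank (K := F), Nat.card_eq_fintype_card, hF]

omit hF in
theorem finrank_sub_le (Q' : QuadraticForm F (ι → F)) [OC Q'] (U : Submodule F (ι → F)) : finrank F U ≤ 6 := by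
  have h1 := Submodule.finrank_le U
  rw [Module.finrank_fintype_fun_eq_card, OC.dim (Q := Q')] at h1
  exact h1

/-- An element of order seven has no nonzero fixed vectors. -/
theorem fixS_seven {g : GG Q} (hg : orderOf g = 7) : fixS g = ⊥ := by
  have h7 : g ^ 7 = 1 := by
    rw [← hg]
    exact pow_orderOf_eq_one g
  have h1 := fix_modEq g h7 ⊤ (fun _ _ => Submodule.mem_top)
  rw [top_inf_eq, card_sub hF, card_sub hF, finrank_top, Module.finrank_fintype_fun_eq_card, OC.dim (Q := Q)] at h1
  have h2 : 3 ^ finrank F (fixS g) ≡ 1 [MOD 7] := h1.symm.trans (by decide)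
  rcases pow_three_mod (finrank_sub_le Q _) h2 with h3 | h3
  · exact Submodule.finrank_eq_zero.1 h3
  · exfalso
    have h4 : fixS g = ⊤ := Submodule.eq_top_of_finrank_eq (by
      rw [h3, Module.finrank_fintype_fun_eq_card, OC.dim (Q := Q)])
    have h5 := fixS_top h4
    rw [h5, orderOf_one] at hg
    omega

/-- An element of order seven acts irreducibly. -/
theorem inv_sub_seven {g : GG Q} (hg : orderOf g = 7) (U : Submodule F (ι → F)) (hU : ∀ u ∈ U, act g.1 u ∈ U) :
    U = ⊥ ∨ U = ⊤ := by
  have h7 : g ^ 7 = 1 := by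
    rw [← hg]
    exact pow_orderOf_eq_one g
  have h1 := fix_modEq g h7 U hU
  rw [fixS_seven hF hg, inf_bot_eq, card_sub hF, Nat.card_eq_one_iff_unique.2 ⟨inferInstance, ⟨0⟩⟩] at h1
  rcases pow_three_mod (finrank_sub_le Q _) h1 with h3 | h3
  · exact Or.inl (Submodule.finrank_eq_zero.1 h3)
  · exact Or.inr (Submodule.eq_top_of_finrank_eq (by
      rw [h3, Module.finrank_fintype_fun_eq_card, OC.dim (Q := Q)]))

/-- A nontrivial element commuting with an element of order seven has no nonzero fixed vectors. -/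
theorem fixS_comm {g x : GG Q} (hg : orderOf g = 7) (hx : x * g = g * x) (hx1 : x ≠ 1) : fixS x = ⊥ := by
  refine (inv_sub_seven hF hg (fixS x) ?_).resolve_right (fun h => hx1 (fixS_top h))
  intro u hu
  rw [mem_fixS] at hu ⊢
  rw [← act_GG_mul, hx, act_GG_mul, hu]

/-- An involution commuting with an element of order seven is minus the identity. -/
theorem act_inv_comm {g y : GG Q} (hg : orderOf g = 7) (hy : y * g = g * y) (hy1 : y ≠ 1) (hy2 : y * y = 1) (v : ι → F) :
    act y.1 v = -v := by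
  have h1 := fixS_comm hF hg hy hy1
  have h2 : v + act y.1 v ∈ fixS y := by
    rw [mem_fixS, act_add, ← act_GG_mul, hy2, act_GG_one, add_comm]
  rw [h1, Submodule.mem_bot] at h2
  exact eq_neg_of_add_eq_zero_right h2

omit hF in
/-- Elements of the centralizer. -/
theorem mem_cent {g x : GG Q} (hx : x ∈ Subgroup.centralizer ((Subgroup.zpowers g : Subgroup (GG Q)) : Set (GG Q))) :
    x * g = g * x := by
  rw [Subgroup.mem_centralizer_iff] at hx
  exact (hx g (Subgroup.mem_zpowers g)).symm

/-- The centralizer acts freely on the nonzero singular vectors. -/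
theorem card_cent_dvd {g : GG Q} (hg : orderOf g = 7) :
    Nat.card (Subgroup.centralizer ((Subgroup.zpowers g : Subgroup (GG Q)) : Set (GG Q))) ∣
      Nat.card {v : ι → F // v ≠ 0 ∧ Q v = 0} := by
  let _ := actSing (Q := Q)
  apply card_dvd_of_free
  intro x v hxv
  by_contra hx1
  have hx1' : (x : GG Q) ≠ 1 := fun h => hx1 (Subtype.ext h)
  have h1 := fixS_comm hF hg (mem_cent x.2) hx1'
  have h2 : v.1 ∈ fixS x.1 := by
    rw [mem_fixS]
    exact congrArg Subtype.val hxv
  rw [h1, Submodule.mem_bot] at h2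
  exact v.2.1 h2

/-- The squares in the field with three elements. -/
theorem hsq_three : ∀ t : F, t ≠ 0 → (IsSquare t ↔ ¬ IsSquare (2 * t)) := by
  intro t ht
  have h3 := three_eq_zero hF
  have hm1 := not_sq_neg_one hF
  have e2 : (2 : F) = -1 := by linear_combination h3
  rcases elts_three hF t with rfl | rfl | rfl
  · exact (ht rfl).elim
  · constructor
    · intro _
      rw [mul_one, e2]
      exact hm1
    · intro _
      exact IsSquare.one
  · constructor
    · intro h
      exact (hm1 h).elim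
    · intro h
      exfalso
      apply h
      refine ⟨1, ?_⟩
      linear_combination -h3

/-- The order of the centralizer is not divisible by four. -/
theorem not_four_dvd {g : GG Q} (hg : orderOf g = 7) :
    ¬ 4 ∣ Nat.card (Subgroup.centralizer ((Subgroup.zpowers g : Subgroup (GG Q)) : Set (GG Q))) := by
  classical
  intro h4
  set C := Subgroup.centralizer ((Subgroup.zpowers g : Subgroup (GG Q)) : Set (GG Q)) with hC
  haveI : Fact (Nat.Prime 2) := ⟨Nat.prime_two⟩
  obtain ⟨K, hK⟩ := Sylow.exists_subgroup_card_pow_prime (G := C) 2 (n := 2) (by simpa using h4)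
  have key : ∀ k : K, (k : C) = 1 ∨ ∀ v, act (k.1.1).1 v = -v := by
    intro k
    have hk4 : k ^ 4 = 1 := by
      have h5 := pow_card_eq_one' (x := k)
      rwa [hK] at h5
    have hy4 : k.1.1 * k.1.1 * (k.1.1 * k.1.1) = 1 := by
      have h5 := congrArg (fun z : K => (z.1.1 : GG Q)) hk4
      simp only [Subgroup.coe_pow, OneMemClass.coe_one] at h5
      rw [← h5]
      simp only [pow_succ, pow_zero, one_mul, mul_assoc]
    have hyc : k.1.1 * g = g * k.1.1 := mem_cent k.1.2
    by_cases hy1 : k.1.1 * k.1.1 = 1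
    · by_cases hy0 : k.1.1 = 1
      · left
        exact Subtype.ext hy0
      · right
        exact act_inv_comm hF hg hyc hy0 hy1
    · exfalso
      have hyyc : (k.1.1 * k.1.1) * g = g * (k.1.1 * k.1.1) := by
        rw [mul_assoc, hyc, ← mul_assoc, hyc, mul_assoc]
      have h5 := act_inv_comm hF hg hyyc hy1 hy4
      refine Cfsg.Agent.Lib.MinIndex.M6.Spin.sqrt_neg_one_not_mem (k.1.1).1 (fun v => ?_) (two_ne_zero_of_three hF)
        (hsq_three hF) (k.1.1).2
      rw [← h5 v, act_GG_mul]
  have hinj : Function.Injective (fun k : K => decide ((k : C) = 1)) := by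
    intro a b hab
    have hab' := decide_eq_decide.1 hab
    by_cases ha1 : (a : C) = 1
    · apply Subtype.ext
      rw [ha1, hab'.1 ha1]
    · have hb1 : (b : C) ≠ 1 := fun h => ha1 (hab'.2 h)
      have ha2 := (key a).resolve_left ha1
      have hb2 := (key b).resolve_left hb1
      apply Subtype.ext
      apply Subtype.ext
      apply ext_GG
      intro v
      rw [ha2, hb2]
  have h5 := Nat.card_le_card_of_injective _ hinj
  rw [hK, Nat.card_eq_fintype_card, Fintype.card_bool] at h5
  norm_num at h5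

/-- The order of the centralizer. -/
theorem card_cent_dvd_14 (hcnt : Nat.card {v : ι → F // v ≠ 0 ∧ Q v = 0} = 224) {g : GG Q} (hg : orderOf g = 7) :
    Nat.card (Subgroup.centralizer ((Subgroup.zpowers g : Subgroup (GG Q)) : Set (GG Q))) ∣ 14 := by
  have h1 := card_cent_dvd hF hg
  rw [hcnt] at h1
  exact dvd_14 h1 (not_four_dvd hF hg)

/-- The order of the group is not divisible by `49`. -/
theorem not_49 (hcnt : Nat.card {v : ι → F // v ≠ 0 ∧ Q v = 0} = 224) : ¬ 49 ∣ Nat.card (GG Q) := by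
  classical
  intro h49
  haveI : Fact (Nat.Prime 7) := ⟨by norm_num⟩
  obtain ⟨P, hP⟩ := Sylow.exists_subgroup_card_pow_prime (G := GG Q) 7 (n := 2) (by simpa using h49)
  have hcomm := IsPGroup.commutative_of_card_eq_prime_sq (p := 7) hP
  obtain ⟨x, hx⟩ := exists_prime_orderOf_dvd_card' (G := P) 7 (by rw [hP]; norm_num)
  have hx' : orderOf (x : GG Q) = 7 := by
    rw [← hx]
    exact Subgroup.orderOf_coe x
  have hle : P ≤ Subgroup.centralizer ((Subgroup.zpowers (x : GG Q) : Subgroup (GG Q)) : Set (GG Q)) := by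
    intro p hp
    rw [Subgroup.mem_centralizer_iff]
    intro z hz
    have hzP : z ∈ P := Subgroup.zpowers_le.2 x.2 hz
    exact congrArg Subtype.val (hcomm ⟨z, hzP⟩ ⟨p, hp⟩)
  have h1 := Subgroup.card_dvd_of_le hle
  have h2 := card_cent_dvd_14 hF hcnt hx'
  rw [hP] at h1
  have h3 := h1.trans h2
  norm_num at h3

/-- **No subgroup of index `81`** containing the center. -/
theorem no_index81 (h : HP Q c c') (hL : (singOf Q ⊤).card = (Fintype.card F - 1) * 112) (H' : Subgroup (GG Q))
    (hcen : Subgroup.center (GG Q) ≤ H') (hidx : H'.index = 81) : False := by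
  classical
  haveI : Fact (Nat.Prime 7) := ⟨by norm_num⟩
  have hcnt : Nat.card {v : ι → F // v ≠ 0 ∧ Q v = 0} = 224 := by
    have e : Nat.card {v : ι → F // v ≠ 0 ∧ Q v = 0} = (singOf Q ⊤).card := by
      rw [Nat.card_eq_fintype_card, Fintype.card_subtype]
      apply congrArg Finset.card
      ext v
      simp [mem_singOf]
    rw [e, hL, hF]
  have h7G : 7 ∣ Nat.card (GG Q) := by
    have h1 := Subgroup.index_dvd_card (lineStab Q c)
    rw [index_lineStab h hL] at h1
    exact Dvd.dvd.trans (by norm_num) h1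
  have h7H : 7 ∣ Nat.card H' := by
    have h1 := Subgroup.card_mul_index H'
    rw [hidx] at h1
    rw [← h1] at h7G
    exact (Nat.Coprime.dvd_of_dvd_mul_right (by norm_num) h7G)
  obtain ⟨x, hx⟩ := exists_prime_orderOf_dvd_card' (G := H') 7 h7H
  have hx' : orderOf (x : GG Q) = 7 := by
    rw [← hx]
    exact Subgroup.orderOf_coe x
  refine seven_abstract H' x.2 hx' (not_49 hF hcnt) hidx (card_cent_dvd_14 hF hcnt hx') ?_
  intro y hy hy2
  apply hcen
  have hy0 : y ≠ 1 := by
    rintro rfl
    rw [orderOf_one] at hy2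
    omega
  have hyy : y * y = 1 := by
    rw [← pow_two, ← hy2]
    exact pow_orderOf_eq_one y
  have hact := act_inv_comm hF hx' (mem_cent hy) hy0 hyy
  rw [Subgroup.mem_center_iff]
  intro z
  apply ext_GG
  intro v
  rw [act_GG_mul, act_GG_mul, hact, hact, act_neg]

end Seven

section Count

open _root_.Classical in
/-- The part of a subgroup of a class of nonzero value. -/
theorem per_class (h2 : (2 : F) ≠ 0) {κ : F} (hκ : κ ≠ 0) (S : AddSubgroup (WW Q c c')) :
    3 * ((Finset.univ.filter fun x : WW Q c c' => Q x.1 = κ).filter (· ∈ S)).card ≤ 2 * Nat.card S := by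
  set C := Finset.univ.filter fun x : WW Q c c' => Q x.1 = κ with hC
  by_cases h3 : ∃ x ∈ S, Q x.1 ≠ 0
  · obtain ⟨x, hx, hQx⟩ := h3
    refine cover_bound S C {0, x, -x} (a := 3) Finset.card_le_three (by norm_num) ?_ ?_
    · intro δ hδ
      simp only [Finset.mem_insert, Finset.mem_singleton] at hδ
      rcases hδ with rfl | rfl | rfl
      · exact S.zero_mem
      · exact hx
      · exact S.neg_mem hx
    · intro z hz
      by_contra hcon
      push Not at hcon
      have e0 := (Finset.mem_filter.1 (hcon 0 (by simp))).2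
      have e1 := (Finset.mem_filter.1 (hcon x (by simp))).2
      have e2 := (Finset.mem_filter.1 (hcon (-x) (by simp))).2
      rw [add_zero] at e0
      change Q (z.1 + x.1) = κ at e1
      change Q (z.1 + -x.1) = κ at e2
      rw [Q_add] at e1 e2
      rw [QuadraticMap.map_neg, polar_neg_right] at e2
      have e3 : 2 * Q x.1 = 0 := by linear_combination e1 + e2 - 2 * e0
      exact hQx ((mul_eq_zero.1 e3).resolve_left h2)
  · push Not at h3
    refine cover_bound S C {0} (a := 3) (by simp) (by norm_num) ?_ ?_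
    · intro δ hδ
      simp only [Finset.mem_singleton] at hδ
      rw [hδ]
      exact S.zero_mem
    · intro z hz
      refine ⟨0, by simp, ?_⟩
      rw [add_zero]
      intro h4
      have h5 := (Finset.mem_filter.1 h4).2
      rw [h3 z hz] at h5
      exact hκ h5.symm

end Count

section Deg

variable {Ω : Type*} [MulAction (GG Q) Ω] [Fintype Ω] (h : HP Q c c') (ψ : AddChar F ℂ) (hψ : ψ ≠ 1)

open _root_.Classical in
/-- The multiplicities of nonsingular vectors over the field with three elements. -/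
theorem mu_lt_three (h2 : (2 : F) ≠ 0) (hLB : ∀ κ : F, κ ≠ 0 → 30 ≤ cntU Q (WW Q c c') κ) (hd : Fintype.card Ω < 112)
    (u : WW Q c c') (hu : Q u.1 ≠ 0) : mu h ψ hψ (Finset.univ : Finset Ω) u < 3 := by
  have hu0 : u ≠ 0 := by
    intro h0
    apply hu
    rw [h0]
    simp
  have h1 := ratio_bound (A := wS h Ω) (Q := pW h ψ hψ) (good_univ h (Ω := Ω)).inv
    (Finset.univ.filter fun x : WW Q c c' => Q x.1 = Q u.1) (a := 3) (b := 2)
    (m := mu h ψ hψ (Finset.univ : Finset Ω) u) (fun y _ => per_class h2 hu _) (by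
    intro v hv
    have hQv : Q v.1 = Q u.1 := (Finset.mem_filter.1 hv).2
    have hv0 : v ≠ 0 := by
      intro h0
      apply hu
      rw [← hQv, h0]
      simp
    exact mu_le_class h ψ hψ (good_univ h (Ω := Ω)) hu0 hv0 one_ne_zero (by
      rw [hQv]
      ring))
  rw [Finset.card_univ] at h1
  have h3 := hLB _ hu
  rw [cntU_eq, Cfsg.Agent.Lib.MinIndex.OCount.cnt] at h3
  by_contra hcon
  push Not at hcon
  have h4 : 30 * 3 ≤ (Finset.univ.filter fun x : WW Q c c' => Q x.1 = Q u.1).card * mu h ψ hψ (Finset.univ : Finset Ω) u :=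
    Nat.mul_le_mul (by convert h3) hcon
  omega

include h ψ hψ in
open _root_.Classical in
/-- **The bound for the degree over the field with three elements.** -/
theorem degree_three [MulAction.IsPretransitive (GG Q) Ω] [Nontrivial Ω] (hF : Fintype.card F = 3) {d d' : ι → F} (h' : HP Q d d')
    (hd : d ∈ WW Q c c') (hd' : d' ∈ WW Q c c') (hA : ANum Q c c' 112) (hW : Fintype.card (WW Q c c') = 81)
    (hz : (singW Q c c').card = 20) (hLB : ∀ κ : F, κ ≠ 0 → 30 ≤ cntU Q (WW Q c c') κ) (h81 : Fintype.card Ω ≠ 81) :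
    112 ≤ Fintype.card Ω := by
  by_contra hcon
  push Not at hcon
  have h2 := two_ne_zero_of_three hF
  have hne : ∀ ω : Ω, ∃ g : GG Q, g • ω ≠ ω := by
    intro ω
    obtain ⟨ω', hω'⟩ := exists_ne ω
    obtain ⟨g, hg⟩ := MulAction.exists_smul_eq (GG Q) ω ω'
    exact ⟨g, by rw [hg]; exact hω'⟩
  have hno : ∀ (ω : Ω) (e : ι → F), e ≠ 0 → Q e = 0 → ¬ RFix Q ω e := by
    intro ω e he0 _ hfix
    have := case_A h h' hd hd' hA hne he0 hfix
    omega
  have hnum : SNum Q c c' 112 := by
    refine ⟨by rw [hW]; norm_num, fun u hu => ?_, Or.inr ?_⟩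
    · have hcl := clsW_ge u hu hLB {1} (by
        intro s hs
        rw [Finset.mem_singleton] at hs
        exact ⟨1, one_ne_zero, by rw [hs, one_mul]⟩)
      rw [Finset.card_singleton, one_mul] at hcl
      rw [hF, hW]
      omega
    · refine ⟨by rw [hF, hW, hz], by rw [hF, hW]; norm_num, ?_⟩
      have := hA.hL
      rwa [hF] at this ⊢
  obtain ⟨ω₀⟩ : Nonempty Ω := inferInstance
  have hp3 : Nat.Prime 3 := by norm_num
  have hp0 : ((3 : ℕ) : F) = 0 := by exact_mod_cast three_eq_zero hF
  have hmu := mu_lt_three h ψ hψ h2 hLB hcon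
  refine small_core h ψ hψ hnum hcon hno (fun ω u hu hQu => AN_dichotomy h ψ hψ hp3 hp0 (Or.inl h2) hmu hu hQu)
    (fun hall => ?_) ω₀
  apply h81
  have hR := hall ω₀
  have hsub : (wS h Ω).orb ω₀ = Finset.univ := by
    apply Finset.eq_univ_of_forall
    intro ω
    exact reg_unique h ψ hψ (by rw [hW]; omega) hR (hall ω)
  rw [← Finset.card_univ, ← hsub, card_orb_reg h ψ hψ hR, hW]

end Deg

set_option synthInstance.maxHeartbeats 400000 in
open _root_.Classical in
/-- The bound for the index. -/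
theorem lower_three (h : HP Q c c') (hF : Fintype.card F = 3) {d d' : ι → F} (h' : HP Q d d')
    (hd : d ∈ WW Q c c') (hd' : d' ∈ WW Q c c') (hA : ANum Q c c' 112) (hW : Fintype.card (WW Q c c') = 81)
    (hz : (singW Q c c').card = 20) (hLB : ∀ κ : F, κ ≠ 0 → 30 ≤ cntU Q (WW Q c c') κ) (H' : Subgroup (GG Q))
    (hcen : Subgroup.center (GG Q) ≤ H') (htop : H' ≠ ⊤) : 112 ≤ H'.index := by
  let _ : Fintype (GG Q ⧸ H') := Fintype.ofFinite _
  have hnt : Nontrivial (GG Q ⧸ H') := QuotientGroup.nontrivial_iff.mpr htop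
  obtain ⟨ψ, hψ⟩ : ∃ ψ : AddChar F ℂ, ψ ≠ 1 := by
    obtain ⟨ψ, hψ⟩ := (AddChar.exists_apply_ne_zero (α := F)).mpr (one_ne_zero (α := F))
    exact ⟨ψ, fun h => hψ (by rw [h]; rfl)⟩
  have hne81 : Fintype.card (GG Q ⧸ H') ≠ 81 := by
    intro e
    apply no_index81 hF h hA.hL H' hcen
    rw [Subgroup.index_eq_card, Nat.card_eq_fintype_card, e]
  have := degree_three (Ω := GG Q ⧸ H') h ψ hψ hF h' hd hd' hA hW hz hLB hne81
  rwa [Subgroup.index_eq_card, Nat.card_eq_fintype_card]

/-- **The wrapper** with subgroups containing the center. -/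
theorem wrap_c {Q₀ : (ι → F) → F} (hQ : ⇑Q = Q₀) {N : ℕ} {c c' : ι → F} (h : HP Q c c')
    (hL : (singOf Q ⊤).card = (Fintype.card F - 1) * N)
    (hmin : ∀ H' : Subgroup (GG Q), Subgroup.center (GG Q) ≤ H' → H' ≠ ⊤ → N ≤ H'.index) :
    (∀ H : Subgroup (Cfsg.POmega F Q₀), H ≠ ⊤ → N ≤ H.index) ∧ ∃ H : Subgroup (Cfsg.POmega F Q₀), H.index = N := by
  classical
  subst hQ
  constructor
  · intro H hH
    set f := QuotientGroup.mk' (Subgroup.center (GG Q)) with hf
    have hsurj : Function.Surjective f := QuotientGroup.mk'_surjective _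
    set H' := H.comap f with hH'
    have hidx : H'.index = H.index := Subgroup.index_comap_of_surjective H hsurj
    rw [← hidx]
    apply hmin
    · intro z hz
      have e : f z = 1 := (QuotientGroup.eq_one_iff z).2 hz
      show f z ∈ H
      rw [e]
      exact H.one_mem
    · intro h0
      apply hH
      rw [eq_top_iff]
      intro x _
      obtain ⟨y, rfl⟩ := hsurj x
      have : y ∈ H' := by rw [h0]; trivial
      exact this
  · have hidx := index_lineStab h hL
    refine ⟨(lineStab Q c).map (QuotientGroup.mk' (Subgroup.center (GG Q))), ?_⟩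
    rw [Subgroup.index_map_eq _ (QuotientGroup.mk'_surjective _) (by
      rw [QuotientGroup.ker_mk']
      exact center_le_lineStab h.ne_zero), hidx]

section Minus

variable {F₃ : Type*} [Field F₃] [Fintype F₃]

/-- **The minimal index for the minus form in dimension six over the field with three elements.** -/
theorem m6_three (hF : Fintype.card F₃ = 3) (a b : F₃)
    (hab : ∀ z₁ z₂ : F₃, z₁ ^ 2 + a * z₁ * z₂ + b * z₂ ^ 2 = 0 → z₁ = 0 ∧ z₂ = 0)
    (hB : ∀ κ : F₃, κ ≠ 0 → 252 ≤ Cfsg.Agent.Lib.MinIndex.OCount.cnt (Cfsg.quadFormMinus 2 F₃ a b) κ) :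
    (∀ H : Subgroup (Cfsg.POmega F₃ (Cfsg.quadFormMinus 2 F₃ a b)), H ≠ ⊤ → (3 + 1) * (3 ^ 3 + 1) ≤ H.index) ∧
      ∃ H : Subgroup (Cfsg.POmega F₃ (Cfsg.quadFormMinus 2 F₃ a b)), H.index = (3 + 1) * (3 ^ 3 + 1) := by
  classical
  haveI := oc_minus6 (F := F₃) hab
  obtain ⟨c, c', h⟩ := exists_HP (minusForm 2 F₃ a b)
  obtain ⟨d, d', h', hd, hd'⟩ := exists_HP_W h
  have hF' : Fintype.card F₃ = 2 + 1 := hF
  have hA := m6_anum hF' hab h
  obtain ⟨a1, a2, a3, a4⟩ := m6_data hF' hab h
  obtain ⟨-, -, hR3, -⟩ := rels h h' hd hd'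
  have hcoe := coe_minusForm 2 F₃ a b
  set Q := minusForm 2 F₃ a b with hQ
  have hN : (2 + 2) * ((2 + 1) ^ 3 + 1) = 112 := by norm_num
  rw [hN] at hA
  have hW : Fintype.card (WW Q c c') = 81 := by
    rw [← Nat.card_eq_fintype_card, a1]
    norm_num
  have hC0 : cntU Q (WW Q c c') 0 = 21 := by
    norm_num at a3
    omega
  have hz1 := card_singOf (Q := Q) (WW Q c c')
  have hz : (singW Q c c').card = 20 := by
    rw [card_singW]
    omega
  have hLB : ∀ κ : F₃, κ ≠ 0 → 30 ≤ cntU Q (WW Q c c') κ := by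
    intro κ hκ
    have h1 := hB κ hκ
    rw [← hcoe] at h1
    have h2 := hR3 κ
    rw [hF, a1] at h2
    norm_num at h2
    omega
  have e : (3 + 1) * (3 ^ 3 + 1) = 112 := by norm_num
  rw [e]
  exact wrap_c hcoe h hA.hL (fun H' hcen htop => lower_three h hF h' hd hd' hA hW hz hLB H' hcen htop)

end Minus

end Cfsg.Agent.Lib.MinIndex.M6.Three
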