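import Mathlib
import Cfsg.Agent.Lib.MinIndex.M6.Ratio

/-!
# Minimal degree of the orthogonal group of minus type in dimension six over the field with two elements
-/

set_option autoImplicit false
set_option linter.unusedSectionVars false
set_option linter.unusedSimpArgs false
set_option linter.unusedVariables false

namespace Cfsg.Agent.Lib.MinIndex.M6.Two

open Matrix QuadraticMap Module
open Cfsg.Agent.Lib.Classical.Orth.Basic
open Cfsg.Agent.Lib.Classical.Orth.Models
open Cfsg.Agent.Lib.Classical.Witt.Hyp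
open Cfsg.Agent.Lib.MinIndex.SpCount Cfsg.Agent.Lib.MinIndex.UCount
open Cfsg.Agent.Lib.MinIndex.M6.Base Cfsg.Agent.Lib.MinIndex.M6.Vec Cfsg.Agent.Lib.MinIndex.M6.Good
open Cfsg.Agent.Lib.MinIndex.M6.Types Cfsg.Agent.Lib.MinIndex.M6.Line Cfsg.Agent.Lib.MinIndex.M6.Step
open Cfsg.Agent.Lib.MinIndex.M6.Reg Cfsg.Agent.Lib.MinIndex.M6.Fix Cfsg.Agent.Lib.MinIndex.M6.Count
open Cfsg.Agent.Lib.MinIndex.M6.Final Cfsg.Agent.Lib.MinIndex.M6.Small Cfsg.Agent.Lib.MinIndex.M6.Ratio

variable {ι : Type} [Fintype ι] [DecidableEq ι] {F : Type*} [Field F] [Fintype F]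
variable {Q : QuadraticForm F (ι → F)} [OC Q]

set_option quotPrecheck false in
local notation "𝔣" => polar (⇑Q)

variable {c c' : ι → F}

section Field2

variable (h2 : (2 : F) = 0) (hel : ∀ x : F, x = 0 ∨ x = 1)

include h2 hel

/-- Nonzero elements are one. -/
theorem el_one {x : F} (hx : x ≠ 0) : x = 1 := (hel x).resolve_left hx

open _root_.Classical in
/-- The part of a subgroup of the complement of nonsingular vectors. -/
theorem per_nonsing (S : AddSubgroup (WW Q c c')) :
    4 * (((Finset.univ.filter fun x : WW Q c c' => Q x.1 ≠ 0)).filter (· ∈ S)).card ≤ 3 * Nat.card S := by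
  have h11 : (1 : F) + 1 = 0 := by linear_combination h2
  set C := Finset.univ.filter fun x : WW Q c c' => Q x.1 ≠ 0 with hC
  have hmem : ∀ x : WW Q c c', x ∉ C ↔ Q x.1 = 0 := by
    intro x
    simp [hC]
  have hone : ∀ x : WW Q c c', x ∈ C → Q x.1 = 1 := by
    intro x hx
    exact el_one h2 hel (Finset.mem_filter.1 hx).2
  by_cases h1 : ∃ x ∈ S, ∃ y ∈ S, 𝔣 x.1 y.1 ≠ 0
  · obtain ⟨x, hx, y, hy, hxy⟩ := h1
    refine cover_bound S C {0, x, y, x + y} (a := 4) Finset.card_le_four (by norm_num) ?_ ?_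
    · intro δ hδ
      simp only [Finset.mem_insert, Finset.mem_singleton] at hδ
      rcases hδ with rfl | rfl | rfl | rfl
      · exact S.zero_mem
      · exact hx
      · exact hy
      · exact S.add_mem hx hy
    · intro z hz
      by_contra hcon
      push Not at hcon
      have e0 := hone _ (hcon 0 (by simp))
      have e1 := hone _ (hcon x (by simp))
      have e2 := hone _ (hcon y (by simp))
      have e3 := hone _ (hcon (x + y) (by simp))
      simp only [add_zero, AddSubgroup.coe_add] at e0 e1 e2 e3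
      change Q (z.1 + x.1) = 1 at e1
      change Q (z.1 + y.1) = 1 at e2
      change Q (z.1 + (x.1 + y.1)) = 1 at e3
      rw [Q_add] at e1 e2 e3
      rw [Q_add, polar_add_right] at e3
      apply hxy
      linear_combination e3 - e1 - e2 + e0
  push Not at h1
  by_cases h3 : ∃ x ∈ S, Q x.1 ≠ 0
  · obtain ⟨x, hx, hQx⟩ := h3
    refine cover_bound S C {0, x} (a := 4) ((Finset.card_le_two).trans (by norm_num)) (by norm_num) ?_ ?_
    · intro δ hδ
      simp only [Finset.mem_insert, Finset.mem_singleton] at hδ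
      rcases hδ with rfl | rfl
      · exact S.zero_mem
      · exact hx
    · intro z hz
      by_contra hcon
      push Not at hcon
      have e0 := hone _ (hcon 0 (by simp))
      have e1 := hone _ (hcon x (by simp))
      simp only [add_zero] at e0 e1
      change Q (z.1 + x.1) = 1 at e1
      rw [Q_add, h1 z hz x hx, e0, el_one h2 hel hQx] at e1
      have : (1 : F) = 0 := by linear_combination -e1 + h11
      exact one_ne_zero this
  · push Not at h3
    refine cover_bound S C {0} (a := 4) (by simp) (by norm_num) ?_ ?_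
    · intro δ hδ
      simp only [Finset.mem_singleton] at hδ
      rw [hδ]
      exact S.zero_mem
    · intro z hz
      refine ⟨0, by simp, ?_⟩
      rw [add_zero, hmem]
      exact h3 z hz

open _root_.Classical in
/-- The part of a subgroup of the complement of singular vectors. -/
theorem per_sing (h : HP Q c c') (S : AddSubgroup (WW Q c c')) :
    2 * ((singW Q c c').filter (· ∈ S)).card ≤ 1 * Nat.card S := by
  have hvv : ∀ x : ι → F, x + x = 0 := by
    intro x
    rw [← two_smul F x, h2, zero_smul]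
  by_cases h3 : ∃ e ∈ S, e ≠ 0 ∧ Q e.1 = 0
  · obtain ⟨e, he, he0, hQe⟩ := h3
    refine cover_bound S (singW Q c c') {0, e} (a := 2) Finset.card_le_two (by norm_num) ?_ ?_
    · intro δ hδ
      simp only [Finset.mem_insert, Finset.mem_singleton] at hδ
      rcases hδ with rfl | rfl
      · exact S.zero_mem
      · exact he
    · intro z hz
      by_contra hcon
      push Not at hcon
      have e0 := mem_singW.1 (hcon 0 (by simp))
      have e1 := mem_singW.1 (hcon e (by simp))
      rw [add_zero] at e0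
      have e2 : Q (z.1 + e.1) = 0 := e1.2
      rw [Q_add, e0.2, hQe] at e2
      have e3 : 𝔣 e.1 z.1 = 0 := by
        rw [polar_symm]
        simpa using e2
      have he0' : e.1 ≠ 0 := fun h0 => he0 (Subtype.ext h0)
      obtain ⟨t, ht⟩ := prop_of_perp h e.2 z.2 hQe e0.2 e3 he0'
      rcases hel t with rfl | rfl
      · apply e0.1
        apply Subtype.ext
        rw [ht, zero_smul]
        rfl
      · apply e1.1
        apply Subtype.ext
        show z.1 + e.1 = 0
        rw [ht, one_smul, hvv]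
  · push Not at h3
    refine cover_bound S (singW Q c c') {0} (a := 2) (by simp) (by norm_num) ?_ ?_
    · intro δ hδ
      simp only [Finset.mem_singleton] at hδ
      rw [hδ]
      exact S.zero_mem
    · intro z hz
      refine ⟨0, by simp, ?_⟩
      rw [add_zero]
      intro h4
      obtain ⟨h5, h6⟩ := mem_singW.1 h4
      exact h3 z hz h5 h6

/-- A step in a subgroup invariant under the Eichler transformations fixing `v`. -/
theorem two_step (h : HP Q c c') {S : AddSubgroup (ι → F)} {v : ι → F} (hS : InvU Q c c' S v) (hv : v ∈ WW Q c c')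
    (hQv : Q v = 1) (hvS : v ∈ S) {e x : ι → F} (he : Q e = 0) (heW : e ∈ WW Q c c') (hev : 𝔣 v e = 0) (hxS : x ∈ S)
    (hvx : 𝔣 v x = 0) (hex : 𝔣 e x ≠ 0) : e ∈ S := by
  have h1 := even_L1 h2 h hS hv he heW hev hxS 1
  rw [hvx, el_one h2 hel hex, hQv] at h1
  have e1 : (1 * 1 : F) • v - (1 * 0 + 1 * 1 * 1 * 1 : F) • e = v - e := by
    simp
  rw [e1] at h1
  have h3 := S.sub_mem hvS h1
  rwa [sub_sub_cancel] at h3

/-- Vectors perpendicular to `v`. -/
theorem two_perp (h : HP Q c c') {S : AddSubgroup (ι → F)} {v : ι → F} (hS : InvU Q c c' S v) (hv : v ∈ WW Q c c')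
    (hQv : Q v = 1) (hvS : v ∈ S) {x : ι → F} (hx : x ∈ WW Q c c') (hxS : x ∈ S) (hvx : 𝔣 v x = 0)
    (hxv : ∀ t : F, x ≠ t • v) {y : ι → F} (hy : y ∈ WW Q c c') (hvy : 𝔣 v y = 0) : y ∈ S := by
  have hQv0 : Q v ≠ 0 := by
    rw [hQv]
    exact one_ne_zero
  obtain ⟨e₁, he₁, he₁W, he₁v, hxe₁⟩ := exists_sing_sep h hv hx hQv0 hxv
  have he₁x : 𝔣 e₁ x ≠ 0 := by rwa [polar_symm]
  have he₁0 : e₁ ≠ 0 := by
    rintro rfl
    apply hxe₁
    simp [polar]
  have he₁S : e₁ ∈ S := two_step h2 hel h hS hv hQv hvS he₁ he₁W he₁v hxS hvx he₁x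
  have hall : ∀ e ∈ WW Q c c', Q e = 0 → 𝔣 v e = 0 → e ∈ S := by
    intro e heW he hve
    by_cases hee : 𝔣 e e₁ = 0
    · obtain ⟨t, ht⟩ := prop_of_perp h he₁W heW he₁ he (by rw [polar_symm]; exact hee) he₁0
      rcases hel t with rfl | rfl
      · rw [ht, zero_smul]
        exact S.zero_mem
      · rw [ht, one_smul]
        exact he₁S
    · exact two_step h2 hel h hS hv hQv hvS he heW hve he₁S he₁v hee
  obtain ⟨a, a', ha, ha1, ha2, ha3, ha4⟩ := exists_room h hv (Or.inl hQv0)
  set Y : Submodule F (ι → F) := (WW Q c c') ⊓ LinearMap.ker (polarBilin Q v) with hY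
  have hmem : ∀ {y}, y ∈ Y ↔ y ∈ WW Q c c' ∧ 𝔣 v y = 0 := by
    intro y
    rw [hY, Submodule.mem_inf, LinearMap.mem_ker]
    rfl
  exact mem_of_sing ha (hmem.2 ⟨ha1, ha3⟩) (hmem.2 ⟨ha2, ha4⟩) S
    (fun e he heq => hall e (hmem.1 he).1 heq (hmem.1 he).2) (hmem.2 ⟨hy, hvy⟩)

/-- The vectors of a subgroup without vectors perpendicular to `v`. -/
theorem two_hp (h : HP Q c c') {S : AddSubgroup (ι → F)} {v : ι → F} (hS : InvU Q c c' S v) (hv : v ∈ WW Q c c')
    (hQv : Q v = 1) (hvS : v ∈ S) (hno : ∀ x' ∈ S, 𝔣 v x' = 0 → x' = 0 ∨ x' = v) {x : ι → F} (hx : x ∈ WW Q c c')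
    (hxS : x ∈ S) (hvx : 𝔣 v x ≠ 0) : Q x = 0 := by
  have h11 : (1 : F) + 1 = 0 := by linear_combination h2
  have hQv0 : Q v ≠ 0 := by
    rw [hQv]
    exact one_ne_zero
  have hvx1 : 𝔣 v x = 1 := el_one h2 hel hvx
  have key : ∀ e, Q e = 0 → e ∈ WW Q c c' → 𝔣 v e = 0 → e ≠ 0 → 𝔣 e x = 1 := by
    intro e he heW hev he0
    rcases hel (𝔣 e x) with e0 | e0
    · exfalso
      have h1 := even_L1 h2 h hS hv he heW hev hxS 1
      rw [hvx1, e0, hQv] at h1
      have e1 : (1 * 0 : F) • v - (1 * 1 + 1 * 1 * 1 * 0 : F) • e = -e := by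
        simp
      rw [e1] at h1
      have h3 := S.neg_mem h1
      rw [neg_neg] at h3
      rcases hno e h3 hev with h4 | h4
      · exact he0 h4
      · rw [h4, hQv] at he
        exact one_ne_zero he
    · exact e0
  obtain ⟨a, a', ha, ha1, ha2, ha3, ha4⟩ := exists_room h hv (Or.inl hQv0)
  have hax := key a ha.hc ha1 ha3 ha.ne_zero
  have ha'x := key a' ha.hc' ha2 ha4 ha.ne_zero'
  set x' := x + a + a' with hx'
  have hx'W : x' ∈ WW Q c c' := Submodule.add_mem _ (Submodule.add_mem _ hx ha1) ha2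
  have h1 : 𝔣 a x' = 0 := by
    rw [hx', polar_add_right, polar_add_right, hax, ha.cc, ha.hp, add_zero]
    exact h11
  have h3 : 𝔣 a' x' = 0 := by
    rw [hx', polar_add_right, polar_add_right, ha'x, ha.hp', ha.cc', add_zero]
    exact h11
  have h4 : 𝔣 v x' = 1 := by
    rw [hx', polar_add_right, polar_add_right, ha3, ha4, hvx1, add_zero, add_zero]
  have hx'0 : x' ≠ 0 := by
    intro h0
    rw [h0] at h4
    simp [polar] at h4
  have hQx' : Q x' ≠ 0 := by
    intro h0
    obtain ⟨t, ht⟩ := prop_of_perp h ha1 hx'W ha.hc h0 h1 ha.ne_zero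
    rw [ht, polar_smul_right', ha.hp', mul_one] at h3
    apply hx'0
    rw [ht, h3, zero_smul]
  have h5 := el_one h2 hel hQx'
  rw [hx', Q_add, Q_add, polar_add_left, polar_symm x a, polar_symm x a', hax, ha'x, ha.hc, ha.hc', ha.hp] at h5
  linear_combination h5 - h11

end Field2

section Deg

variable {Ω : Type*} [MulAction (GG Q) Ω] [Fintype Ω] (h : HP Q c c') (ψ : AddChar F ℂ) (hψ : ψ ≠ 1)
  (h2 : (2 : F) = 0) (hel : ∀ x : F, x = 0 ∨ x = 1)

include h2 hel

open _root_.Classical in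
/-- The multiplicities of nonsingular vectors over the field with two elements. -/
theorem mu_lt_two (hC : (Finset.univ.filter fun x : WW Q c c' => Q x.1 ≠ 0).card = 10) (hd : Fintype.card Ω < 27)
    (u : WW Q c c') (hu : Q u.1 ≠ 0) : mu h ψ hψ (Finset.univ : Finset Ω) u < 2 := by
  have hu0 : u ≠ 0 := by
    intro h0
    apply hu
    rw [h0]
    simp
  have h1 := ratio_bound (A := wS h Ω) (Q := pW h ψ hψ) (good_univ h (Ω := Ω)).inv
    (Finset.univ.filter fun x : WW Q c c' => Q x.1 ≠ 0) (a := 4) (b := 3)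
    (m := mu h ψ hψ (Finset.univ : Finset Ω) u) (fun y _ => per_nonsing h2 hel _) (by
    intro v hv
    have hQv : Q v.1 ≠ 0 := (Finset.mem_filter.1 hv).2
    have hv0 : v ≠ 0 := by
      intro h0
      apply hQv
      rw [h0]
      simp
    exact mu_le_class h ψ hψ (good_univ h (Ω := Ω)) hu0 hv0 one_ne_zero (by
      rw [el_one h2 hel hu, el_one h2 hel hQv]
      ring))
  rw [hC, Finset.card_univ] at h1
  omega

/-- A subgroup like a hyperbolic plane does not occur. -/
theorem no_hp (hz : (singW Q c c').card = 5) (hd : Fintype.card Ω < 27) {ω : Ω} {x x' : ι → F}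
    (hx : x ∈ ANv h ψ hψ ω) (hx' : x' ∈ ANv h ψ hψ ω) (hQx : Q x = 0) (hQx' : Q x' = 0) (hxx' : 𝔣 x x' = 1)
    (hall : ∀ z ∈ ANv h ψ hψ ω, z = 0 ∨ z = x ∨ z = x' ∨ z = x + x') : False := by
  classical
  obtain ⟨hxW, hxA⟩ := (mem_ANv h ψ hψ).1 hx
  obtain ⟨hx'W, hx'A⟩ := (mem_ANv h ψ hψ).1 hx'
  have hx0 : x ≠ 0 := by
    rintro rfl
    simp [polar] at hxx'
  have hxW0 : (⟨x, hxW⟩ : WW Q c c') ≠ 0 := fun h0 => hx0 (congrArg Subtype.val h0)
  have hxS : (⟨x, hxW⟩ : WW Q c c') ∈ singW Q c c' := mem_singW.2 ⟨hxW0, hQx⟩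
  -- the singular vectors are not perpendicular to `x`
  have hp1 : ∀ e : WW Q c c', e ∈ singW Q c c' → e ≠ ⟨x, hxW⟩ → 𝔣 x e.1 = 1 := by
    intro e he hne
    obtain ⟨he0, hQe⟩ := mem_singW.1 he
    rcases hel (𝔣 x e.1) with e0 | e0
    · obtain ⟨t, ht⟩ := prop_of_perp h hxW e.2 hQx hQe e0 hx0
      exfalso
      rcases hel t with rfl | rfl
      · apply he0
        apply Subtype.ext
        rw [ht, zero_smul]
        rfl
      · apply hne
        apply Subtype.ext
        rw [ht, one_smul]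
    · exact e0
  -- the elements
  have hb : ∀ e : ι → F, 𝔣 x e = 1 → 𝔣 x ((𝔣 x x')⁻¹ • (e - x')) = 0 := by
    intro e he
    rw [polar_smul_right', polar_sub_right, he, hxx', sub_self, mul_zero]
  let I := {e : WW Q c c' // e ∈ singW Q c c' ∧ e ≠ ⟨x, hxW⟩}
  have hI : Fintype.card I = 4 := by
    rw [Fintype.card_subtype]
    have e1 : (Finset.univ.filter fun e : WW Q c c' => e ∈ singW Q c c' ∧ e ≠ ⟨x, hxW⟩) = (singW Q c c').erase ⟨x, hxW⟩ := by
      ext e
      simp only [Finset.mem_filter, Finset.mem_univ, true_and, Finset.mem_erase]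
      tauto
    rw [e1, Finset.card_erase_of_mem hxS, hz]
  have hbI : ∀ e : I, 𝔣 x ((𝔣 x x')⁻¹ • (e.1.1 - x')) = 0 := fun e => hb _ (hp1 e.1 e.2.1 e.2.2)
  let g : I → GG Q := fun e => E hQx (hbI e)
  have hbW : ∀ e : I, (𝔣 x x')⁻¹ • (e.1.1 - x') ∈ WW Q c c' := fun e =>
    Submodule.smul_mem _ _ (Submodule.sub_mem _ e.1.2 hx'W)
  have hN : ∀ e : I, Nrm (g e) 1 c c' := fun e => nrm_E hQx (hbI e) hxW (hbW e)
  have hgx : ∀ e : I, act (g e).1 x = x := fun e => act_E_self hQx (hbI e)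
  have hgx' : ∀ e : I, act (g e).1 x' = e.1.1 := by
    intro e
    have hQe : Q e.1.1 = 0 := (mem_singW.1 e.2.1).2
    apply act_E_move hQx (by rw [hQx', hQe]) (by rw [hxx']; exact one_ne_zero) (by rw [hxx', hp1 e.1 e.2.1 e.2.2])
  -- the images
  have hmem1 : ∀ e : I, x ∈ ANv h ψ hψ (g e • ω) := by
    intro e
    have := mem_AN_image h ψ hψ (hN e) hx
    rwa [hgx] at this
  have hmem2 : ∀ e : I, e.1.1 ∈ ANv h ψ hψ (g e • ω) := by
    intro e
    have := mem_AN_image h ψ hψ (hN e) hx'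
    rwa [hgx'] at this
  have hne : ∀ e e' : I, e ≠ e' → AN h ψ hψ (g e • ω) ≠ AN h ψ hψ (g e' • ω) := by
    intro e e' hee he
    have h3 : e'.1.1 ∈ ANv h ψ hψ (g e • ω) := by
      have h4 := hmem2 e'
      unfold ANv at h4 ⊢
      rw [← he] at h4
      exact h4
    have h4 : act (g e).1 (act ((g e)⁻¹).1 e'.1.1) ∈ ANv h ψ hψ (g e • ω) := by
      rw [act_GG_act_inv]
      exact h3
    have h5 := mem_AN_preimage h ψ hψ (hN e) h4
    have hQe' : Q e'.1.1 = 0 := (mem_singW.1 e'.2.1).2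
    have he'0 : e'.1 ≠ 0 := (mem_singW.1 e'.2.1).1
    rcases hall _ h5 with h6 | h6 | h6 | h6
    · apply he'0
      apply Subtype.ext
      have h7 := act_GG_act_inv (g e) e'.1.1
      rw [h6] at h7
      rw [← h7]
      simp
    · apply e'.2.2
      apply Subtype.ext
      have h7 := act_GG_act_inv (g e) e'.1.1
      rw [h6, hgx] at h7
      exact h7.symm
    · apply hee
      apply Subtype.ext
      apply Subtype.ext
      have h7 := act_GG_act_inv (g e) e'.1.1
      rw [h6, hgx'] at h7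
      exact h7
    · have h7 := act_GG_act_inv (g e) e'.1.1
      rw [h6, act_add, hgx, hgx'] at h7
      rw [← h7, Q_add, hQx, (mem_singW.1 e.2.1).2, hp1 e.1 e.2.1 e.2.2] at hQe'
      simp at hQe'
  have h1 := card_le_mu h ψ hψ (Y1 := (Finset.univ : Finset Ω)) (u := ⟨x, hxW⟩) (fun e : I => g e • ω)
    (fun _ => Finset.mem_univ _) (fun e => ((mem_ANv h ψ hψ).1 (hmem1 e)).2)
    (fun e e' hee => orb_ne_of_AN_ne h ψ hψ (hne e e' hee))
  rw [hI] at h1
  have h3 := ratio_bound (A := wS h Ω) (Q := pW h ψ hψ) (good_univ h (Ω := Ω)).inv (singW Q c c') (a := 2) (b := 1)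
    (m := mu h ψ hψ (Finset.univ : Finset Ω) ⟨x, hxW⟩) (fun y _ => per_sing h2 hel h _) (by
    intro v hv
    obtain ⟨hv0, hQv⟩ := mem_singW.1 hv
    exact mu_le_sing h ψ hψ (good_univ h (Ω := Ω)) hxW0 hv0 hQx hQv)
  rw [hz, Finset.card_univ] at h3
  omega

open _root_.Classical in
/-- The types of annihilators over the field with two elements. -/
theorem type_two (hC : (Finset.univ.filter fun x : WW Q c c' => Q x.1 ≠ 0).card = 10) (hz : (singW Q c c').card = 5)
    (hd : Fintype.card Ω < 27) (ω : Ω) (u : WW Q c c') (hu : u ∈ AN h ψ hψ ω) (hQu : Q u.1 ≠ 0) :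
    (∀ x ∈ AN h ψ hψ ω, ∃ t : F, x.1 = t • u.1) ∨ AN h ψ hψ ω = ⊤ := by
  classical
  have h11 : (1 : F) + 1 = 0 := by linear_combination h2
  have hvv : ∀ x : ι → F, x + x = 0 := by
    intro x
    rw [← two_smul F x, h2, zero_smul]
  have hp : Nat.Prime 2 := Nat.prime_two
  have hp0 : ((2 : ℕ) : F) = 0 := by exact_mod_cast h2
  have hmu := mu_lt_two h ψ hψ h2 hel hC hd
  have hinv := inv_AN h ψ hψ hp hp0 hmu ω
  have hSW : ∀ x ∈ ANv h ψ hψ ω, x ∈ WW Q c c' := fun x hx => ((mem_ANv h ψ hψ).1 hx).1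
  have hfin : (∀ x ∈ ANv h ψ hψ ω, ∃ t : F, x = t • u.1) ∨ ∀ y ∈ WW Q c c', y ∈ ANv h ψ hψ ω := by
    refine inv_dichotomy h hSW (fun v hvS hQv x hxS hxv y hy hvy => ?_) ((mem_ANv h ψ hψ).2 ⟨u.2, hu⟩) hQu
    have hQv1 : Q v = 1 := el_one h2 hel hQv
    have hvW := hSW v hvS
    have hI := hinv v hvS hQv
    by_cases hex : ∃ x' ∈ ANv h ψ hψ ω, 𝔣 v x' = 0 ∧ ∀ t : F, x' ≠ t • v
    · obtain ⟨x', hx'S, hx'1, hx'2⟩ := hex
      exact two_perp h2 hel h hI hvW hQv1 hvS (hSW x' hx'S) hx'S hx'1 hx'2 hy hvy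
    · exfalso
      push Not at hex
      have hno : ∀ x' ∈ ANv h ψ hψ ω, 𝔣 v x' = 0 → x' = 0 ∨ x' = v := by
        intro x' hx' h0
        obtain ⟨t, ht⟩ := hex x' hx' h0
        rcases hel t with rfl | rfl
        · left
          rw [ht, zero_smul]
        · right
          rw [ht, one_smul]
      have hvx : 𝔣 v x ≠ 0 := by
        intro h0
        obtain ⟨t, ht⟩ := hex x hxS h0
        exact hxv t ht
      have hvv0 : 𝔣 v v = 0 := by
        rw [polar_self_eq, h2, zero_mul]
      have hQx := two_hp h2 hel h hI hvW hQv1 hvS hno (hSW x hxS) hxS hvx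
      have hx'S := AddSubgroup.add_mem _ hxS hvS
      have hvx' : 𝔣 v (x + v) ≠ 0 := by
        rw [polar_add_right, hvv0, add_zero]
        exact hvx
      have hQx' := two_hp h2 hel h hI hvW hQv1 hvS hno (hSW _ hx'S) hx'S hvx'
      have hvx1 := el_one h2 hel hvx
      refine no_hp h ψ hψ h2 hel hz hd hxS hx'S hQx hQx' ?_ ?_
      · rw [polar_add_right, polar_symm x v, hvx1, polar_self_eq, hQx]
        ring
      · intro z hzS
        have e : x + (x + v) = v := by
          rw [← add_assoc, hvv, zero_add]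
        rw [e]
        by_cases hvz : 𝔣 v z = 0
        · rcases hno z hzS hvz with e0 | e0
          · exact Or.inl e0
          · exact Or.inr (Or.inr (Or.inr e0))
        · have hvz1 := el_one h2 hel hvz
          have h5 : 𝔣 v (x + z) = 0 := by
            rw [polar_add_right, hvx1, hvz1]
            exact h11
          rcases hno _ (AddSubgroup.add_mem _ hxS hzS) h5 with e0 | e0
          · right; left
            have e1 : z = (x + z) + x := by
              rw [add_comm x z, add_assoc, hvv, add_zero]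
            rw [e1, e0, zero_add]
          · right; right; left
            have e1 : z = (x + z) + x := by
              rw [add_comm x z, add_assoc, hvv, add_zero]
            rw [e1, e0, add_comm]
  rcases hfin with h1 | h1
  · left
    intro x hx
    exact h1 x.1 ((mem_ANv h ψ hψ).2 ⟨x.2, hx⟩)
  · right
    rw [eq_top_iff]
    intro y _
    obtain ⟨_, hy⟩ := (mem_ANv h ψ hψ).1 (h1 y.1 y.2)
    exact hy

include h ψ hψ in
open _root_.Classical in
/-- **The bound for the degree over the field with two elements.** -/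
theorem degree_two [MulAction.IsPretransitive (GG Q) Ω] [Nontrivial Ω] (hF : Fintype.card F = 2) {d d' : ι → F} (h' : HP Q d d')
    (hd : d ∈ WW Q c c') (hd' : d' ∈ WW Q c c') (hA : ANum Q c c' 27) (hW : Fintype.card (WW Q c c') = 16)
    (hC0 : cntU Q (WW Q c c') 0 = 6) (hC : (Finset.univ.filter fun x : WW Q c c' => Q x.1 ≠ 0).card = 10)
    (hz : (singW Q c c').card = 5) : 27 ≤ Fintype.card Ω := by
  by_contra hcon
  push Not at hcon
  have hne : ∀ ω : Ω, ∃ g : GG Q, g • ω ≠ ω := by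
    intro ω
    obtain ⟨ω', hω'⟩ := exists_ne ω
    obtain ⟨g, hg⟩ := MulAction.exists_smul_eq (GG Q) ω ω'
    exact ⟨g, by rw [hg]; exact hω'⟩
  have hno : ∀ (ω : Ω) (e : ι → F), e ≠ 0 → Q e = 0 → ¬ RFix Q ω e := by
    intro ω e he0 _ hfix
    have := case_A h h' hd hd' hA hne he0 hfix
    omega
  have hnum : SNum Q c c' 27 := by
    refine ⟨by omega, fun u hu => ?_, Or.inr ?_⟩
    · have hc := clsW_even h2 u hu
      rw [hW, hC0] at hc
      rw [hF, hW]
      omega
    · refine ⟨?_, ?_, ?_⟩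
      · rw [hF, hW, hz]
      · rw [hF, hW]
        norm_num
      · rw [hF]
        have := hA.hL
        rwa [hF] at this
  obtain ⟨ω₀⟩ : Nonempty Ω := inferInstance
  refine small_core h ψ hψ hnum hcon hno (fun ω u hu hQu => type_two h ψ hψ h2 hel hC hz hcon ω u hu hQu) (fun hall => ?_) ω₀
  refine not_all_reg_two h ψ hψ h2 hel ?_ hall ω₀
  rw [hW]
  omega

end Deg

set_option synthInstance.maxHeartbeats 400000 in
open _root_.Classical in
/-- The bound for the index. -/
theorem lower_two (h : HP Q c c') (h2 : (2 : F) = 0) (hel : ∀ x : F, x = 0 ∨ x = 1) (hF : Fintype.card F = 2) {d d' : ι → F} (h' : HP Q d d')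
    (hd : d ∈ WW Q c c') (hd' : d' ∈ WW Q c c') (hA : ANum Q c c' 27) (hW : Fintype.card (WW Q c c') = 16)
    (hC0 : cntU Q (WW Q c c') 0 = 6) (hC : (Finset.univ.filter fun x : WW Q c c' => Q x.1 ≠ 0).card = 10)
    (hz : (singW Q c c').card = 5) (H' : Subgroup (GG Q)) (htop : H' ≠ ⊤) : 27 ≤ H'.index := by
  let _ : Fintype (GG Q ⧸ H') := Fintype.ofFinite _
  have hnt : Nontrivial (GG Q ⧸ H') := QuotientGroup.nontrivial_iff.mpr htop
  obtain ⟨ψ, hψ⟩ : ∃ ψ : AddChar F ℂ, ψ ≠ 1 := by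
    obtain ⟨ψ, hψ⟩ := (AddChar.exists_apply_ne_zero (α := F)).mpr (one_ne_zero (α := F))
    exact ⟨ψ, fun h => hψ (by rw [h]; rfl)⟩
  have := degree_two (Ω := GG Q ⧸ H') h ψ hψ h2 hel hF h' hd hd' hA hW hC0 hC hz
  rwa [Subgroup.index_eq_card, Nat.card_eq_fintype_card]

section Minus

variable {F₂ : Type*} [Field F₂] [Fintype F₂]

/-- The field with two elements. -/
theorem el_two (hF : Fintype.card F₂ = 2) (x : F₂) : x = 0 ∨ x = 1 := by
  classical
  by_contra hcon
  push Not at hcon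
  have h1 : ({0, 1, x} : Finset F₂).card = 3 := by
    rw [Finset.card_eq_three]
    exact ⟨0, 1, x, zero_ne_one, hcon.1.symm, hcon.2.symm, rfl⟩
  have h2 := Finset.card_le_univ ({0, 1, x} : Finset F₂)
  omega

/-- **The minimal index for the minus form in dimension six over the field with two elements.** -/
theorem m6_two (hF : Fintype.card F₂ = 2) (a b : F₂)
    (hab : ∀ z₁ z₂ : F₂, z₁ ^ 2 + a * z₁ * z₂ + b * z₂ ^ 2 = 0 → z₁ = 0 ∧ z₂ = 0) :
    (∀ H : Subgroup (Cfsg.POmega F₂ (Cfsg.quadFormMinus 2 F₂ a b)), H ≠ ⊤ → (2 + 1) * (2 ^ 3 + 1) ≤ H.index) ∧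
      ∃ H : Subgroup (Cfsg.POmega F₂ (Cfsg.quadFormMinus 2 F₂ a b)), H.index = (2 + 1) * (2 ^ 3 + 1) := by
  classical
  have hel := el_two hF
  have h2 : (2 : F₂) = 0 := by
    rcases hel 2 with e | e
    · exact e
    · exfalso
      have e1 : (1 : F₂) + 1 = 1 := by linear_combination e
      have e2 : (1 : F₂) = 0 := by linear_combination e1
      exact one_ne_zero e2
  haveI := oc_minus6 (F := F₂) hab
  obtain ⟨c, c', h⟩ := exists_HP (minusForm 2 F₂ a b)
  obtain ⟨d, d', h', hd, hd'⟩ := exists_HP_W h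
  have hF' : Fintype.card F₂ = 1 + 1 := hF
  have hA := m6_anum hF' hab h
  obtain ⟨a1, a2, a3, a4⟩ := m6_data hF' hab h
  have hcoe := coe_minusForm 2 F₂ a b
  set Q := minusForm 2 F₂ a b with hQ
  have hN : (1 + 2) * ((1 + 1) ^ 3 + 1) = 27 := by norm_num
  rw [hN] at hA
  have hW : Fintype.card (WW Q c c') = 16 := by
    rw [← Nat.card_eq_fintype_card, a1]
    norm_num
  have hC0 : cntU Q (WW Q c c') 0 = 6 := by
    norm_num at a3
    omega
  have hz1 := card_singOf (Q := Q) (WW Q c c')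
  have hz : (singW Q c c').card = 5 := by
    rw [card_singW]
    omega
  have hC : (Finset.univ.filter fun x : WW Q c c' => Q x.1 ≠ 0).card = 10 := by
    have := card_nonsing (Q := Q) (WW Q c c')
    rw [hW, hC0] at this
    omega
  have e27 : (2 + 1) * (2 ^ 3 + 1) = 27 := by norm_num
  rw [e27]
  exact wrap hcoe h hA.hL (fun H' htop => lower_two h h2 hel hF h' hd hd' hA hW hC0 hC hz H' htop)

end Minus

end Cfsg.Agent.Lib.MinIndex.M6.Two
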