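import Mathlib
import Cfsg.Agent.Lib.MinIndex.M6.Three
import Cfsg.Agent.Lib.MinIndex.M6.Two
import Cfsg.Agent.S0303

/-!
# The minimal index of a proper subgroup of the four-dimensional projective special unitary groups
-/

set_option autoImplicit false
set_option linter.unusedSectionVars false
set_option linter.unusedSimpArgs false
set_option linter.unusedVariables false

namespace Cfsg.Agent.Lib.MinIndex.M6.Main

open Cfsg.Agent.Lib.MinIndex.OCount (cnt cnt_cons)

/-- Transfer along an isomorphism. -/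
theorem transfer {G G' : Type*} [Group G] [Group G'] (e : G ≃* G') {N : ℕ}
    (h : (∀ H : Subgroup G, H ≠ ⊤ → N ≤ H.index) ∧ ∃ H : Subgroup G, H.index = N) :
    (∀ H : Subgroup G', H ≠ ⊤ → N ≤ H.index) ∧ ∃ H : Subgroup G', H.index = N := by
  constructor
  · intro H hH
    have h1 := h.1 (H.comap e.toMonoidHom) (by
      intro h0
      apply hH
      rw [eq_top_iff]
      intro x _
      obtain ⟨y, rfl⟩ := e.surjective x
      have : y ∈ H.comap e.toMonoidHom := by
        rw [h0]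
        trivial
      exact this)
    rwa [Subgroup.index_comap_of_surjective _ e.surjective] at h1
  · obtain ⟨H, hH⟩ := h.2
    refine ⟨H.comap e.symm.toMonoidHom, ?_⟩
    rw [Subgroup.index_comap_of_surjective _ e.symm.surjective, hH]

section Base

open _root_.Classical in
/-- A lower bound for a number of vectors. -/
theorem le_cnt_of_inj {V W F : Type*} [Fintype V] [Field F] (Q : V → F) (κ : F) (s : Finset W) (f : W → V)
    (hf : ∀ z ∈ s, Q (f z) = κ) (hinj : Set.InjOn f s) : s.card ≤ cnt Q κ := by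
  rw [cnt]
  apply Finset.card_le_card_of_injOn f
  · intro z hz
    exact Finset.mem_coe.2 (Finset.mem_filter.2 ⟨Finset.mem_univ _, hf z hz⟩)
  · exact hinj

/-- The binary form over the field with three elements. -/
theorem base_three (κ : ZMod 3) (hκ : κ ≠ 0) : 4 ≤ cnt (Cfsg.quadFormMinus 0 (ZMod 3) 0 1) κ := by
  have h1 : ∀ κ : ZMod 3, κ ≠ 0 →
      ((Finset.univ : Finset (ZMod 3 × ZMod 3)).filter (fun z => z.1 ^ 2 + 0 * z.1 * z.2 + 1 * z.2 ^ 2 = κ)).card = 4 := by
    decide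
  rw [← h1 κ hκ]
  apply le_cnt_of_inj _ κ _
    (fun z => (Sum.elim (fun i => i.elim (fun j => j.elim0) (fun j => j.elim0)) ![z.1, z.2] : (Fin 0 ⊕ Fin 0) ⊕ Fin 2 → ZMod 3))
  · intro z hz
    have hz' := (Finset.mem_filter.1 hz).2
    simpa [Cfsg.quadFormMinus] using hz'
  · intro z _ z' _ e
    have e0 := congrFun e (Sum.inr 0)
    have e1 := congrFun e (Sum.inr 1)
    simp only [Sum.elim_inr, Matrix.cons_val_zero, Matrix.cons_val_one, Matrix.head_cons] at e0 e1
    exact Prod.ext e0 e1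

/-- The form in dimension six over the field with three elements. -/
theorem count_three (κ : ZMod 3) (hκ : κ ≠ 0) : 252 ≤ cnt (Cfsg.quadFormMinus 2 (ZMod 3) 0 1) κ := by
  have hF : Fintype.card (ZMod 3) = 3 := ZMod.card 3
  have h0 := base_three κ hκ
  have h1 := cnt_cons (Cfsg.Agent.Lib.Linalg.OrthModels.consMinusF (ZMod 3) 0).toEquiv (Cfsg.quadFormMinus 1 (ZMod 3) 0 1)
    (Cfsg.quadFormMinus 0 (ZMod 3) 0 1) (Cfsg.Agent.Lib.Linalg.OrthModels.quadFormMinus_consMinusF 0 0 1) κ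
  have h2 := cnt_cons (Cfsg.Agent.Lib.Linalg.OrthModels.consMinusF (ZMod 3) 1).toEquiv (Cfsg.quadFormMinus 2 (ZMod 3) 0 1)
    (Cfsg.quadFormMinus 1 (ZMod 3) 0 1) (Cfsg.Agent.Lib.Linalg.OrthModels.quadFormMinus_consMinusF 1 0 1) κ
  have c1 : Fintype.card ((Fin 0 ⊕ Fin 0) ⊕ Fin 2 → ZMod 3) = 9 := by
    simp [hF]
  have c2 : Fintype.card ((Fin 1 ⊕ Fin 1) ⊕ Fin 2 → ZMod 3) = 81 := by
    simp [hF]
  rw [c1, hF] at h1
  rw [c2, hF] at h2
  omega

end Base

variable {F : Type*} [Field F] [Fintype F]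

/-- A field with given number of elements. -/
theorem exists_sub_field (q : ℕ) (hF : Fintype.card F = q ^ 2) (hq : 2 ≤ q) :
    ∃ (F₀ : Type) (_ : Field F₀) (_ : Fintype F₀), Fintype.card F₀ = q := by
  classical
  obtain ⟨p, hchar⟩ := CharP.exists F
  haveI := hchar
  have hp : p.Prime := CharP.char_is_prime F p
  haveI : Fact p.Prime := ⟨hp⟩
  obtain ⟨n, hn, hn'⟩ := FiniteField.card F p
  have hd : q ∣ p ^ (n : ℕ) := by
    rw [← hn', hF]
    exact dvd_pow_self q (by norm_num)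
  obtain ⟨k, hk, rfl⟩ := (Nat.dvd_prime_pow hp).1 hd
  have hk0 : k ≠ 0 := by
    rintro rfl
    simp at hq
  letI : Fintype (GaloisField p k) := Fintype.ofFinite _
  refine ⟨GaloisField p k, inferInstance, inferInstance, ?_⟩
  rw [← Nat.card_eq_fintype_card, GaloisField.card p k hk0]

/-- An irreducible polynomial of the Artin-Schreier type. -/
theorem exists_no_root₀ (F₀ : Type) [Field F₀] [Fintype F₀] : ∃ ζ : F₀, ∀ t : F₀, t ^ 2 + t + ζ ≠ 0 := by
  have hni : ¬ Function.Injective (fun t : F₀ => t ^ 2 + t) := by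
    intro hinj
    have h1 : (0 : F₀) = -1 := hinj (by ring)
    have h2 : (1 : F₀) = 0 := by linear_combination h1
    exact one_ne_zero h2
  have hns : ¬ Function.Surjective (fun t : F₀ => t ^ 2 + t) := fun hs => hni (Finite.injective_iff_surjective.2 hs)
  simp only [Function.Surjective, not_forall, not_exists] at hns
  obtain ⟨w, hw⟩ := hns
  refine ⟨-w, fun t h0 => hw t ?_⟩
  linear_combination h0

/-- **The minimal index for the projective special unitary groups of degree four.** -/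
theorem main (q : ℕ) (hF : Fintype.card F = q ^ 2) (hq : 2 ≤ q) :
    (∀ H : Subgroup (Cfsg.PSU 4 F q), H ≠ ⊤ → (q + 1) * (q ^ 3 + 1) ≤ H.index) ∧
      ∃ H : Subgroup (Cfsg.PSU 4 F q), H.index = (q + 1) * (q ^ 3 + 1) := by
  rcases Nat.lt_or_ge q 4 with h4 | h4
  · have hq23 : q = 2 ∨ q = 3 := by omega
    rcases hq23 with rfl | rfl
    · have hab : ∀ z₁ z₂ : ZMod 2, z₁ ^ 2 + 1 * z₁ * z₂ + 1 * z₂ ^ 2 = 0 → z₁ = 0 ∧ z₂ = 0 := by decide
      obtain ⟨e⟩ := Cfsg.Agent.S0303.result (F := ZMod 2) (K := F) (q := 2) (ZMod.card 2) hF 1 1 hab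
      exact transfer e (Cfsg.Agent.Lib.MinIndex.M6.Two.m6_two (ZMod.card 2) 1 1 hab)
    · have hab : ∀ z₁ z₂ : ZMod 3, z₁ ^ 2 + 0 * z₁ * z₂ + 1 * z₂ ^ 2 = 0 → z₁ = 0 ∧ z₂ = 0 := by decide
      obtain ⟨e⟩ := Cfsg.Agent.S0303.result (F := ZMod 3) (K := F) (q := 3) (ZMod.card 3) hF 0 1 hab
      exact transfer e (Cfsg.Agent.Lib.MinIndex.M6.Three.m6_three (ZMod.card 3) 0 1 hab count_three)
  · obtain ⟨F₀, _, _, hF₀⟩ := exists_sub_field q hF hq
    obtain ⟨ζ, hζ⟩ := exists_no_root₀ F₀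
    have hab := Cfsg.Agent.Lib.Classical.Witt.Index.anisotropic_of_no_root hζ
    obtain ⟨e⟩ := Cfsg.Agent.S0303.result (F := F₀) (K := F) (q := q) hF₀ hF 1 ζ hab
    exact transfer e (Cfsg.Agent.Lib.MinIndex.M6.Final.m6_large hF₀ h4 1 ζ hab)

end Cfsg.Agent.Lib.MinIndex.M6.Main
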