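import Mathlib
import Cfsg.Agent.Lib.MinIndex.M6.Good

/-!
# Minimal degree of the orthogonal groups: the types of annihilators
-/

set_option autoImplicit false
set_option linter.unusedSectionVars false
set_option linter.unusedSimpArgs false
set_option linter.unusedVariables false

namespace Cfsg.Agent.Lib.MinIndex.M6.Types

open Matrix QuadraticMap Module
open Cfsg.Agent.Lib.Classical.Orth.Basic
open Cfsg.Agent.Lib.Classical.Witt.Hyp
open Cfsg.Agent.Lib.MinIndex.SpCount Cfsg.Agent.Lib.MinIndex.UCount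
open Cfsg.Agent.Lib.MinIndex.M6.Base Cfsg.Agent.Lib.MinIndex.M6.Vec Cfsg.Agent.Lib.MinIndex.M6.Good

variable {ι : Type} [Fintype ι] [DecidableEq ι] {F : Type*} [Field F] [Fintype F]
variable {Q : QuadraticForm F (ι → F)} [OC Q]

set_option quotPrecheck false in
local notation "𝔣" => polar (⇑Q)

variable {c c' : ι → F}

/-! ### Invariant subgroups of the complement -/

/-- Invariance under the Eichler transformations fixing a vector. -/
def InvU (Q : QuadraticForm F (ι → F)) [OC Q] (c c' : ι → F) (S : AddSubgroup (ι → F)) (u : ι → F) : Prop :=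
  ∀ (e b : ι → F) (he : Q e = 0) (hb : polar (⇑Q) e b = 0), e ∈ WW Q c c' → b ∈ WW Q c c' →
    polar (⇑Q) u e = 0 → polar (⇑Q) u b = 0 →
    ∀ x ∈ S, act (E he hb).1 x ∈ S

/-- A singular vector perpendicular to `u` and not to `x`. -/
theorem exists_sing_sep (h : HP Q c c') {u x : ι → F} (hu : u ∈ WW Q c c') (hx : x ∈ WW Q c c') (hQu : Q u ≠ 0)
    (hxu : ∀ t : F, x ≠ t • u) : ∃ e, Q e = 0 ∧ e ∈ WW Q c c' ∧ 𝔣 u e = 0 ∧ 𝔣 x e ≠ 0 := by
  by_contra hcon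
  push Not at hcon
  obtain ⟨a, a', ha, ha1, ha2, ha3, ha4⟩ := exists_room h hu (Or.inl hQu)
  set Y : Submodule F (ι → F) := (WW Q c c') ⊓ LinearMap.ker (polarBilin Q u) with hY
  have hmem : ∀ {y}, y ∈ Y ↔ y ∈ WW Q c c' ∧ 𝔣 u y = 0 := by
    intro y
    rw [hY, Submodule.mem_inf, LinearMap.mem_ker]
    rfl
  obtain ⟨t, ht⟩ := eq_smul_of_perp h hu hx (fun y hy1 hy2 =>
    perp_of_sing ha (hmem.2 ⟨ha1, ha3⟩) (hmem.2 ⟨ha2, ha4⟩)
      (fun e he heq => hcon e heq (hmem.1 he).1 (hmem.1 he).2) (hmem.2 ⟨hy1, hy2⟩))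
  exact hxu t ht

/-- A nonsingular vector perpendicular to a vector and a singular vector. -/
theorem exists_perp_nonsing (h : HP Q c c') {u e : ι → F} (he : Q e = 0) (heW : e ∈ WW Q c c') (he0 : e ≠ 0) :
    ∃ w, w ∈ WW Q c c' ∧ 𝔣 u w = 0 ∧ 𝔣 e w = 0 ∧ Q w ≠ 0 := by
  classical
  have hdim := OC.dim (Q := Q)
  obtain ⟨w, hw, hw'⟩ := exists_orth_vec (Q := Q) ![c, c', u, e] (Submodule.span F {e}) (by
    rw [finrank_span_singleton he0]
    omega)
  have hwW : w ∈ WW Q c c' := mem_WW.2 ⟨hw 0, hw 1⟩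
  refine ⟨w, hwW, hw 2, hw 3, fun hQw => ?_⟩
  obtain ⟨t, ht⟩ := prop_of_perp h heW hwW he hQw (hw 3) he0
  apply hw'
  rw [ht]
  exact Submodule.smul_mem _ _ (Submodule.mem_span_singleton_self e)

/-- The basic step of the analysis of a subgroup invariant under the Eichler transformations fixing `u`, in odd
characteristic. -/
theorem inv_step (h2 : (2 : F) ≠ 0) (h : HP Q c c') {S : AddSubgroup (ι → F)} {u x : ι → F} (hS : InvU Q c c' S u)
    (hu : u ∈ WW Q c c') (hx : x ∈ WW Q c c') (hQu : Q u ≠ 0) (hxS : x ∈ S) (hxu : ∀ t : F, x ≠ t • u) :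
    ∃ e, Q e = 0 ∧ e ∈ WW Q c c' ∧ 𝔣 u e = 0 ∧ 𝔣 x e ≠ 0 ∧ (∀ s : F, s • e ∈ S) ∧
      ∀ b ∈ WW Q c c', 𝔣 u b = 0 → 𝔣 e b = 0 → b ∈ S := by
  classical
  obtain ⟨e, he, heW, heu, hxe⟩ := exists_sing_sep h hu hx hQu hxu
  refine ⟨e, he, heW, heu, hxe, ?_⟩
  have he0 : e ≠ 0 := by
    rintro rfl
    apply hxe
    simp [polar]
  set a₀ := 𝔣 e x with ha₀
  have ha₀0 : a₀ ≠ 0 := by rw [ha₀, polar_symm]; exact hxe
  -- the basic differences
  have hv : ∀ b, b ∈ WW Q c c' → 𝔣 u b = 0 → (hb : 𝔣 e b = 0) → a₀ • b - (𝔣 b x + Q b * a₀) • e ∈ S := by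
    intro b hbW hbu hb
    have h1 := hS e b he hb heW hbW heu hbu x hxS
    rw [act_E] at h1
    have h2 := S.sub_mem h1 hxS
    convert h2 using 1
    rw [← ha₀]
    module
  -- a pair of vectors with nonzero polar value
  obtain ⟨w, hwW, hwu, hwe, hQw⟩ := exists_perp_nonsing (u := u) h he heW he0
  have h2Q : 2 * Q w ≠ 0 := mul_ne_zero h2 hQw
  obtain ⟨b₁, b₂, hb₂1, hb₁W, hb₂W, hc3, hc4, hd3, hd4⟩ : ∃ b₁ b₂ : ι → F, 𝔣 b₁ b₂ = 1 ∧ b₁ ∈ WW Q c c' ∧
      b₂ ∈ WW Q c c' ∧ 𝔣 u b₁ = 0 ∧ 𝔣 e b₁ = 0 ∧ 𝔣 u b₂ = 0 ∧ 𝔣 e b₂ = 0 := by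
    refine ⟨w, (2 * Q w)⁻¹ • w, ?_, hwW, Submodule.smul_mem _ _ hwW, hwu, hwe, ?_, ?_⟩
    · rw [polar_smul_right', polar_self_eq, inv_mul_cancel₀ h2Q]
    · rw [polar_smul_right', hwu, mul_zero]
    · rw [polar_smul_right', hwe, mul_zero]
  -- the line of `e`
  have hline : ∀ s : F, s • e ∈ S := by
    intro s
    set l := -(s / a₀) with hl
    have h1 := hv (l • b₁ + b₂) (Submodule.add_mem _ (Submodule.smul_mem _ _ hb₁W) hb₂W)
      (by rw [polar_add_right, polar_smul_right', hc3, hd3]; ring)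
      (by rw [polar_add_right, polar_smul_right', hc4, hd4]; ring)
    have h2 := hv (l • b₁) (Submodule.smul_mem _ _ hb₁W) (by rw [polar_smul_right', hc3]; ring)
      (by rw [polar_smul_right', hc4]; ring)
    have h3 := hv b₂ hb₂W hd3 hd4
    have h4 := S.sub_mem (S.sub_mem h1 h2) h3
    convert h4 using 1
    rw [Q_add, polar_add_left, polar_smul_left' (Q := Q) l b₁ b₂, hb₂1]
    have h5 : s = -(l * a₀) := by
      rw [hl]
      field_simp
    rw [h5]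
    module
  refine ⟨hline, fun b hbW hbu hb => ?_⟩
  have h1 := hv (a₀⁻¹ • b) (Submodule.smul_mem _ _ hbW) (by rw [polar_smul_right', hbu]; ring)
    (by rw [polar_smul_right', hb]; ring)
  have h2 := S.add_mem h1 (hline (𝔣 (a₀⁻¹ • b) x + Q (a₀⁻¹ • b) * a₀))
  rw [sub_add_cancel, smul_smul, mul_inv_cancel₀ ha₀0, one_smul] at h2
  exact h2

/-- The perp of `u` in the invariant subgroup, in odd characteristic. -/
theorem inv_perp (h2 : (2 : F) ≠ 0) (h : HP Q c c') {S : AddSubgroup (ι → F)} {u x : ι → F} (hS : InvU Q c c' S u)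
    (hu : u ∈ WW Q c c') (hx : x ∈ WW Q c c') (hxS : x ∈ S) (hxu : ∀ t : F, x ≠ t • u) (hQu : Q u ≠ 0)
    {y : ι → F} (hy : y ∈ WW Q c c') (hyu : 𝔣 u y = 0) : y ∈ S := by
  obtain ⟨e, he, heW, heu, hxe, hline, -⟩ := inv_step h2 h hS hu hx hQu hxS hxu
  have he0 : e ≠ 0 := by
    rintro rfl
    apply hxe
    simp [polar]
  have heS : e ∈ S := by
    have := hline 1
    rwa [one_smul] at this
  have heu' : ∀ t : F, e ≠ t • u := by
    intro t ht
    have h1 : Q e = t * t * Q u := by rw [ht, Q_smul]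
    rw [he] at h1
    have ht0 : t = 0 := by
      by_contra ht0
      exact (mul_ne_zero (mul_ne_zero ht0 ht0) hQu) h1.symm
    apply he0
    rw [ht, ht0, zero_smul]
  obtain ⟨e', he', he'W, he'u, hee', hline', hperp'⟩ := inv_step h2 h hS hu heW hQu heS heu'
  have he'e : 𝔣 e' e ≠ 0 := by rwa [polar_symm]
  set s := 𝔣 e' y / 𝔣 e' e with hs
  have h1 : y - s • e ∈ S := by
    apply hperp' _ (Submodule.sub_mem _ hy (Submodule.smul_mem _ _ heW))
    · rw [polar_sub_right, polar_smul_right', hyu, heu]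
      ring
    · rw [polar_sub_right, polar_smul_right', hs]
      field_simp
      ring
  have h2 := S.add_mem h1 (hline s)
  rwa [sub_add_cancel] at h2

/-- In characteristic two every element is a square. -/
theorem exists_sq (h2 : (2 : F) = 0) (r : F) : ∃ s : F, s * s = r := by
  have hinj : Function.Injective (fun s : F => s * s) := by
    intro a b hab
    have e : (a - b) * (a - b) = 0 := by
      have h1 : a * a = b * b := hab
      linear_combination h1 - (a * b - b * b) * h2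
    exact sub_eq_zero.1 (mul_self_eq_zero.1 e)
  exact (Finite.injective_iff_surjective.1 hinj) r

section Even

variable (h2 : (2 : F) = 0) (h : HP Q c c') {S : AddSubgroup (ι → F)} {u : ι → F} (hS : InvU Q c c' S u)
  (hu : u ∈ WW Q c c')

include h2 h hS hu

/-- The basic differences in characteristic two. -/
theorem even_L1 {e x : ι → F} (he : Q e = 0) (heW : e ∈ WW Q c c') (heu : 𝔣 u e = 0) (hxS : x ∈ S) (t : F) :
    (t * 𝔣 e x) • u - (t * 𝔣 u x + t * t * Q u * 𝔣 e x) • e ∈ S := by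
  have hub : 𝔣 u (t • u) = 0 := by
    rw [polar_smul_right', polar_self_eq, h2]
    ring
  have heb : 𝔣 e (t • u) = 0 := by
    rw [polar_smul_right', polar_symm, heu, mul_zero]
  have h1 := hS e (t • u) he heb heW (Submodule.smul_mem _ _ hu) heu hub x hxS
  rw [act_E] at h1
  have h3 := S.sub_mem h1 hxS
  convert h3 using 1
  rw [polar_smul_left', Q_smul]
  module

/-- A line in the subgroup gives lines of singular vectors and the line of `u`. -/
theorem even_lines {σ : F} (hσ0 : σ ≠ 0) (hσ1 : σ ≠ 1) (hQu : Q u ≠ 0) {v e : ι → F} (hvu : 𝔣 u v = 0)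
    (hv : ∀ s : F, s • v ∈ S) (he : Q e = 0) (heW : e ∈ WW Q c c') (heu : 𝔣 u e = 0) (hev : 𝔣 e v ≠ 0) (r : F) :
    r • e ∈ S ∧ r • u ∈ S := by
  set a := 𝔣 e v with ha
  set κ := Q u with hκ
  have hL : ∀ (l s : F), l ≠ 0 → s • u - (s * s * κ / (l * a)) • e ∈ S := by
    intro l s hl
    have h1 := even_L1 h2 h hS hu he heW heu (hv l) (s / (l * a))
    rw [polar_smul_right', polar_smul_right', hvu] at h1
    have e1 : s / (l * a) * (l * 𝔣 e v) = s := by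
      rw [← ha]
      field_simp
    have e2 : s / (l * a) * (l * 0) + s / (l * a) * (s / (l * a)) * Q u * (l * 𝔣 e v) = s * s * κ / (l * a) := by
      rw [← ha, ← hκ]
      field_simp
      ring
    rw [e1, e2] at h1
    exact h1
  have hδ : (σ - 1) ≠ 0 := sub_ne_zero.2 hσ1
  have hr : ∀ r : F, r • e ∈ S := by
    intro r
    obtain ⟨s, hs⟩ := exists_sq h2 (r * a * σ / (κ * (σ - 1)))
    have h1 := S.sub_mem (hL σ s hσ0) (hL 1 s one_ne_zero)
    convert h1 using 1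
    have e1 : s * s * κ / (1 * a) - s * s * κ / (σ * a) = r := by
      rw [hs]
      field_simp
    have e2 : s • u - (s * s * κ / (σ * a)) • e - (s • u - (s * s * κ / (1 * a)) • e) =
        (s * s * κ / (1 * a) - s * s * κ / (σ * a)) • e := by module
    rw [e2, e1]
  refine ⟨hr r, ?_⟩
  have h1 := S.add_mem (hL 1 r one_ne_zero) (hr (r * r * κ / (1 * a)))
  rwa [sub_add_cancel] at h1

/-- The perp of `u` in the invariant subgroup, in characteristic two over a field with more than two elements. -/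
theorem inv_perp_even (hq : ∃ σ : F, σ ≠ 0 ∧ σ ≠ 1) {x : ι → F} (hx : x ∈ WW Q c c') (hxS : x ∈ S)
    (hxu : ∀ t : F, x ≠ t • u) (hQu : Q u ≠ 0) {y : ι → F} (hy : y ∈ WW Q c c') (hyu : 𝔣 u y = 0) : y ∈ S := by
  classical
  obtain ⟨σ, hσ0, hσ1⟩ := hq
  have hσ1' : 1 + σ ≠ 0 := by
    intro e
    apply hσ1
    linear_combination e - h2
  set κ := Q u with hκ
  have hprop : ∀ {e r : ι → F} {β r' : F}, Q e = 0 → e ≠ 0 → β ≠ 0 → ∀ z : ι → F, z = r' • u - β • e → ∀ t : F, z ≠ t • u := by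
    intro e r β r' he he0 hβ z hz t ht
    have e1 : e = (β⁻¹ * (r' - t)) • u := by
      have e2 : β • e = (r' - t) • u := by
        rw [ht] at hz
        linear_combination (norm := module) hz
      have e3 : β⁻¹ • (β • e) = e := by rw [smul_smul, inv_mul_cancel₀ hβ, one_smul]
      rw [← e3, e2, smul_smul]
    have e2 : Q e = (β⁻¹ * (r' - t)) * (β⁻¹ * (r' - t)) * κ := by
      rw [e1, Q_smul]
    rw [he] at e2
    have e3 : β⁻¹ * (r' - t) = 0 := by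
      by_contra hne
      exact (mul_ne_zero (mul_ne_zero hne hne) hQu) e2.symm
    apply he0
    rw [e1, e3, zero_smul]
  -- a vector of the subgroup in the perp of `u`
  obtain ⟨x₁, hx₁W, hx₁S, hx₁u, hx₁p⟩ : ∃ x₁ ∈ WW Q c c', x₁ ∈ S ∧ 𝔣 u x₁ = 0 ∧ ∀ t : F, x₁ ≠ t • u := by
    by_cases hux : 𝔣 u x = 0
    · exact ⟨x, hx, hxS, hux, hxu⟩
    · obtain ⟨e₀, he₀, he₀W, he₀u, hxe₀⟩ := exists_sing_sep h hu hx hQu hxu
      have he₀0 : e₀ ≠ 0 := by
        rintro rfl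
        apply hxe₀
        simp [polar]
      set a₀ := 𝔣 e₀ x with ha₀
      have ha₀0 : a₀ ≠ 0 := by rw [ha₀, polar_symm]; exact hxe₀
      set τ := 𝔣 u x / (κ * a₀) with hτ
      have hκ0 : κ ≠ 0 := hQu
      have hτ0 : τ ≠ 0 := div_ne_zero hux (mul_ne_zero hQu ha₀0)
      set t := τ * σ with ht
      have ht0 : t ≠ 0 := mul_ne_zero hτ0 hσ0
      set β := t * 𝔣 u x + t * t * κ * a₀ with hβ
      have hβ0 : β ≠ 0 := by
        have e1 : β = t * ((1 + σ) * 𝔣 u x) := by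
          rw [hβ, ht, hτ]
          field_simp
        rw [e1]
        exact mul_ne_zero ht0 (mul_ne_zero hσ1' hux)
      have h1 := even_L1 h2 h hS hu he₀ he₀W he₀u hxS t
      rw [← ha₀, ← hκ, ← hβ] at h1
      refine ⟨_, Submodule.sub_mem _ (Submodule.smul_mem _ _ hu) (Submodule.smul_mem _ _ he₀W), h1, ?_,
        hprop (r := 0) he₀ he₀0 hβ0 _ rfl⟩
      rw [polar_sub_right, polar_smul_right', polar_smul_right', he₀u, polar_self_eq, h2]
      ring
  -- two singular vectors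
  obtain ⟨e₁, he₁, he₁W, he₁u, hx₁e₁⟩ := exists_sing_sep h hu hx₁W hQu hx₁p
  have he₁0 : e₁ ≠ 0 := by
    rintro rfl
    apply hx₁e₁
    simp [polar]
  have he₁p : ∀ t : F, e₁ ≠ t • u := by
    have := hprop (r := 0) (r' := 0) (β := -1) he₁ he₁0 (neg_ne_zero.2 one_ne_zero) e₁ (by simp)
    exact this
  obtain ⟨y₀, hy₀W, hy₀1, hy₀2⟩ : ∃ y₀ ∈ WW Q c c', 𝔣 u y₀ = 0 ∧ 𝔣 e₁ y₀ = 1 := by
    by_contra hcon
    push Not at hcon
    obtain ⟨t, ht⟩ := eq_smul_of_perp h hu he₁W (fun y hy1 hy2 => by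
      by_contra hne
      apply hcon ((𝔣 e₁ y)⁻¹ • y) (Submodule.smul_mem _ _ hy1) (by rw [polar_smul_right', hy2]; ring)
      rw [polar_smul_right', inv_mul_cancel₀ hne])
    exact he₁p t ht
  set y₁ := y₀ - Q y₀ • e₁ with hy₁
  have hy₁W : y₁ ∈ WW Q c c' := Submodule.sub_mem _ hy₀W (Submodule.smul_mem _ _ he₁W)
  have hHP : HP Q e₁ y₁ := by
    refine ⟨he₁, ?_, ?_⟩
    · rw [hy₁, Q_sub, Q_smul, he₁, polar_smul_right', polar_symm y₀ e₁, hy₀2]
      ring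
    · rw [hy₁, polar_sub_right, polar_smul_right', polar_zero_self he₁, hy₀2]
      ring
  have hy₁u : 𝔣 u y₁ = 0 := by
    rw [hy₁, polar_sub_right, polar_smul_right', hy₀1, he₁u]
    ring
  -- the second singular vector
  obtain ⟨e₂, he₂, he₂W, he₂u, hx₁e₂, he₁e₂⟩ : ∃ e₂, Q e₂ = 0 ∧ e₂ ∈ WW Q c c' ∧ 𝔣 u e₂ = 0 ∧ 𝔣 e₂ x₁ ≠ 0 ∧ 𝔣 e₁ e₂ = 1 := by
    by_cases hyx : 𝔣 y₁ x₁ = 0
    · obtain ⟨r, hr⟩ := exists_sq h2 κ⁻¹
      refine ⟨e₁ + y₁ + r • u, ?_, ?_, ?_, ?_, ?_⟩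
      · have e1 : r • u ∈ WW Q e₁ y₁ := by
          refine Submodule.smul_mem _ _ (mem_WW.2 ⟨?_, ?_⟩)
          · rw [polar_symm]
            exact he₁u
          · rw [polar_symm]
            exact hy₁u
        have e2 := Q_triple hHP (u := u) (mem_WW.2 ⟨by rw [polar_symm]; exact he₁u, by rw [polar_symm]; exact hy₁u⟩) 1 1 r
        rw [one_smul, one_smul] at e2
        rw [e2, ← hκ, hr, inv_mul_cancel₀ hQu]
        linear_combination h2
      · exact Submodule.add_mem _ (Submodule.add_mem _ he₁W hy₁W) (Submodule.smul_mem _ _ hu)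
      · rw [polar_add_right, polar_add_right, polar_smul_right', he₁u, hy₁u, polar_self_eq, h2]
        ring
      · rw [polar_add_left, polar_add_left, polar_smul_left', hyx, hx₁u]
        simp only [add_zero, mul_zero]
        rwa [polar_symm]
      · rw [polar_add_right, polar_add_right, polar_smul_right', polar_zero_self he₁, hHP.hp, polar_symm e₁ u, he₁u]
        ring
    · exact ⟨y₁, hHP.hc', hy₁W, hy₁u, hyx, hHP.hp⟩
  have ha₁ : 𝔣 e₁ x₁ ≠ 0 := by rwa [polar_symm]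
  set a₁ := 𝔣 e₁ x₁ with ha₁d
  set a₂ := 𝔣 e₂ x₁ with ha₂d
  set v := a₁⁻¹ • e₁ - a₂⁻¹ • e₂ with hv
  have hvu : 𝔣 u v = 0 := by
    rw [hv, polar_sub_right, polar_smul_right', polar_smul_right', he₁u, he₂u]
    ring
  have hvW : v ∈ WW Q c c' := Submodule.sub_mem _ (Submodule.smul_mem _ _ he₁W) (Submodule.smul_mem _ _ he₂W)
  have hvS : ∀ s : F, s • v ∈ S := by
    intro s
    obtain ⟨t, ht⟩ := exists_sq h2 (s / κ)
    have h1 := even_L1 h2 h hS hu he₁ he₁W he₁u hx₁S (t * a₁⁻¹)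
    have h3 := even_L1 h2 h hS hu he₂ he₂W he₂u hx₁S (t * a₂⁻¹)
    rw [← ha₁d, hx₁u, ← hκ] at h1
    rw [← ha₂d, hx₁u, ← hκ] at h3
    have h4 := S.sub_mem h3 h1
    convert h4 using 1
    have e1 : t * a₁⁻¹ * a₁ = t := by field_simp
    have e2 : t * a₂⁻¹ * a₂ = t := by field_simp
    rw [e1, e2, hv]
    have e3 : t * a₁⁻¹ * 0 + t * a₁⁻¹ * (t * a₁⁻¹) * κ * a₁ = s * a₁⁻¹ := by
      have e4 : t * t = s / κ := ht
      have e5 : t * a₁⁻¹ * 0 + t * a₁⁻¹ * (t * a₁⁻¹) * κ * a₁ = (t * t) * κ * a₁⁻¹ := by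
        have e6 : a₁⁻¹ * a₁ = 1 := inv_mul_cancel₀ ha₁
        linear_combination t * t * κ * a₁⁻¹ * e6
      rw [e5, e4]
      field_simp
    have e4' : t * a₂⁻¹ * 0 + t * a₂⁻¹ * (t * a₂⁻¹) * κ * a₂ = s * a₂⁻¹ := by
      have e4 : t * t = s / κ := ht
      have e5 : t * a₂⁻¹ * 0 + t * a₂⁻¹ * (t * a₂⁻¹) * κ * a₂ = (t * t) * κ * a₂⁻¹ := by
        have e6 : a₂⁻¹ * a₂ = 1 := inv_mul_cancel₀ hx₁e₂
        linear_combination t * t * κ * a₂⁻¹ * e6
      rw [e5, e4]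
      field_simp
    rw [e3, e4']
    module
  have hev : 𝔣 e₁ v ≠ 0 := by
    rw [hv, polar_sub_right, polar_smul_right', polar_smul_right', polar_zero_self he₁, he₁e₂]
    simp only [mul_zero, zero_sub, mul_one]
    exact neg_ne_zero.2 (inv_ne_zero hx₁e₂)
  -- lines of singular vectors
  have hlines₁ := fun r => even_lines h2 h hS hu hσ0 hσ1 hQu hvu hvS he₁ he₁W he₁u hev r
  have hall : ∀ e ∈ WW Q c c', Q e = 0 → 𝔣 u e = 0 → e ∈ S := by
    intro e heW he heu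
    by_cases he₁e : 𝔣 e e₁ = 0
    · obtain ⟨t, ht⟩ := prop_of_perp h he₁W heW he₁ he (by rw [polar_symm]; exact he₁e) he₁0
      rw [ht]
      exact (hlines₁ t).1
    · have h1 := even_lines h2 h hS hu hσ0 hσ1 hQu he₁u (fun s => (hlines₁ s).1) he heW heu he₁e 1
      rw [one_smul] at h1
      exact h1.1
  set Y : Submodule F (ι → F) := (WW Q c c') ⊓ LinearMap.ker (polarBilin Q u) with hY
  have hmem : ∀ {y}, y ∈ Y ↔ y ∈ WW Q c c' ∧ 𝔣 u y = 0 := by
    intro y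
    rw [hY, Submodule.mem_inf, LinearMap.mem_ker]
    rfl
  exact mem_of_sing hHP (hmem.2 ⟨he₁W, he₁u⟩) (hmem.2 ⟨hy₁W, hy₁u⟩) S
    (fun e he heq => hall e (hmem.1 he).1 heq (hmem.1 he).2) (hmem.2 ⟨hy, hyu⟩)

end Even

/-- **The dichotomy for a subgroup with a nonsingular vector**. -/
theorem inv_dichotomy (h : HP Q c c') {S : AddSubgroup (ι → F)} (hSW : ∀ x ∈ S, x ∈ WW Q c c')
    (hperp : ∀ u ∈ S, Q u ≠ 0 → ∀ x ∈ S, (∀ t : F, x ≠ t • u) → ∀ y ∈ WW Q c c', 𝔣 u y = 0 → y ∈ S)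
    {u : ι → F} (huS : u ∈ S) (hQu : Q u ≠ 0) :
    (∀ x ∈ S, ∃ t : F, x = t • u) ∨ ∀ y ∈ WW Q c c', y ∈ S := by
  classical
  have hu := hSW u huS
  by_cases hall : ∀ x ∈ S, ∃ t : F, x = t • u
  · exact Or.inl hall
  right
  push Not at hall
  obtain ⟨x, hxS, hxu⟩ := hall
  have hperp₁ : ∀ y ∈ WW Q c c', 𝔣 u y = 0 → y ∈ S := hperp u huS hQu x hxS hxu
  obtain ⟨a, a', ha, ha1, ha2, ha3, ha4⟩ := exists_room h hu (Or.inl hQu)
  -- a second nonsingular vector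
  set u' := a + a' with hu'
  have hu'W : u' ∈ WW Q c c' := Submodule.add_mem _ ha1 ha2
  have hQu' : Q u' ≠ 0 := by
    rw [hu', Q_add, ha.hc, ha.hc', ha.hp]
    simp
  have hu'S : u' ∈ S := hperp₁ u' hu'W (by rw [hu', polar_add_right, ha3, ha4, add_zero])
  have huu' : ∀ t : F, u ≠ t • u' := by
    intro t ht
    have h1 : 𝔣 a u = t * 𝔣 a u' := by rw [ht, polar_smul_right']
    have h2 : 𝔣 a u = 0 := by rw [polar_symm]; exact ha3
    have h3 : 𝔣 a u' = 1 := by rw [hu', polar_add_right, ha.cc, ha.hp, zero_add]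
    rw [h2, h3, mul_one] at h1
    apply hQu
    rw [ht, ← h1, zero_smul]
    simp
  have hperp' : ∀ y ∈ WW Q c c', 𝔣 u' y = 0 → y ∈ S := hperp u' hu'S hQu' u huS huu'
  -- a vector perpendicular to `u'` and not to `u`
  obtain ⟨s, hs1, hs2, hs3⟩ : ∃ s, s ∈ WW Q c c' ∧ 𝔣 u' s = 0 ∧ 𝔣 u s = 1 := by
    by_contra hcon
    push Not at hcon
    obtain ⟨t, ht⟩ := eq_smul_of_perp h hu'W hu (fun y hy1 hy2 => by
      by_contra hne
      apply hcon ((𝔣 u y)⁻¹ • y) (Submodule.smul_mem _ _ hy1) (by rw [polar_smul_right', hy2]; ring)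
      rw [polar_smul_right', inv_mul_cancel₀ hne])
    exact huu' t ht
  intro y hy
  have h1 : y - 𝔣 u y • s ∈ S := hperp₁ _ (Submodule.sub_mem _ hy (Submodule.smul_mem _ _ hs1)) (by
    rw [polar_sub_right, polar_smul_right', hs3]
    ring)
  have h2 : 𝔣 u y • s ∈ S := hperp' _ (Submodule.smul_mem _ _ hs1) (by rw [polar_smul_right', hs2]; ring)
  have h3 := S.add_mem h1 h2
  rwa [sub_add_cancel] at h3

section Points

variable {Ω : Type*} [MulAction (GG Q) Ω] [Fintype Ω] (h : HP Q c c') (ψ : AddChar F ℂ) (hψ : ψ ≠ 1)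

/-- The annihilator as a subgroup of the whole space. -/
noncomputable def ANv (h : HP Q c c') (ψ : AddChar F ℂ) (hψ : ψ ≠ 1) (ω : Ω) : AddSubgroup (ι → F) :=
  (AN h ψ hψ ω).map (WW Q c c').subtype.toAddMonoidHom

theorem mem_ANv {ω : Ω} {x : ι → F} : x ∈ ANv h ψ hψ ω ↔ ∃ hx : x ∈ WW Q c c', (⟨x, hx⟩ : WW Q c c') ∈ AN h ψ hψ ω := by
  constructor
  · rintro ⟨y, hy, rfl⟩
    exact ⟨y.2, hy⟩
  · rintro ⟨hx, hy⟩
    exact ⟨_, hy, rfl⟩

/-- Eichler transformations in the complement scale the pair trivially. -/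
theorem nrm_E {e b : ι → F} (he : Q e = 0) (hb : 𝔣 e b = 0) (heW : e ∈ WW Q c c') (hbW : b ∈ WW Q c c') :
    Nrm (E he hb) 1 c c' :=
  Nrm.one_of_fix (act_E_of_perp he hb (WW_left' heW) (WW_left' hbW))
    (act_E_of_perp he hb (WW_right' heW) (WW_right' hbW))

/-- Invariance of the annihilator under a bound for the multiplicities of nonsingular vectors. -/
theorem inv_AN {p : ℕ} (hp : p.Prime) (hp0 : (p : F) = 0)
    (hmu : ∀ u : WW Q c c', Q u.1 ≠ 0 → mu h ψ hψ (Finset.univ : Finset Ω) u < p) (ω : Ω) :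
    ∀ v ∈ ANv h ψ hψ ω, Q v ≠ 0 → InvU Q c c' (ANv h ψ hψ ω) v := by
  intro v hv hQv e b he hb heW hbW hve hvb x hx
  obtain ⟨hvW, hv'⟩ := (mem_ANv h ψ hψ).1 hv
  obtain ⟨hxW, hx'⟩ := (mem_ANv h ψ hψ).1 hx
  obtain ⟨y, hy, hyx⟩ := AN_fix h ψ hψ (good_univ h) (Finset.mem_univ ω) hv' hp (E_pow_char he hb hp0)
    (nrm_E he hb heW hbW) (act_E_of_perp he hb (by rw [polar_symm]; exact hve) (by rw [polar_symm]; exact hvb))
    (hmu ⟨v, hvW⟩ hQv) hx'
  rw [(show act (E he hb).1 x = y.1 from hyx.symm)]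
  exact (mem_ANv h ψ hψ).2 ⟨y.2, hy⟩

/-- **Types**: under a bound for the multiplicities of nonsingular vectors, an annihilator with a nonsingular vector
is regular or in a line. -/
theorem AN_dichotomy {p : ℕ} (hp : p.Prime) (hp0 : (p : F) = 0) (hq : (2 : F) ≠ 0 ∨ ∃ σ : F, σ ≠ 0 ∧ σ ≠ 1)
    (hmu : ∀ u : WW Q c c', Q u.1 ≠ 0 → mu h ψ hψ (Finset.univ : Finset Ω) u < p) {ω : Ω} {u : WW Q c c'}
    (hu : u ∈ AN h ψ hψ ω) (hQu : Q u.1 ≠ 0) :
    (∀ x ∈ AN h ψ hψ ω, ∃ t : F, x.1 = t • u.1) ∨ AN h ψ hψ ω = ⊤ := by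
  have hinv := inv_AN h ψ hψ hp hp0 hmu ω
  have hSW : ∀ x ∈ ANv h ψ hψ ω, x ∈ WW Q c c' := fun x hx => ((mem_ANv h ψ hψ).1 hx).1
  rcases inv_dichotomy h hSW (fun v hv hQv x hxS hxv y hy hvy => by
      by_cases h2 : (2 : F) = 0
      · exact inv_perp_even h2 h (hinv v hv hQv) (hSW v hv) (hq.resolve_left (not_not.2 h2)) (hSW x hxS) hxS hxv hQv hy hvy
      · exact inv_perp h2 h (hinv v hv hQv) (hSW v hv) (hSW x hxS) hxS hxv hQv hy hvy)
      ((mem_ANv h ψ hψ).2 ⟨u.2, hu⟩) hQu with h1 | h1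
  · left
    intro x hx
    exact h1 x.1 ((mem_ANv h ψ hψ).2 ⟨x.2, hx⟩)
  · right
    rw [eq_top_iff]
    intro y _
    obtain ⟨_, hy⟩ := (mem_ANv h ψ hψ).1 (h1 y.1 y.2)
    exact hy

/-! ### Several orbits through a vector -/

/-- A family of points in distinct orbits through a vector gives a lower bound for its multiplicity. -/
theorem card_le_mu {I : Type*} [Fintype I] {Y1 : Finset Ω} (f : I → Ω) (hf : ∀ i, f i ∈ Y1) {u : WW Q c c'}
    (hu : ∀ i, u ∈ AN h ψ hψ (f i)) (hinj : ∀ i j, i ≠ j → (wS h Ω).orb (f i) ≠ (wS h Ω).orb (f j)) :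
    Fintype.card I ≤ mu h ψ hψ Y1 u := by
  classical
  rw [← Finset.card_univ]
  apply Finset.card_le_card_of_injOn (fun i => (wS h Ω).orb (f i))
  · intro i _
    refine Finset.mem_coe.mpr (Finset.mem_filter.mpr ⟨mem_Orbs.mpr ⟨f i, hf i, rfl⟩, f i, (wS h Ω).self_mem_orb _, hu i⟩)
  · intro i _ j _ e
    by_contra hij
    exact hinj i j hij e

/-- Distinct annihilators are in distinct orbits. -/
theorem orb_ne_of_AN_ne {ω ω' : Ω} (hne : AN h ψ hψ ω ≠ AN h ψ hψ ω') : (wS h Ω).orb ω ≠ (wS h Ω).orb ω' := by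
  intro e
  apply hne
  have h1 : ω ∈ (wS h Ω).orb ω' := by
    rw [← e]
    exact (wS h Ω).self_mem_orb ω
  exact SS_of_mem_orb h1

/-- The annihilator at an image contains the images. -/
theorem mem_AN_image {g : GG Q} (hN : Nrm g 1 c c') {ω : Ω} {z : ι → F} (hz : z ∈ ANv h ψ hψ ω) :
    act g.1 z ∈ ANv h ψ hψ (g • ω) := by
  obtain ⟨hzW, hz'⟩ := (mem_ANv h ψ hψ).1 hz
  have h1 := (mem_AN_nrm h ψ hψ hN (ω := ω)).2 hz'
  refine (mem_ANv h ψ hψ).2 ⟨hN.act_mem hzW, ?_⟩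
  have e : (⟨act g.1 z, hN.act_mem hzW⟩ : WW Q c c') = lvE hN 1⁻¹ (by simp) ⟨z, hzW⟩ :=
    Subtype.ext (by rw [coe_lvE, inv_one, one_smul])
  rw [e]
  exact h1

/-- Pull back elements of the annihilator at an image. -/
theorem mem_AN_preimage {g : GG Q} (hN : Nrm g 1 c c') {ω : Ω} {z : ι → F} (hz : act g.1 z ∈ ANv h ψ hψ (g • ω)) :
    z ∈ ANv h ψ hψ ω := by
  obtain ⟨hzW, hz'⟩ := (mem_ANv h ψ hψ).1 hz
  have hzW' : z ∈ WW Q c c' := by
    have := hN.inv.act_mem hzW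
    rwa [act_GG_inv_act] at this
  refine (mem_ANv h ψ hψ).2 ⟨hzW', ?_⟩
  apply (mem_AN_nrm h ψ hψ hN (ω := ω)).1
  have e : lvE hN 1⁻¹ (by simp) ⟨z, hzW'⟩ = (⟨act g.1 z, hzW⟩ : WW Q c c') :=
    Subtype.ext (by rw [coe_lvE, inv_one, one_smul])
  rw [e]
  exact hz'

/-- The vector stays in the images. -/
theorem mem_image_u {u : ι → F} {g : GG Q} (hN : Nrm g 1 c c') (hgu : act g.1 u = u) {ω : Ω} (huA : u ∈ ANv h ψ hψ ω) :
    u ∈ ANv h ψ hψ (g • ω) := by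
  have := mem_AN_image h ψ hψ hN huA
  rwa [hgu] at this

end Points

end Cfsg.Agent.Lib.MinIndex.M6.Types
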