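import Mathlib
import Cfsg.Agent.Lib.MinIndex.M6.Types
import Cfsg.Agent.Lib.MinIndex.M6.Line

/-!
# Minimal degree of the orthogonal groups: torus elements, annihilators under conjugation
-/

set_option autoImplicit false
set_option linter.unusedSectionVars false
set_option linter.unusedSimpArgs false
set_option linter.unusedVariables false

namespace Cfsg.Agent.Lib.MinIndex.M6.Step

open Matrix QuadraticMap Module
open Cfsg.Agent.Lib.Classical.Orth.Basic
open Cfsg.Agent.Lib.Classical.Witt.Hyp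
open Cfsg.Agent.Lib.MinIndex.SpCount Cfsg.Agent.Lib.MinIndex.UCount
open Cfsg.Agent.Lib.MinIndex.M6.Base Cfsg.Agent.Lib.MinIndex.M6.Vec Cfsg.Agent.Lib.MinIndex.M6.Good
open Cfsg.Agent.Lib.MinIndex.M6.Types Cfsg.Agent.Lib.MinIndex.M6.Line

variable {ι : Type} [Fintype ι] [DecidableEq ι] {F : Type*} [Field F] [Fintype F]
variable {Q : QuadraticForm F (ι → F)} [OC Q]

set_option quotPrecheck false in
local notation "𝔣" => polar (⇑Q)

variable {c c' : ι → F}

/-! ### Torus elements -/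

/-- A torus element of the group of the form. -/
structure Tor (t : GG Q) (l : F) (c c' : ι → F) : Prop where
  nrm : Nrm t l c c'
  fixW : ∀ x ∈ WW Q c c', act t.1 x = x
  ne : l ≠ 1

/-- Squares of the field give torus elements. -/
theorem exists_torus (h : HP Q c c') {μ : F} (hμ : μ ≠ 0) (hμ' : μ * μ ≠ 1) : ∃ t : GG Q, Tor t (μ * μ) c c' := by
  classical
  have hQ1 : Q (c - c') = -1 := by
    have := Cfsg.Agent.Lib.Classical.Orth.Levi.Q_sub_smul h.hc h.hc' h.hp 1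
    rwa [one_smul] at this
  have hQ2 : Q (c - μ • c') = -μ := Cfsg.Agent.Lib.Classical.Orth.Levi.Q_sub_smul h.hc h.hc' h.hp μ
  have h10 : Q (c - c') ≠ 0 := by
    rw [hQ1]
    exact neg_ne_zero.2 one_ne_zero
  have h20 : Q (c - μ • c') ≠ 0 := by
    rw [hQ2]
    exact neg_ne_zero.2 hμ
  set r := reflectionIso Q _ h10 with hr
  set r₂ := reflectionIso Q _ h20 with hr₂
  set s := r * r₂ with hs
  have hsact : ∀ x, act s x = x + ((μ - 1) * 𝔣 c' x) • c + ((μ⁻¹ - 1) * 𝔣 c x) • c' :=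
    fun x => Cfsg.Agent.Lib.Classical.Orth.Levi.hyp_scale_apply h.hc h.hc' h.hp hμ x
  have hrc : act r c = c' := by
    rw [hr, reflectionIso_act, hQ1, polar_sub_left, h.cc, h.hp']
    have e : (-1 : F)⁻¹ * (0 - 1) = 1 := by
      rw [inv_neg, inv_one]
      ring
    rw [e, one_smul]
    abel
  have hrc' : act r c' = c := by
    rw [hr, reflectionIso_act, hQ1, polar_sub_left, h.cc', h.hp]
    have e : (-1 : F)⁻¹ * (1 - 0) = -1 := by
      rw [inv_neg, inv_one]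
      ring
    rw [e, neg_smul, one_smul]
    abel
  have hrW : ∀ x ∈ WW Q c c', act r x = x := by
    intro x hx
    rw [hr, reflectionIso_act, polar_sub_left, WW_left hx, WW_right hx]
    simp
  have hsc : act s c = μ • c := by
    rw [hsact, h.hp', h.cc]
    have e : c + ((μ - 1) * 1) • c = μ • c := by module
    rw [e]
    simp
  have hsc' : act s c' = μ⁻¹ • c' := by
    rw [hsact, h.cc', h.hp]
    have e : ((μ⁻¹ - 1) * 1) • c' + c' = μ⁻¹ • c' := by module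
    simp only [mul_zero, zero_smul, add_zero]
    linear_combination (norm := module) e
  have hsW : ∀ x ∈ WW Q c c', act s x = x := by
    intro x hx
    rw [hsact, WW_left hx, WW_right hx]
    simp
  have hsi : ∀ {x y : ι → F}, act s x = y → act s⁻¹ y = x := by
    intro x y e
    rw [← e, act_inv_act]
  have hsic : act s⁻¹ c = μ⁻¹ • c := by
    apply hsi
    rw [act_smul, hsc, smul_smul, inv_mul_cancel₀ hμ, one_smul]
  have hsic' : act s⁻¹ c' = μ • c' := by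
    apply hsi
    rw [act_smul, hsc', smul_smul, mul_inv_cancel₀ hμ, one_smul]
  have hri : ∀ {x y : ι → F}, act r x = y → act r⁻¹ y = x := by
    intro x y e
    rw [← e, act_inv_act]
  have hric : act r⁻¹ c = c' := hri hrc'
  have hric' : act r⁻¹ c' = c := hri hrc
  have hsiW : ∀ x ∈ WW Q c c', act s⁻¹ x = x := fun x hx => hsi (hsW x hx)
  have hriW : ∀ x ∈ WW Q c c', act r⁻¹ x = x := fun x hx => hri (hrW x hx)
  have hmem : s * r * s⁻¹ * r⁻¹ ∈ Cfsg.Omega F (⇑Q) := by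
    have := Subgroup.commutator_mem_commutator (Subgroup.mem_top s) (Subgroup.mem_top r)
    rwa [commutatorElement_def] at this
  refine ⟨⟨s * r * s⁻¹ * r⁻¹, hmem⟩, ⟨⟨mul_ne_zero hμ hμ, ?_, ?_⟩, ?_, hμ'⟩⟩
  · show act (s * r * s⁻¹ * r⁻¹) c = _
    rw [act_mul, act_mul, act_mul, hric, hsic', act_smul, hrc', act_smul, hsc, smul_smul]
  · show act (s * r * s⁻¹ * r⁻¹) c' = _
    rw [act_mul, act_mul, act_mul, hric', hsic, act_smul, hrc, act_smul, hsc', smul_smul, mul_inv]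
  · intro x hx
    show act (s * r * s⁻¹ * r⁻¹) x = x
    rw [act_mul, act_mul, act_mul, hriW x hx, hsiW x hx, hrW x hx, hsW x hx]

section Points

variable {Ω : Type*} [MulAction (GG Q) Ω]

/-- A torus element commutes with the Eichler transformations of the complement. -/
theorem Tor.comm {t : GG Q} {l : F} (ht : Tor t l c c') {d b : ι → F} (hd : Q d = 0) (hb : 𝔣 d b = 0)
    (hdW : d ∈ WW Q c c') (hbW : b ∈ WW Q c c') (y : Ω) : t • E hd hb • y = E hd hb • t • y := by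
  have h1 := conj_E t hd hb
  have h2 : t * E hd hb * t⁻¹ = E hd hb := by
    rw [h1]
    exact E_congr (ht.fixW d hdW) (ht.fixW b hbW) _ _ _ _
  have h3 : t * E hd hb = E hd hb * t := mul_inv_eq_iff_eq_mul.1 h2
  rw [← mul_smul, ← mul_smul, h3]

/-- A torus element scales the root group. -/
theorem Tor.smul_act (h : HP Q c c') {t : GG Q} {l : F} (ht : Tor t l c c') (w : WW Q c c') (y : Ω) :
    t • (wS h Ω).act w y = (wS h Ω).act (l • w) (t • y) := by
  rw [wS_act, wS_act, ← mul_smul, ← mul_smul]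
  congr 1
  have h1 := conj_E t h.hc (WW_left w.2)
  have h2 : t * E h.hc (WW_left w.2) = E (by rw [Q_act]; exact h.hc : Q (act t.1 c) = 0)
      (by rw [polar_act]; exact WW_left w.2 : 𝔣 (act t.1 c) (act t.1 w.1) = 0) * t := by
    rw [← h1]
    group
  rw [h2]
  congr 1
  have h3 : 𝔣 (l • c) w.1 = 0 := by
    rw [polar_smul_left', WW_left w.2, mul_zero]
  have h4 : Q (l • c) = 0 := by rw [Q_smul, h.hc, mul_zero]
  rw [E_congr (z' := l • c) (b' := w.1) ht.nrm.left (ht.fixW _ w.2) _ _ h4 h3]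
  exact E_smul_left l h.hc h4 h3 _

variable [Fintype Ω]

/-- The unique fixed point of a torus element in an orbit. -/
theorem tor_fixed (h : HP Q c c') {t : GG Q} {l : F} (ht : Tor t l c c') {ω : Ω}
    (hS : ∀ r ∈ (wS h Ω).stab ω, ∀ s : F, s • r ∈ (wS h Ω).stab ω) (hω : t • ω ∈ (wS h Ω).orb ω) :
    ∃ ω₁ ∈ (wS h Ω).orb ω, t • ω₁ = ω₁ ∧ ∀ ω₂ ∈ (wS h Ω).orb ω, t • ω₂ = ω₂ → ω₂ = ω₁ := by
  obtain ⟨w₀, hw₀⟩ := (wS h Ω).mem_orb.1 hω
  have hl : l - 1 ≠ 0 := sub_ne_zero.2 ht.ne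
  have hform : ∀ v, t • (wS h Ω).act v ω = (wS h Ω).act (l • v + w₀) ω := by
    intro v
    rw [Tor.smul_act h ht, ← hw₀, (wS h Ω).act_add]
  set v := (-(l - 1)⁻¹) • w₀ with hv
  have hv1 : l • v + w₀ = v := by
    have : (l - 1) • v = -w₀ := by
      rw [hv, smul_smul, mul_neg, mul_inv_cancel₀ hl, neg_smul, one_smul]
    have e : l • v + w₀ = (l - 1) • v + v + w₀ := by
      module
    rw [e, this]
    abel
  refine ⟨(wS h Ω).act v ω, (wS h Ω).mem_orb.2 ⟨v, rfl⟩, ?_, ?_⟩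
  · rw [hform, hv1]
  · intro ω₂ hω₂ hfix
    obtain ⟨v', rfl⟩ := (wS h Ω).mem_orb.1 hω₂
    rw [hform] at hfix
    -- the difference lies in the stabilizer
    have h1 : l • v' + w₀ - v' ∈ (wS h Ω).stab ω := by
      rw [WSet.mem_stab]
      have e : l • v' + w₀ - v' = (-v') + (l • v' + w₀) := by abel
      rw [e, (wS h Ω).act_add, hfix, ← (wS h Ω).act_add, neg_add_cancel, (wS h Ω).act_zero]
    have e2 : l • v' + w₀ - v' = (l - 1) • (v' - v) := by
      have : (l - 1) • v = -w₀ := by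
        rw [hv, smul_smul, mul_neg, mul_inv_cancel₀ hl, neg_smul, one_smul]
      have e5 : (l - 1) • (v' - v) = l • v' - v' - (l - 1) • v := by module
      rw [e5, this]
      abel
    have h2 : v' - v ∈ (wS h Ω).stab ω := by
      have h3 := hS _ h1 (l - 1)⁻¹
      rw [e2, smul_smul, inv_mul_cancel₀ hl, one_smul] at h3
      exact h3
    have e3 : v' = v + (v' - v) := by abel
    rw [e3, (wS h Ω).act_add, (WSet.mem_stab _).1 h2]

variable (h : HP Q c c') (ψ : AddChar F ℂ) (hψ : ψ ≠ 1)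

/-- If the annihilator is closed under scalars then so is the stabilizer. -/
theorem stab_smul {ω : Ω} (hA : ∀ a ∈ ANv h ψ hψ ω, ∀ s : F, s • a ∈ ANv h ψ hψ ω) :
    ∀ r ∈ (wS h Ω).stab ω, ∀ s : F, s • r ∈ (wS h Ω).stab ω := by
  intro r hr s
  have h1 : (pW h ψ hψ).ann (AN h ψ hψ ω) = (wS h Ω).stab ω := by
    unfold AN SS
    exact Pairing.ann_ann _ _
  rw [← h1] at hr ⊢
  intro a ha
  show ψ (𝔣 (s • r).1 a.1) = 1
  have h2 : s • a.1 ∈ ANv h ψ hψ ω := hA a.1 ((mem_ANv h ψ hψ).2 ⟨a.2, ha⟩) s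
  obtain ⟨h3, h4⟩ := (mem_ANv h ψ hψ).1 h2
  have h5 := hr _ h4
  have h6 : (pW h ψ hψ).P r ⟨s • a.1, h3⟩ = ψ (𝔣 r.1 (s • a.1)) := rfl
  rw [h6, polar_smul_right'] at h5
  have e : 𝔣 (s • r).1 a.1 = s * 𝔣 r.1 a.1 := polar_smul_left' _ _ _ _
  rw [e]
  exact h5

/-- Membership in the annihilator through a torus element. -/
theorem mem_ANv_tor {t : GG Q} {l : F} (ht : Tor t l c c') {ω : Ω} {z : ι → F} :
    z ∈ ANv h ψ hψ (t • ω) ↔ l • z ∈ ANv h ψ hψ ω := by
  have hl := ht.nrm.l0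
  constructor
  · intro hz
    obtain ⟨hzW, hz'⟩ := (mem_ANv h ψ hψ).1 hz
    have hW : l • z ∈ WW Q c c' := Submodule.smul_mem _ _ hzW
    refine (mem_ANv h ψ hψ).2 ⟨hW, ?_⟩
    apply (mem_AN_nrm h ψ hψ ht.nrm (ω := ω)).1
    have e : lvE ht.nrm l⁻¹ (inv_ne_zero hl) ⟨l • z, hW⟩ = ⟨z, hzW⟩ := by
      apply Subtype.ext
      rw [coe_lvE, ht.fixW _ hW, smul_smul, inv_mul_cancel₀ hl, one_smul]
    rw [e]
    exact hz'
  · intro hz
    obtain ⟨hW, hz'⟩ := (mem_ANv h ψ hψ).1 hz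
    have hzW : z ∈ WW Q c c' := by
      have := Submodule.smul_mem _ l⁻¹ hW
      rwa [smul_smul, inv_mul_cancel₀ hl, one_smul] at this
    refine (mem_ANv h ψ hψ).2 ⟨hzW, ?_⟩
    have h1 := (mem_AN_nrm h ψ hψ ht.nrm (ω := ω)).2 hz'
    have e : lvE ht.nrm l⁻¹ (inv_ne_zero hl) ⟨l • z, hW⟩ = ⟨z, hzW⟩ := by
      apply Subtype.ext
      rw [coe_lvE, ht.fixW _ hW, smul_smul, inv_mul_cancel₀ hl, one_smul]
    rw [e] at h1
    exact h1

/-- Points of the same orbit have the same annihilator. -/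
theorem ANv_of_mem_orb {ω ω' : Ω} (hm : ω' ∈ (wS h Ω).orb ω) : ANv h ψ hψ ω' = ANv h ψ hψ ω := by
  unfold ANv
  rw [show AN h ψ hψ ω' = AN h ψ hψ ω from SS_of_mem_orb hm]

include ψ hψ in
/-- A group element normalizing the root group preserves an orbit as soon as it moves one point in the orbit. -/
theorem nrm_orb {g : GG Q} {l : F} (hN : Nrm g l c c') {ω ω₁ : Ω} (hg : g • ω ∈ (wS h Ω).orb ω) (hω₁ : ω₁ ∈ (wS h Ω).orb ω) :
    g • ω₁ ∈ (wS h Ω).orb ω := by
  obtain ⟨w, rfl⟩ := (wS h Ω).mem_orb.1 hω₁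
  have h1 := (symOf h ψ hψ hN (Ω := Ω)).hc w ω
  have h2 : g • (wS h Ω).act w ω = (wS h Ω).act _ (g • ω) := h1
  rw [h2]
  obtain ⟨w', hw'⟩ := (wS h Ω).mem_orb.1 hg
  rw [← hw', ← (wS h Ω).act_add]
  exact (wS h Ω).mem_orb.2 ⟨_, rfl⟩

/-- Vectors of a complement from the pair. -/
theorem RFix_of_W {ω : Ω} (hfix : ∀ r : WW Q c c', E h.hc (WW_left r.2) • ω = ω) : RFix Q ω c := by
  refine ⟨h.hc, fun b hb => ?_⟩
  set b₀ := b - 𝔣 b c' • c with hb₀
  have hb₀W : b₀ ∈ WW Q c c' := mem_WW.2 ⟨by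
    rw [hb₀, polar_sub_right, polar_smul_right', hb, h.cc]
    ring, by
    rw [hb₀, polar_sub_right, polar_smul_right', polar_symm c' b, h.hp']
    ring⟩
  have h1 := hfix ⟨b₀, hb₀W⟩
  have e : b = b₀ + 𝔣 b c' • c := by
    rw [hb₀]
    abel
  have h2 : 𝔣 c (b₀ + 𝔣 b c' • c) = 0 := by rw [← e]; exact hb
  rw [E_congr rfl e h.hc hb h.hc h2, E_add_self h.hc _ (WW_left hb₀W) h2]
  exact h1

/-- If no root group fixes the point then its annihilator contains a nonzero vector. -/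
theorem exists_ne_ANv {ω : Ω} (hno : ¬ RFix Q ω c) : ∃ a ∈ ANv h ψ hψ ω, a ≠ 0 := by
  by_contra hcon
  push Not at hcon
  apply hno
  apply RFix_of_W h
  intro r
  apply stab_of_perp h ψ hψ
  intro a ha
  rw [hcon a.1 ((mem_ANv h ψ hψ).2 ⟨a.2, ha⟩)]
  simp [polar]

/-- The hyperplane of a line. -/
theorem lineAt_of_ANv {ω : Ω} {u : ι → F} (hu : u ∈ WW Q c c') (hA : ∀ a ∈ ANv h ψ hψ ω, ∃ t : F, a = t • u) :
    LineAt Q ω c u := by
  refine ⟨h.hc, fun b hb hub => ?_⟩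
  set b₀ := b - 𝔣 b c' • c with hb₀
  have hb₀W : b₀ ∈ WW Q c c' := mem_WW.2 ⟨by
    rw [hb₀, polar_sub_right, polar_smul_right', hb, h.cc]
    ring, by
    rw [hb₀, polar_sub_right, polar_smul_right', polar_symm c' b, h.hp']
    ring⟩
  have e : b = b₀ + 𝔣 b c' • c := by
    rw [hb₀]
    abel
  have h2 : 𝔣 c (b₀ + 𝔣 b c' • c) = 0 := by rw [← e]; exact hb
  rw [E_congr rfl e h.hc hb h.hc h2, E_add_self h.hc _ (WW_left hb₀W) h2]
  apply stab_of_perp h ψ hψ (r := ⟨b₀, hb₀W⟩)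
  intro a ha
  obtain ⟨t, ht⟩ := hA a.1 ((mem_ANv h ψ hψ).2 ⟨a.2, ha⟩)
  show 𝔣 a.1 b₀ = 0
  rw [ht, polar_smul_left', hb₀, polar_sub_right, polar_smul_right', hub, WW_left' hu]
  ring

/-- Annihilators and conjugation from one pair to another. -/
theorem mem_ANv_transfer {d d' : ι → F} (h' : HP Q d d') {g : GG Q} (hg : act g.1 d = c) (hg' : act g.1 d' = c') {ω : Ω}
    {a : ι → F} (ha : a ∈ ANv h' ψ hψ ω) : act g.1 a ∈ ANv h ψ hψ (g • ω) := by
  obtain ⟨haW, ha'⟩ := (mem_ANv h' ψ hψ).1 ha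
  have hgW : act g.1 a ∈ WW Q c c' := mem_WW.2 ⟨by
    rw [← hg, polar_act]
    exact WW_left haW, by
    rw [← hg', polar_act]
    exact WW_right haW⟩
  refine (mem_ANv h ψ hψ).2 ⟨hgW, ?_⟩
  rw [mem_AN]
  rintro ⟨r, hr⟩ hfix
  have hr' : act (g⁻¹).1 r ∈ WW Q d d' := mem_WW.2 ⟨by
    have h1 := polar_act g.1 d (act (g⁻¹).1 r)
    rw [act_GG_act_inv, hg] at h1
    rw [← h1]
    exact WW_left hr, by
    have h1 := polar_act g.1 d' (act (g⁻¹).1 r)
    rw [act_GG_act_inv, hg'] at h1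
    rw [← h1]
    exact WW_right hr⟩
  have h2 := (mem_AN h' ψ hψ).1 ha' ⟨_, hr'⟩ (by
    have h3 := conj_E g h'.hc (WW_left hr')
    have h4 : E (by rw [Q_act]; exact h'.hc : Q (act g.1 d) = 0)
        (by rw [polar_act]; exact WW_left hr' : 𝔣 (act g.1 d) (act g.1 (act (g⁻¹).1 r)) = 0) = E h.hc (WW_left hr) :=
      E_congr hg (act_GG_act_inv g r) _ _ _ _
    rw [h4] at h3
    have h5 : (g * E h'.hc (WW_left hr') * g⁻¹) • (g • ω) = g • ω := by
      rw [h3]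
      exact hfix
    rw [mul_smul, mul_smul, inv_smul_smul] at h5
    exact MulAction.injective g h5)
  have h3 := polar_act g.1 a (act (g⁻¹).1 r)
  rw [act_GG_act_inv] at h3
  simp only [h3]
  exact h2

/-- Annihilators and conjugation from one pair to another, the converse. -/
theorem mem_ANv_transfer' {d d' : ι → F} (h' : HP Q d d') {g : GG Q} (hg : act g.1 d = c) (hg' : act g.1 d' = c') {ω : Ω}
    {z : ι → F} (hz : z ∈ ANv h ψ hψ (g • ω)) : act (g⁻¹).1 z ∈ ANv h' ψ hψ ω := by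
  have h1 : act (g⁻¹).1 c = d := by
    rw [← hg, act_GG_inv_act]
  have h2 : act (g⁻¹).1 c' = d' := by
    rw [← hg', act_GG_inv_act]
  have h3 := mem_ANv_transfer h' ψ hψ h h1 h2 hz
  rwa [inv_smul_smul] at h3

include h in
/-- Vectors of the annihilator at another pair, when a big part of the root group fixes the point. -/
theorem ANv_in_plane {d d' : ι → F} (h' : HP Q d d') (hd : d ∈ WW Q c c') (hd' : d' ∈ WW Q c c') {ω : Ω}
    (hfix : ∀ b ∈ WW Q c c', ∀ hb : 𝔣 d b = 0, E h'.hc hb • ω = ω) {a : ι → F} (ha : a ∈ ANv h' ψ hψ ω) :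
    a = 𝔣 a c' • c + 𝔣 a c • c' := by
  obtain ⟨haW, ha'⟩ := (mem_ANv h' ψ hψ).1 ha
  have hcW : c ∈ WW Q d d' := mem_WW.2 ⟨WW_left' hd, WW_left' hd'⟩
  have hc'W : c' ∈ WW Q d d' := mem_WW.2 ⟨WW_right' hd, WW_right' hd'⟩
  set a₁ := a - 𝔣 a c' • c - 𝔣 a c • c' with ha₁
  have ha₁W : a₁ ∈ WW Q d d' :=
    Submodule.sub_mem _ (Submodule.sub_mem _ haW (Submodule.smul_mem _ _ hcW)) (Submodule.smul_mem _ _ hc'W)
  have hproj : ∀ y, y ∈ WW Q d d' → y - 𝔣 y c' • c - 𝔣 y c • c' ∈ WW Q c c' ⊓ WW Q d d' := by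
    intro y hy
    refine ⟨mem_WW.2 ⟨?_, ?_⟩, Submodule.sub_mem _ (Submodule.sub_mem _ hy (Submodule.smul_mem _ _ hcW))
      (Submodule.smul_mem _ _ hc'W)⟩
    · rw [polar_sub_right, polar_sub_right, polar_smul_right', polar_smul_right', h.cc, h.hp, polar_symm c y]
      ring
    · rw [polar_sub_right, polar_sub_right, polar_smul_right', polar_smul_right', h.cc', h.hp', polar_symm c' y]
      ring
  have hkey : ∀ y₀ ∈ WW Q c c' ⊓ WW Q d d', 𝔣 a y₀ = 0 := by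
    rintro y₀ ⟨hy1, hy2⟩
    have h1 := perp_of_stab h' ψ hψ (ω := ω) (r := ⟨y₀, hy2⟩) (fun t => hfix _ (Submodule.smul_mem _ t hy1) _) ha'
    exact h1
  have h2 : a₁ = 0 := by
    apply h'.nondeg ha₁W
    intro y hy
    obtain ⟨hy1, hy2⟩ := hproj y hy
    have h3 := hkey _ ⟨hy1, hy2⟩
    have hy1c := WW_left hy1
    have hy1c' := WW_right hy1
    have hac : 𝔣 a₁ c = 0 := by
      rw [ha₁, polar_sub_left, polar_sub_left, polar_smul_left', polar_smul_left', h.cc, h.hp']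
      ring
    have hac' : 𝔣 a₁ c' = 0 := by
      rw [ha₁, polar_sub_left, polar_sub_left, polar_smul_left', polar_smul_left', h.cc', h.hp]
      ring
    have e : y = (y - 𝔣 y c' • c - 𝔣 y c • c') + 𝔣 y c' • c + 𝔣 y c • c' := by abel
    rw [e, polar_add_right, polar_add_right, polar_smul_right', polar_smul_right', hac, hac']
    rw [ha₁, polar_sub_left, polar_sub_left, polar_smul_left', polar_smul_left', hy1c, hy1c', h3]
    ring
  have e : a = a₁ + 𝔣 a c' • c + 𝔣 a c • c' := by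
    rw [ha₁]
    abel
  calc a = a₁ + 𝔣 a c' • c + 𝔣 a c • c' := e
    _ = _ := by rw [h2, zero_add]

end Points

section Extra

variable {Ω : Type*} [MulAction (GG Q) Ω] [Fintype Ω]

variable (h : HP Q c c') (ψ : AddChar F ℂ) (hψ : ψ ≠ 1)

/-- Membership in annihilators through an element scaling the pair. -/
theorem mem_ANv_nrm {g : GG Q} {l : F} (hN : Nrm g l c c') {ω : Ω} {z : ι → F} (hz : z ∈ ANv h ψ hψ (g • ω)) :
    l • act (g⁻¹).1 z ∈ ANv h ψ hψ ω := by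
  obtain ⟨hzW, hz'⟩ := (mem_ANv h ψ hψ).1 hz
  have hW : act (g⁻¹).1 z ∈ WW Q c c' := hN.inv.act_mem hzW
  have hW2 : l • act (g⁻¹).1 z ∈ WW Q c c' := Submodule.smul_mem _ _ hW
  refine (mem_ANv h ψ hψ).2 ⟨hW2, ?_⟩
  apply (mem_AN_nrm h ψ hψ hN (ω := ω)).1
  have e : lvE hN l⁻¹ (inv_ne_zero hN.l0) ⟨_, hW2⟩ = ⟨z, hzW⟩ := by
    apply Subtype.ext
    rw [coe_lvE, act_smul, act_GG_act_inv, smul_smul, inv_mul_cancel₀ hN.l0, one_smul]
  rw [e]
  exact hz'

include h in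
/-- The element of a totally singular annihilator: perpendicular separation. -/
theorem exists_perp_sep {d x : ι → F} (hdW : d ∈ WW Q c c') (hxW : x ∈ WW Q c c') (hxd : ∀ t : F, x ≠ t • d) :
    ∃ s ∈ WW Q c c', 𝔣 d s = 0 ∧ 𝔣 x s = 1 := by
  by_contra hcon
  push Not at hcon
  obtain ⟨t, ht⟩ := eq_smul_of_perp h hdW hxW (fun y hy1 hy2 => by
    by_contra hne
    apply hcon ((𝔣 x y)⁻¹ • y) (Submodule.smul_mem _ _ hy1) (by rw [polar_smul_right', hy2]; ring)
    rw [polar_smul_right', inv_mul_cancel₀ hne])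
  exact hxd t ht

include h in
/-- Vectors with all elements singular in a hyperbolic plane lie in a line. -/
theorem line_of_plane {A : AddSubgroup (ι → F)} (hA : ∀ a ∈ A, a = 𝔣 a c' • c + 𝔣 a c • c') (hS : ∀ a ∈ A, Q a = 0)
    {a₀ : ι → F} (ha₀ : a₀ ∈ A) (ha₀0 : a₀ ≠ 0) :
    (∃ α : F, a₀ = α • c ∧ ∀ a ∈ A, ∃ t : F, a = t • c) ∨ (∃ β : F, a₀ = β • c' ∧ ∀ a ∈ A, ∃ t : F, a = t • c') := by
  have hQ2 : ∀ s s' : F, Q (s • c + s' • c') = s * s' := by
    intro s s'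
    have := Q_triple h (u := 0) (Submodule.zero_mem _) s s' 0
    simpa using this
  set α := 𝔣 a₀ c' with hα
  set β := 𝔣 a₀ c with hβ
  have h1 := hA a₀ ha₀
  rw [← hα, ← hβ] at h1
  have h2 : α * β = 0 := by
    rw [← hQ2, ← h1]
    exact hS a₀ ha₀
  have hmix : ∀ a ∈ A, α * 𝔣 a c + 𝔣 a c' * β = 0 := by
    intro a ha
    have e1 := hA a ha
    have e2 := hS _ (A.add_mem ha₀ ha)
    have e3 := hS a ha
    rw [e1, hQ2] at e3
    have e4 : a₀ + a = (α + 𝔣 a c') • c + (β + 𝔣 a c) • c' := by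
      conv_lhs => rw [h1, e1]
      module
    rw [e4, hQ2] at e2
    linear_combination e2 - h2 - e3
  rcases mul_eq_zero.1 h2 with hα0 | hβ0
  · right
    have hβne : β ≠ 0 := by
      intro hb
      apply ha₀0
      rw [h1, hα0, hb]
      simp
    refine ⟨β, by rw [h1, hα0]; simp, fun a ha => ⟨𝔣 a c, ?_⟩⟩
    have e1 := hmix a ha
    rw [hα0, zero_mul, zero_add] at e1
    have e2 : 𝔣 a c' = 0 := (mul_eq_zero.1 e1).resolve_right hβne
    have e3 := hA a ha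
    rw [e2, zero_smul, zero_add] at e3
    exact e3
  · left
    have hαne : α ≠ 0 := by
      intro hb
      apply ha₀0
      rw [h1, hβ0, hb]
      simp
    refine ⟨α, by rw [h1, hβ0]; simp, fun a ha => ⟨𝔣 a c', ?_⟩⟩
    have e1 := hmix a ha
    rw [hβ0, mul_zero, add_zero] at e1
    have e2 : 𝔣 a c = 0 := (mul_eq_zero.1 e1).resolve_left hαne
    have e3 := hA a ha
    rw [e2, zero_smul, add_zero] at e3
    exact e3

end Extra

end Cfsg.Agent.Lib.MinIndex.M6.Step
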