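import Mathlib
import Cfsg.Agent.Lib.MinIndex.M6.Step

/-!
# Minimal degree of the orthogonal groups: regular annihilators, end of the case of no fixed points
-/

set_option autoImplicit false
set_option linter.unusedSectionVars false
set_option linter.unusedSimpArgs false
set_option linter.unusedVariables false

namespace Cfsg.Agent.Lib.MinIndex.M6.Reg

open Matrix QuadraticMap Module
open Cfsg.Agent.Lib.Classical.Orth.Basic
open Cfsg.Agent.Lib.Classical.Witt.Hyp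
open Cfsg.Agent.Lib.MinIndex.SpCount Cfsg.Agent.Lib.MinIndex.UCount
open Cfsg.Agent.Lib.MinIndex.M6.Base Cfsg.Agent.Lib.MinIndex.M6.Vec Cfsg.Agent.Lib.MinIndex.M6.Good
open Cfsg.Agent.Lib.MinIndex.M6.Types Cfsg.Agent.Lib.MinIndex.M6.Line Cfsg.Agent.Lib.MinIndex.M6.Step

variable {ι : Type} [Fintype ι] [DecidableEq ι] {F : Type*} [Field F] [Fintype F]
variable {Q : QuadraticForm F (ι → F)} [OC Q]

set_option quotPrecheck false in
local notation "𝔣" => polar (⇑Q)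

variable {c c' : ι → F}

/-- The numerical facts used. -/
structure ONum (Q : QuadraticForm F (ι → F)) [OC Q] (c c' : ι → F) (N p : ℕ) : Prop where
  n1 : ∀ u : WW Q c c', Q u.1 ≠ 0 → N ≤ p * (clsW u).card
  n2 : ∀ u : WW Q c c', Q u.1 ≠ 0 → N ≤ Fintype.card (WW Q c c') + (clsW u).card
  n5 : N ≤ 2 * Fintype.card (WW Q c c')

variable {Ω : Type*} [MulAction (GG Q) Ω] [Fintype Ω]

variable (h : HP Q c c') (ψ : AddChar F ℂ) (hψ : ψ ≠ 1)

/-- Regular points are preserved by elements scaling the pair. -/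
theorem reg_nrm {g : GG Q} {l : F} (hN : Nrm g l c c') {ω : Ω} (hR : AN h ψ hψ ω = ⊤) : AN h ψ hψ (g • ω) = ⊤ := by
  rw [AN_nrm h ψ hψ hN, hR]
  exact AddSubgroup.map_top_of_surjective _ (lvE hN l⁻¹ (inv_ne_zero hN.l0)).surjective

theorem good_reg : Good h (Yp (fun ω : Ω => AN h ψ hψ ω = ⊤)) := by
  apply good_of
  · intro w ω hω
    rwa [AN_act]
  · intro t l hN ω hω
    exact reg_nrm h ψ hψ hN hω

theorem good_nreg : Good h (Yp (fun ω : Ω => AN h ψ hψ ω ≠ ⊤)) := by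
  apply good_of
  · intro w ω hω
    rwa [AN_act]
  · intro t l hN ω hω hR
    apply hω
    have := reg_nrm h ψ hψ hN.inv hR
    rwa [inv_smul_smul] at this

/-- The stabilizer of a regular point is trivial. -/
theorem reg_stab {ω : Ω} (hR : AN h ψ hψ ω = ⊤) {r : ι → F} (hr : r ∈ WW Q c c')
    (hfix : E h.hc (WW_left hr) • ω = ω) : r = 0 := by
  apply h.nondeg hr
  intro y hy
  apply eq_zero_of_char ψ hψ
  intro t
  have h1 : (⟨t • y, Submodule.smul_mem _ t hy⟩ : WW Q c c') ∈ AN h ψ hψ ω := by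
    rw [hR]
    exact AddSubgroup.mem_top _
  have h2 := (mem_AN h ψ hψ).1 h1 ⟨r, hr⟩ hfix
  rw [polar_symm] at h2
  simp only [polar_smul_left'] at h2
  rw [polar_symm]
  convert h2 using 2
  rw [polar_smul_right', polar_symm]

variable {N p : ℕ} (hnum : ONum Q c c' N p) (hd : Fintype.card Ω < N)

include hnum hd

/-- **Regular annihilators** do not occur. -/
theorem no_regular (hno : ∀ (ω : Ω) (e : ι → F), e ≠ 0 → Q e = 0 → ¬ RFix Q ω e) {t : GG Q} {l : F} (ht : Tor t l c c')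
    {ω : Ω} (hR : AN h ψ hψ ω = ⊤) : False := by
  classical
  have hcardorb : ∀ y : Ω, AN h ψ hψ y = ⊤ → ((wS h Ω).orb y).card = Fintype.card (WW Q c c') := by
    intro y hy
    have h1 : ((wS h Ω).orb y).card = Nat.card (SS (wS h Ω) (pW h ψ hψ) y) := card_orb_eq (Q := pW h ψ hψ) y
    rw [h1]
    have h2 : SS (wS h Ω) (pW h ψ hψ) y = ⊤ := hy
    rw [h2, AddSubgroup.card_top, Nat.card_eq_fintype_card]
  have huniq' : ∀ ω', AN h ψ hψ ω' = ⊤ → ω' ∈ (wS h Ω).orb ω := by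
    intro ω' hω'
    by_contra hne
    have hdisj : Disjoint ((wS h Ω).orb ω) ((wS h Ω).orb ω') := by
      rw [Finset.disjoint_left]
      intro y hy hy'
      apply hne
      have h1 := (wS h Ω).orb_eq_of_mem hy
      have h2 := (wS h Ω).orb_eq_of_mem hy'
      rw [← h1, h2]
      exact (wS h Ω).self_mem_orb ω'
    have h3 := Finset.card_le_univ ((wS h Ω).orb ω ∪ (wS h Ω).orb ω')
    rw [Finset.card_union_of_disjoint hdisj, hcardorb ω hR, hcardorb ω' hω'] at h3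
    have h4 := hnum.n5
    omega
  have hclosed : ∀ a ∈ ANv h ψ hψ ω, ∀ s : F, s • a ∈ ANv h ψ hψ ω := by
    intro a ha s
    obtain ⟨haW, -⟩ := (mem_ANv h ψ hψ).1 ha
    refine (mem_ANv h ψ hψ).2 ⟨Submodule.smul_mem _ _ haW, ?_⟩
    rw [hR]
    exact AddSubgroup.mem_top _
  obtain ⟨ω₁, hω₁, hfix, huniq⟩ := tor_fixed h ht (stab_smul h ψ hψ hclosed) (huniq' _ (reg_nrm h ψ hψ ht.nrm hR))
  have hR₁ : AN h ψ hψ ω₁ = ⊤ := by
    have h1 : SS (wS h Ω) (pW h ψ hψ) ω₁ = SS (wS h Ω) (pW h ψ hψ) ω := SS_of_mem_orb hω₁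
    rw [← hR]
    exact h1
  have hE : ∀ d ∈ WW Q c c', ∀ (hQd : Q d = 0) (b : ι → F), b ∈ WW Q c c' → ∀ hb : 𝔣 d b = 0, E hQd hb • ω₁ = ω₁ := by
    intro d hdW hQd b hbW hb
    have hN := nrm_E (c := c) (c' := c') hQd hb hdW hbW
    apply huniq
    · exact nrm_orb h ψ hψ hN (huniq' _ (reg_nrm h ψ hψ hN hR)) hω₁
    · rw [Tor.comm ht hQd hb hdW hbW, hfix]
  -- the key fact
  have key : ∀ d ∈ WW Q c c', ∀ hQd : Q d = 0, d ≠ 0 → ∀ hb : 𝔣 d c' = 0, E hQd hb • ω₁ = ω₁ := by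
    intro d hdW hQd hd0 hb
    obtain ⟨d', hd'W, hHP⟩ := exists_partner_W_sing h hdW hd0 hQd
    obtain ⟨a₀, ha₀, ha₀0⟩ := exists_ne_ANv hHP ψ hψ (hno ω₁ d hd0 hQd)
    have hplane : ∀ a ∈ ANv hHP ψ hψ ω₁, a = 𝔣 a c' • c + 𝔣 a c • c' :=
      fun a ha => ANv_in_plane h ψ hψ hHP hdW hd'W (fun b hbW hb' => hE d hdW hQd b hbW hb') ha
    obtain ⟨g, hg, hg'⟩ := exists_omega_pair hHP h
    have hcW : c ∈ WW Q d d' := mem_WW.2 ⟨WW_left' hdW, WW_left' hd'W⟩
    have hc'W : c' ∈ WW Q d d' := mem_WW.2 ⟨WW_right' hdW, WW_right' hd'W⟩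
    by_cases hns : ∃ a ∈ ANv hHP ψ hψ ω₁, Q a ≠ 0
    · exfalso
      obtain ⟨a, ha, hQa⟩ := hns
      have hz := mem_ANv_transfer h ψ hψ hHP hg hg' ha
      obtain ⟨hzW, hz'⟩ := (mem_ANv h ψ hψ).1 hz
      have hQz : Q (act g.1 a) ≠ 0 := by rwa [Q_act]
      have hz0 : (⟨act g.1 a, hzW⟩ : WW Q c c') ≠ 0 := by
        intro h0
        apply hQz
        have := congrArg Subtype.val h0
        simp only [ZeroMemClass.coe_zero] at this
        rw [this]
        simp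
      have hnr : AN h ψ hψ (g • ω₁) ≠ ⊤ := by
        intro hR'
        obtain ⟨b, hb1, hb2⟩ := exists_orth_vec (Q := Q) ![c, c', d, d'] ⊥ (by
          have := OC.dim (Q := Q)
          simp only [finrank_bot]
          omega)
        have hb3 : 𝔣 c b = 0 := hb1 0
        have hb4 : 𝔣 c' b = 0 := hb1 1
        have hb5 : 𝔣 d b = 0 := hb1 2
        have hb6 : 𝔣 d' b = 0 := hb1 3
        have hbW : act g.1 b ∈ WW Q c c' := mem_WW.2 ⟨by
          rw [← hg, polar_act]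
          exact hb5, by
          rw [← hg', polar_act]
          exact hb6⟩
        have h1 : act g.1 b ∈ ANv h ψ hψ (g • ω₁) := (mem_ANv h ψ hψ).2 ⟨hbW, by
          rw [hR']
          exact AddSubgroup.mem_top _⟩
        have h2 := mem_ANv_transfer' h ψ hψ hHP hg hg' h1
        rw [act_GG_inv_act] at h2
        have h3 := hplane _ h2
        rw [polar_symm b c', polar_symm b c, hb3, hb4] at h3
        simp only [zero_smul, add_zero] at h3
        apply hb2
        rw [h3]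
        exact Submodule.zero_mem _
      have h1 := mu_class_bound h ψ hψ (good_nreg h ψ hψ (Ω := Ω)) hz0
      have h2 : 1 ≤ mu h ψ hψ (Yp (fun ω : Ω => AN h ψ hψ ω ≠ ⊤)) ⟨act g.1 a, hzW⟩ :=
        one_le_mult (mem_Yp.2 hnr) hz'
      have h6 := Nat.mul_le_mul_left (clsW (⟨act g.1 a, hzW⟩ : WW Q c c')).card h2
      rw [mul_one] at h6
      have h7 := hnum.n2 ⟨act g.1 a, hzW⟩ hQz
      have h8 : (Yp (fun ω : Ω => AN h ψ hψ ω = ⊤)).card + (Yp (fun ω : Ω => AN h ψ hψ ω ≠ ⊤)).card = Fintype.card Ω := by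
        unfold Yp
        rw [Finset.card_filter_add_card_filter_not]
        rfl
      have h9 : ((wS h Ω).orb ω).card ≤ (Yp (fun ω : Ω => AN h ψ hψ ω = ⊤)).card :=
        Finset.card_le_card (orb_subset (good_reg h ψ hψ (Ω := Ω)).inv (mem_Yp.2 hR))
      rw [hcardorb ω hR] at h9
      omega
    · push Not at hns
      rcases line_of_plane h (A := ANv hHP ψ hψ ω₁) hplane hns ha₀ ha₀0 with ⟨α, hα, hh⟩ | ⟨β, hβ, hh⟩
      · exfalso
        have hdc : 𝔣 d c = 0 := WW_left' hdW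
        have h1 : E hQd hdc • ω₁ = ω₁ := stab_of_perp hHP ψ hψ (r := ⟨c, hcW⟩) (by
          intro a ha
          obtain ⟨s, hs⟩ := hh a.1 ((mem_ANv hHP ψ hψ).2 ⟨a.2, ha⟩)
          show 𝔣 a.1 c = 0
          rw [hs, polar_smul_left', h.cc, mul_zero])
        have hneg : -d ∈ WW Q c c' := Submodule.neg_mem _ hdW
        have h2 : E hQd hdc = E h.hc (WW_left hneg) := E_swap hQd h.hc hdc (WW_left hneg)
        rw [h2] at h1
        have h3 := reg_stab h ψ hψ hR₁ hneg h1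
        exact hd0 (neg_eq_zero.1 h3)
      · exact stab_of_perp hHP ψ hψ (r := ⟨c', hc'W⟩) (by
          intro a ha
          obtain ⟨s, hs⟩ := hh a.1 ((mem_ANv hHP ψ hψ).2 ⟨a.2, ha⟩)
          show 𝔣 a.1 c' = 0
          rw [hs, polar_smul_left', h.cc', mul_zero])
  -- the root group of the second vector fixes the point
  obtain ⟨a, a', ha, ha1, ha2⟩ := exists_HP_W h
  set S : AddSubgroup (ι → F) := ((wS h.symm Ω).stab ω₁).map (WW Q c' c).subtype.toAddMonoidHom with hS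
  have hmemS : ∀ e (he : e ∈ WW Q c' c), E h.hc' (WW_left he) • ω₁ = ω₁ → e ∈ S := by
    intro e he hfix'
    exact ⟨⟨e, he⟩, hfix', rfl⟩
  have hall : ∀ y ∈ WW Q c c', y ∈ S := by
    intro y hy
    apply mem_of_sing ha ha1 ha2 S (fun e he hQe => ?_) hy
    have he' : e ∈ WW Q c' c := by rwa [WW_symm]
    apply hmemS e he'
    by_cases he0 : e = 0
    · have : E h.hc' (WW_left he') = 1 := E_zero _ _ he0
      rw [this, one_smul]
    · have hm : -e ∈ WW Q c c' := Submodule.neg_mem _ he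
      have hQm : Q (-e) = 0 := by rw [QuadraticMap.map_neg, hQe]
      have hb : 𝔣 (-e) c' = 0 := WW_right' hm
      have h1 := key (-e) hm hQm (neg_ne_zero.2 he0) hb
      have h2 : E hQm hb = E h.hc' (WW_left he') := by
        rw [E_swap hQm h.hc' hb (by rw [neg_neg]; exact WW_left he')]
        exact E_congr rfl (neg_neg e) _ _ _ _
      rwa [h2] at h1
  apply hno ω₁ c' h.ne_zero' h.hc'
  apply RFix_of_W h.symm
  intro r
  have h1 := hall r.1 (mem_WW.2 ⟨WW_right r.2, WW_left r.2⟩)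
  obtain ⟨r', hr', e⟩ := h1
  have e' : r' = r := Subtype.ext e
  rw [e'] at hr'
  exact hr'

omit hnum hd in
include h ψ hψ in
/-- **No fixed points of root groups, no regular points**: the end of the argument. -/
theorem case_core (hno : ∀ (ω : Ω) (e : ι → F), e ≠ 0 → Q e = 0 → ¬ RFix Q ω e)
    (htype : ∀ (ω : Ω) (u : WW Q c c'), u ∈ AN h ψ hψ ω → Q u.1 ≠ 0 → ∀ x ∈ AN h ψ hψ ω, ∃ s : F, x.1 = s • u.1)
    (ω : Ω) : False := by
  classical
  apply no_lines h ω (hno ω)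
  intro d d' h'
  obtain ⟨g, hg, hg'⟩ := exists_omega_pair h' h
  have hall : ∃ u ∈ WW Q c c', u ≠ 0 ∧ ∀ x ∈ ANv h ψ hψ (g • ω), ∃ s : F, x = s • u := by
    obtain ⟨a₀, ha₀, ha₀0⟩ := exists_ne_ANv h ψ hψ (hno (g • ω) c h.ne_zero h.hc)
    obtain ⟨ha₀W, ha₀'⟩ := (mem_ANv h ψ hψ).1 ha₀
    by_cases hns : ∃ a ∈ ANv h ψ hψ (g • ω), Q a ≠ 0
    · obtain ⟨a, ha, hQa⟩ := hns
      obtain ⟨haW, ha'⟩ := (mem_ANv h ψ hψ).1 ha
      have ha0 : a ≠ 0 := by
        rintro rfl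
        simp at hQa
      refine ⟨a, haW, ha0, ?_⟩
      intro x hx
      obtain ⟨hxW, hx'⟩ := (mem_ANv h ψ hψ).1 hx
      exact htype _ ⟨a, haW⟩ ha' hQa ⟨x, hxW⟩ hx'
    · push Not at hns
      refine ⟨a₀, ha₀W, ha₀0, ?_⟩
      intro x hx
      obtain ⟨hxW, hx'⟩ := (mem_ANv h ψ hψ).1 hx
      have h1 : 𝔣 a₀ x = 0 := by
        have h2 := hns _ (AddSubgroup.add_mem _ ha₀ hx)
        rw [Q_add, hns _ ha₀, hns _ hx] at h2
        simpa using h2
      exact prop_of_perp h ha₀W hxW (hns _ ha₀) (hns _ hx) h1 ha₀0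
  obtain ⟨u, huW, hu0, hu⟩ := hall
  have hgi : act (g⁻¹).1 c = d := by rw [← hg, act_GG_inv_act]
  have hgi' : act (g⁻¹).1 c' = d' := by rw [← hg', act_GG_inv_act]
  have hu'W : act (g⁻¹).1 u ∈ WW Q d d' := mem_WW.2 ⟨by
    rw [← hgi, polar_act]
    exact WW_left huW, by
    rw [← hgi', polar_act]
    exact WW_right huW⟩
  refine ⟨act (g⁻¹).1 u, hu'W, ?_, lineAt_of_ANv h' ψ hψ hu'W ?_⟩
  · intro h0
    apply hu0
    have := act_GG_act_inv g u
    rw [h0] at this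
    rw [← this]
    simp
  · intro a ha
    obtain ⟨s, hs⟩ := hu _ (mem_ANv_transfer h ψ hψ h' hg hg' ha)
    refine ⟨s, ?_⟩
    have h1 := act_GG_inv_act g a
    rw [hs, act_smul] at h1
    exact h1.symm

include h ψ hψ in
/-- **No fixed points of root groups**: the end of the argument for `q ≥ 4`. -/
theorem case_B (hno : ∀ (ω : Ω) (e : ι → F), e ≠ 0 → Q e = 0 → ¬ RFix Q ω e) {t : GG Q} {l : F} (ht : Tor t l c c')
    (hp : p.Prime) (hp0 : (p : F) = 0) (hq : (2 : F) ≠ 0 ∨ ∃ σ : F, σ ≠ 0 ∧ σ ≠ 1) (ω : Ω) : False := by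
  classical
  have hmu : ∀ u : WW Q c c', Q u.1 ≠ 0 → mu h ψ hψ (Finset.univ : Finset Ω) u < p := by
    intro u hu
    have hu0 : u ≠ 0 := by
      intro h0
      apply hu
      rw [h0]
      simp
    have h1 := mu_class_bound h ψ hψ (good_univ h (Ω := Ω)) hu0
    rw [Finset.card_univ] at h1
    have h2 := hnum.n1 u hu
    have h3 : (clsW u).card * mu h ψ hψ (Finset.univ : Finset Ω) u < (clsW u).card * p := by
      rw [mul_comm _ p]
      omega
    exact Nat.lt_of_mul_lt_mul_left h3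
  refine case_core h ψ hψ hno (fun ω' u hu hQu x hx => ?_) ω
  rcases AN_dichotomy h ψ hψ hp hp0 hq hmu hu hQu with h1 | h1
  · exact h1 x hx
  · exact (no_regular h ψ hψ hnum hd hno ht h1).elim

end Cfsg.Agent.Lib.MinIndex.M6.Reg
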